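import Cfsg.Statements.S2034
import Cfsg.Agent.Mult.Split
import Cfsg.Agent.Gol.Cert

set_option autoImplicit false
open Cfsg

namespace Cfsg.Agent.S2034

open Cfsg.Agent.CGT Cfsg.Agent.Mult Cfsg.Agent.Gol
set_option maxRecDepth 100000

def u2_D : PC := ⟨2, 4, 2, 16,
  [[0x40, 0x14, 0x50, 0x40], [0, 0, 0x50, 0x40], [0, 0, 0x40, 0x40], [0, 0, 0, 0]],
  [0xf, 3, 0, 0],
  [(4, 1, 0x50), (4, 0x10, 1), (4, 0x40, 0x40), (5, 4, 0x40)], 11, 0x2000103000000000000⟩
def u2_ds : List (List ℕ) := [[6, 8, 1, 8, 6, 3], [3, 8, 4, 6, 0, 4], [8, 4, 6, 4, 8, 3], [4, 0, 8, 4, 8], [1, 4, 0, 8, 3, 6], [0, 8, 2, 4, 8]]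
def u2_c : Mult.Cert := ⟨19, 14, [[], [], [1], [2]],
  [],
  [[0xee, 0, 0, 0x100], [0, 0x1a1, 0x178, 0x1e0], [0, 0, 0x48, 0x80], [0, 0, 0, 0x1a0]]⟩
theorem u2_all : allB u2_D u2_c [.assoc 1 1 1, .assoc 0x10 0x10 0x10, .assoc 0x10 4 4, .assoc 0x10 1 1, .assoc 4 4 1, .assoc 4 1 1, .fus 4 [1, 1] [2], .fus 4 [1, 0] [0, 1, 2], .fus 5 [3, 3] []] 5 m11_ts u2_ds [5, 4, 3, 2] [(3, [4]), (0, [0x10, 1]), (2, [0x40])] = true := by decide +kernel
theorem u2_pb {G : Type*} [Group G] [Finite G] {φ : G →* Equiv.Perm ℕ} {γ : ℕ → G}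
    (M : Model φ γ 5 m11_ns m11_ts) (hB : IsBase φ ⊤ [5, 4, 3, 2]) (hN : Nat.card G = 7920) : PBound G 2 0 :=
  pbound_all M hB hN (by decide +kernel) (by decide +kernel) u2_all
def u3_D : PC := ⟨3, 2, 2, 16,
  [[0, 4], [0, 0]],
  [0, 0],
  [(2, 1, 2), (2, 4, 4), (3, 4, 1)], 5, 0x10001⟩
def u3_ds : List (List ℕ) := [[6, 0, 8, 4], [3, 8, 6, 3, 6], [1, 1, 4, 8, 6, 3], [8, 4, 1, 8, 1, 6]]
def u3_c : Mult.Cert := ⟨11, 14, [[], []],
  [],
  [[3, 9], [0, 5]]⟩
theorem u3_all : allB u3_D u3_c [.fus 2 [1, 0] [0, 1], .fus 2 [0, 0, 0] [], .fus 3 [2, 2, 2] []] 5 m11_ts u3_ds [5, 4, 3, 2] [(0, [4]), (2, [1])] = true := by decide +kernel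
theorem u3_pb {G : Type*} [Group G] [Finite G] {φ : G →* Equiv.Perm ℕ} {γ : ℕ → G}
    (M : Model φ γ 5 m11_ns m11_ts) (hB : IsBase φ ⊤ [5, 4, 3, 2]) (hN : Nat.card G = 7920) : PBound G 3 0 :=
  pbound_all M hB hN (by decide +kernel) (by decide +kernel) u3_all

/-- The Schur multiplier of the Mathieu group M₁₁ (the stabiliser of a dodecad and one of its points in the automorphism group of the length-24 binary code) is trivial; here the Schur multiplier is described through stem extensions, as in the definitions: surjective homomorphisms onto the group from a finite group, whose kernel is central in that finite group and contained in that finite group's commutator subgroup. -/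
theorem result : Cfsg.HasCyclicSchurMultiplier ↥Cfsg.Spor.M11 1 := by
  haveI := m11_cert.fin
  exact triv_of_bounds m11_card [(2, 4), (3, 2), (5, 1), (11, 1)] (by decide +kernel) (by decide +kernel) (by
    simp only [List.forall_mem_cons, List.not_mem_nil, IsEmpty.forall_iff, implies_true, and_true]
    exact ⟨.inr (u2_pb m11_cert.M m11_cert.base m11_card),
      .inr (u3_pb m11_cert.M m11_cert.base m11_card),
      .inl (by decide),
      .inl (by decide)⟩)

end Cfsg.Agent.S2034
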