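import Cfsg.Statements.S2035
import Cfsg.Agent.Gol.M12Mul
import Cfsg.Agent.Gol.M12c2

set_option autoImplicit false
open Cfsg

namespace Cfsg.Agent.S2035

open Cfsg.Agent.CGT Cfsg.Agent.Mult Cfsg.Agent.Gol

/-- The Schur multiplier of the Mathieu group M₁₂ (the stabiliser of a dodecad in the automorphism group of the length-24 binary code) is cyclic of order 2; here the Schur multiplier is described through stem extensions, as in the definitions: surjective homomorphisms onto the group from a finite group, whose kernel is central in that finite group and contained in that finite group's commutator subgroup. -/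
theorem result : Cfsg.HasCyclicSchurMultiplier ↥Cfsg.Spor.M12 2 := by
  haveI := m12_cert.fin
  exact cyc_of_bounds (perfP_sound m12_cert.gen m12_rels 6 [[5, 6, 6, 12, 20, 31, 33], [0, 6, 31], [18, 35], [3, 3, 9, 10, 14], [1, 2, 2, 4, 12, 15, 35], [29, 30]] (by decide +kernel))
    (stem_proj m12_cert.gen m12_rels m12_card (fun h => m12bd0 h) m12c2_proj 6 [0, 0, 0, 4, 6, 13, 14, 25, 31] (by decide +kernel))
    m12_card [(2, 6), (3, 3), (5, 1), (11, 1)] (by decide +kernel) (by decide +kernel) (by
    simp only [List.forall_mem_cons, List.not_mem_nil, IsEmpty.forall_iff, implies_true, and_true]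
    exact ⟨.inr ⟨1, by decide, m12u2_pb m12_cert.M m12_cert.base m12_card⟩,
      .inr ⟨0, by decide, m12u3_pb m12_cert.M m12_cert.base m12_card⟩,
      .inl (by decide),
      .inl (by decide)⟩)

end Cfsg.Agent.S2035
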