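import Cfsg.Statements.S2036
import Cfsg.Agent.Gol.M22Mul
import Cfsg.Agent.Gol.M22c3
import Cfsg.Agent.Gol.M22c4

set_option autoImplicit false
open Cfsg

namespace Cfsg.Agent.S2036

open Cfsg.Agent.CGT Cfsg.Agent.Mult Cfsg.Agent.Gol

/-- The Schur multiplier of the Mathieu group M₂₂ (the permutations in the automorphism group of the length-24 binary code that fix each of two given points) is cyclic of order 12; here the Schur multiplier is described through stem extensions, as in the definitions: surjective homomorphisms onto the group from a finite group, whose kernel is central in that finite group and contained in that finite group's commutator subgroup. -/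
theorem result : Cfsg.HasCyclicSchurMultiplier ↥Cfsg.Spor.M22 12 := by
  haveI := m22_cert.fin
  exact cyc_of_bounds (perfP_sound m22_cert.gen m22_rels 6 [[1, 1, 1, 5, 5, 5, 5, 5, 5, 6, 11, 11, 11, 11, 11, 11, 11, 11, 11, 11, 11, 11, 13, 13, 13, 13, 13, 13, 14, 14, 24, 24, 24, 24, 24, 24, 24, 29], [0, 0, 0, 0, 0, 0, 0, 4, 4, 4, 4, 4, 4, 4, 4, 4, 4, 4, 4, 4, 4, 4, 4, 4, 4, 10, 10, 10, 10, 10, 10, 10, 10, 10, 10, 10, 10, 10, 10, 10, 10, 10, 10, 10, 10, 10, 10, 10, 10, 10, 10, 10, 10, 10, 12, 12, 12, 12, 12, 12, 12, 12, 12, 12, 12, 12, 12, 12, 12, 12, 12, 12, 15, 15, 15, 15, 15, 25, 25, 25, 25, 25, 25, 25, 25, 25, 25, 25, 25, 25, 25, 25, 25, 25, 25], [1, 5, 5, 5, 5, 5, 5, 5, 9, 11, 11, 11, 11, 11, 11, 11, 11, 11, 11, 11, 11, 11, 13, 13, 13, 13, 13, 13, 13, 13, 13, 14, 16, 21, 24, 24, 24, 24, 24, 24, 24, 24, 34], [5, 5, 11, 11, 11, 11, 11, 13, 13, 13, 16, 21, 24, 24, 24], [2, 8, 28, 31, 35], [3, 5, 7, 8, 28, 37]] (by decide +kernel))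
    (Stem.mul (stem_proj m22_cert.gen m22_rels m22_card (fun h => m22bd0 h) m22c4_proj 6 [10, 12, 15, 21, 22] (by decide +kernel))
      (stem_proj m22_cert.gen m22_rels m22_card (fun h => m22bd0 h) m22c3_proj 6 [4, 8, 11, 23, 24, 35] (by decide +kernel)) (by decide))
    m22_card [(2, 7), (3, 2), (5, 1), (7, 1), (11, 1)] (by decide +kernel) (by decide +kernel) (by
    simp only [List.forall_mem_cons, List.not_mem_nil, IsEmpty.forall_iff, implies_true, and_true]
    exact ⟨.inr ⟨2, by decide, m22u2_pb m22_cert.M m22_cert.base m22_card⟩,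
      .inr ⟨1, by decide, m22u3_pb m22_cert.M m22_cert.base m22_card⟩,
      .inl (by decide),
      .inl (by decide),
      .inl (by decide)⟩)

end Cfsg.Agent.S2036
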