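import Cfsg.Statements.S2039
import Cfsg.Agent.J1C.Cert
import Cfsg.Agent.J1C.Mul2

set_option autoImplicit false
open Cfsg

namespace Cfsg.Agent.S2039

open Cfsg.Agent.CGT Cfsg.Agent.Mult Cfsg.Agent.J1C

/-- The Schur multiplier of the Janko group J₁ (the group generated by two explicit 7 × 7 matrices over the integers modulo 11) is trivial; here the Schur multiplier is described through stem extensions, as in the definitions: surjective homomorphisms onto the group from a finite group, whose kernel is central in that finite group and contained in that finite group's commutator subgroup. -/
theorem result : Cfsg.HasCyclicSchurMultiplier ↥Cfsg.Spor.J1 1 := by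
  obtain ⟨φ, C⟩ := cert
  haveI := C.fin
  exact triv_of_bounds card_eq [(2, 3), (3, 1), (5, 1), (7, 1), (11, 1), (19, 1)] (by decide +kernel) (by decide +kernel) (by
    simp only [List.forall_mem_cons, List.not_mem_nil, IsEmpty.forall_iff, implies_true, and_true]
    exact ⟨.inr (u2_pb C.M C.base card_eq),
      .inl (by decide),
      .inl (by decide),
      .inl (by decide),
      .inl (by decide),
      .inl (by decide)⟩)

end Cfsg.Agent.S2039
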