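import Cfsg.Statements.S2040
import Cfsg.Agent.J2C.Cert
import Cfsg.Agent.J2C.Mulc2
import Cfsg.Agent.J2C.Mul2
import Cfsg.Agent.J2C.Mul3
import Cfsg.Agent.J2C.Mul5

set_option autoImplicit false
open Cfsg

namespace Cfsg.Agent.S2040

open Cfsg.Agent.CGT Cfsg.Agent.Mult Cfsg.Agent.J2C

/-- The Schur multiplier of the Hall–Janko group J₂ (the icosian reflection group modulo its centre) is cyclic of order 2; here the Schur multiplier is described through stem extensions, as in the definitions: surjective homomorphisms onto the group from a finite group, whose kernel is central in that finite group and contained in that finite group's commutator subgroup. -/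
theorem result : Cfsg.HasCyclicSchurMultiplier Cfsg.Spor.J2 2 := by
  obtain ⟨φ, C⟩ := cert
  haveI := C.fin
  exact cyc_of_bounds (perfP_sound gen_top rels' 6 [[6, 6, 18, 23, 28, 33], [2, 6, 6, 6, 23, 26, 33], [4, 6, 6, 6, 25, 28, 33], [6, 12, 23], [7, 7, 7, 9, 9, 13, 22, 32], [10, 13, 22, 41]] (by decide +kernel))
    (stem_proj gen_top rels' card_eq (fun h => bd0 h) mulc2_proj 6 [1, 2, 6, 16, 42, 51] (by decide +kernel))
    card_eq [(2, 7), (3, 3), (5, 2), (7, 1)] (by decide +kernel) (by decide +kernel) (by
    simp only [List.forall_mem_cons, List.not_mem_nil, IsEmpty.forall_iff, implies_true, and_true]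
    exact ⟨.inr ⟨1, by decide, u2_pb C.M C.base card_eq⟩,
      .inr ⟨0, by decide, u3_pb C.M C.base card_eq⟩,
      .inr ⟨0, by decide, u5_pb C.M C.base card_eq⟩,
      .inl (by decide)⟩)

end Cfsg.Agent.S2040
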