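import Cfsg.Statements.S2041
import Cfsg.Agent.J3C.Cert
import Cfsg.Agent.J3C.Mulc3
import Cfsg.Agent.J3C.Mul2
import Cfsg.Agent.J3C.Mul3

set_option autoImplicit false
open Cfsg

namespace Cfsg.Agent.S2041

open Cfsg.Agent.CGT Cfsg.Agent.Mult Cfsg.Agent.J3C

/-- For any field with 4 elements and any element ω of it with ω² + ω + 1 = 0: the Schur multiplier of the Janko group J₃ (the group generated by explicit 9 × 9 matrices over that field built from ω, taken modulo its centre) is cyclic of order 3; here the Schur multiplier is described through stem extensions, as in the definitions: surjective homomorphisms onto the group from a finite group, whose kernel is central in that finite group and contained in that finite group's commutator subgroup. -/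
theorem result {F : Type*} [Field F] [Fintype F] (hF : Fintype.card F = 4) (ω : F) (hω : ω ^ 2 + ω + 1 = 0) : Cfsg.HasCyclicSchurMultiplier (Cfsg.Spor.J3 F ω) 3 := by
  obtain ⟨φ, C⟩ := cert hF ω hω
  haveI := C.fin
  have gen := gen_top hF ω hω
  have hR := rels' hF ω hω
  have hN := card_eq hF ω hω
  exact cyc_of_bounds (perfP_sound gen hR 6 [[5, 29, 32], [0, 0, 2, 5, 13, 29, 32], [0, 6, 8, 8, 29], [3, 3, 5, 7, 11, 51, 52], [9, 9, 10, 16, 50, 55], [10, 10, 16, 55]] (by decide +kernel))
    (stem_proj gen hR hN (fun h => bd0 h) (mulc3_proj (holds_lp C.M.gen hR)) 6 [1, 5, 5, 9, 10, 16, 25, 28, 50, 57] (by decide +kernel))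
    hN [(2, 7), (3, 5), (5, 1), (17, 1), (19, 1)] (by decide +kernel) (by decide +kernel) (by
    simp only [List.forall_mem_cons, List.not_mem_nil, IsEmpty.forall_iff, implies_true, and_true]
    exact ⟨.inr ⟨0, by decide, u2_pb C.M C.base hN⟩,
      .inr ⟨1, by decide, u3_pb C.M C.base hN⟩,
      .inl (by decide),
      .inl (by decide),
      .inl (by decide)⟩)

end Cfsg.Agent.S2041
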