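import Cfsg.Statements.S2043
import Cfsg.Agent.Co1C.Cert
import Cfsg.Agent.Co1C.Mul2
import Cfsg.Agent.Co1C.Mul3
import Cfsg.Agent.Co1C.Mul5
import Cfsg.Agent.Co1C.Mul7

set_option autoImplicit false
open Cfsg

namespace Cfsg.Agent.S2043

open Cfsg.Agent.CGT Cfsg.Agent.Mult Cfsg.Agent.Co1C

/-- The Schur multiplier of the Conway group Co₁ (the automorphism group of the rank-24 lattice modulo its centre) is cyclic of order 2; here the Schur multiplier is described through stem extensions, as in the definitions: surjective homomorphisms onto the group from a finite group, whose kernel is central in that finite group and contained in that finite group's commutator subgroup. -/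
theorem result : Cfsg.HasCyclicSchurMultiplier Cfsg.Spor.Co1 2 := by
  obtain ⟨φ, C⟩ := cert
  haveI := C.fin
  exact cyc_of_bounds (perfP_sound C.gen (relsB_sound (R := [[0, 0, 0], [2, 2], [4, 4, 4, 4, 4, 4], [6, 6], [8, 8], [10, 10], [0, 2, 0, 2], [2, 6, 2, 6, 2, 6, 2, 6, 2, 6], [0, 4, 0, 4, 0, 4, 0, 4, 0, 4, 0, 4], [0, 4, 2, 4, 0, 4, 2, 4, 0, 4, 2, 4], [0, 2, 8, 0, 2, 8, 0, 2, 8, 0, 2, 8, 0, 2, 8], [2, 4, 2, 4, 2, 4, 2, 4, 2, 4, 2, 4, 2, 4, 2, 4], [0, 6, 4, 0, 6, 4, 0, 6, 4, 0, 6, 4, 0, 6, 4, 0, 6, 4, 0, 6, 4, 0, 6, 4, 0, 6, 4, 0, 6, 4, 0, 6, 4], [0, 4, 6, 10, 0, 4, 6, 10, 0, 4, 6, 10, 0, 4, 6, 10, 0, 4, 6, 10, 0, 4, 6, 10, 0, 4, 6, 10, 0, 4, 6, 10, 0, 4, 6, 10]]) C.M C.base (by decide +kernel) (fun _ _ => trivial) (by decide +kernel)) 6 [[1, 3, 12], [0, 2, 4, 19], [3, 4, 6, 6, 6, 12, 14, 16, 18, 23, 25], [1, 2, 5, 6, 6, 15, 18], [5, 8, 8, 12, 18, 21], [2, 2, 2, 2, 2, 4, 7, 10, 10, 10, 10, 13, 23, 24, 27]] (by decide +kernel))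
    (Stem.of_any (σ := QuotientGroup.mk' (Subgroup.center Cfsg.Co0))
      ⟨QuotientGroup.mk'_surjective _, by rw [QuotientGroup.ker_mk'],
        by rw [QuotientGroup.ker_mk']; exact Leech.center_le_commutator⟩
      (mulEquivOfPrimeCardEq (p := 2) (by rw [QuotientGroup.ker_mk']; exact Leech.card_center) (by simp)))
    card_eq [(2, 21), (3, 9), (5, 4), (7, 2), (11, 1), (13, 1), (23, 1)] (by decide +kernel) (by decide +kernel) (by
    simp only [List.forall_mem_cons, List.not_mem_nil, IsEmpty.forall_iff, implies_true, and_true]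
    exact ⟨.inr ⟨1, by decide, u2_pb C.M C.base card_eq⟩,
      .inr ⟨0, by decide, u3_pb C.M C.base card_eq⟩,
      .inr ⟨0, by decide, u5_pb C.M C.base card_eq⟩,
      .inr ⟨0, by decide, u7_pb C.M C.base card_eq⟩,
      .inl (by decide),
      .inl (by decide),
      .inl (by decide)⟩)

end Cfsg.Agent.S2043
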