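import Cfsg.Statements.S2046
import Cfsg.Agent.HSC.MulUp
import Cfsg.Agent.HSC.Mulc2

set_option autoImplicit false
open Cfsg

namespace Cfsg.Agent.S2046

open Cfsg.Agent.CGT Cfsg.Agent.Mult Cfsg.Agent.HSC

/-- The Schur multiplier of the Higman–Sims group (as a two-vector stabiliser in the automorphism group of the rank-24 lattice) is cyclic of order 2; here the Schur multiplier is described through stem extensions, as in the definitions: surjective homomorphisms onto the group from a finite group, whose kernel is central in that finite group and contained in that finite group's commutator subgroup. -/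
theorem result : Cfsg.HasCyclicSchurMultiplier ↥Cfsg.Spor.HS 2 := by
  obtain ⟨φ, C⟩ := cert
  haveI := C.fin
  exact cyc_of_bounds (perfP_sound C.gen (q_rels C) 5 [[6, 6, 6, 6, 6, 6, 6, 6, 6, 6, 6, 6, 6, 6, 6, 6, 6, 6, 6, 6, 6, 6, 6, 6, 6, 6, 6, 6, 6, 6, 6, 6, 6, 6, 6, 6, 6, 13, 13, 13, 13, 13, 13, 13, 13, 13, 13, 13, 13, 13, 13, 13, 13, 13, 13, 13, 13, 13, 13, 13, 13, 13, 13, 13, 13], [1, 2, 4, 4, 7, 7, 7, 7, 7, 7, 7, 7, 7, 7, 7, 7, 7, 7, 7, 7, 7, 7, 7, 7, 7, 7, 7, 7, 7, 7, 7, 7, 7, 10, 12, 12, 12, 12, 12, 12, 12, 12, 12, 12, 12, 12, 12, 12, 12, 12, 12, 12, 12, 16, 18, 23, 47], [0, 3, 5, 5, 6, 6, 6, 6, 6, 13, 13, 13, 19, 46], [3, 4, 4, 7, 7, 12, 26, 47], [0, 0, 2, 5, 5, 19, 39, 48]] (by decide +kernel))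
    (stem_proj C.gen (q_rels C) card_eq (fun h => qbd0 h) mulc2_proj 5 [0, 0, 10, 14, 19] (by decide +kernel))
    card_eq [(2, 9), (3, 2), (5, 3), (7, 1), (11, 1)] (by decide +kernel) (by decide +kernel) (by
    simp only [List.forall_mem_cons, List.not_mem_nil, IsEmpty.forall_iff, implies_true, and_true]
    exact ⟨.inr ⟨1, by decide, u2_pb C.M C.base card_eq⟩,
      .inr ⟨0, by decide, u3_pb C.M C.base card_eq⟩,
      .inr ⟨0, by decide, u5_pb C.M C.base card_eq⟩,
      .inl (by decide),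
      .inl (by decide)⟩)

end Cfsg.Agent.S2046
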