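import Cfsg.Statements.S2048
import Cfsg.Agent.SuzC.Cert
import Cfsg.Agent.SuzC.Mulc2
import Cfsg.Agent.SuzC.Mulc3
import Cfsg.Agent.SuzC.Mul2
import Cfsg.Agent.SuzC.Mul3
import Cfsg.Agent.SuzC.Mul5

set_option autoImplicit false
open Cfsg

namespace Cfsg.Agent.S2048

open Cfsg.Agent.CGT Cfsg.Agent.Mult Cfsg.Agent.SuzC

/-- The Schur multiplier of the Suzuki sporadic group (the finitely presented group of the definitions) is cyclic of order 6; here the Schur multiplier is described through stem extensions, as in the definitions: surjective homomorphisms onto the group from a finite group, whose kernel is central in that finite group and contained in that finite group's commutator subgroup. -/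
theorem result : Cfsg.HasCyclicSchurMultiplier Cfsg.Spor.Suz 6 := by
  obtain ⟨φ, C⟩ := cert
  haveI := C.fin
  exact cyc_of_bounds (perfP_sound gen_top rels 7 [[1, 1, 1, 10, 10, 10, 10, 12, 14, 33, 34, 63], [1, 1, 3, 3, 3, 10, 12, 14, 59], [1, 1, 3, 4, 10, 12, 14, 27, 59], [0, 0, 3, 3, 3, 3, 3, 5, 5, 5, 5, 5, 5, 5, 5, 5, 5, 5, 5, 5, 5, 5, 7, 7, 7, 7, 7, 7, 7, 7, 7, 7, 7, 7, 7, 7, 11, 13, 15, 45, 58, 64], [0, 0, 3, 3, 3, 3, 3, 5, 5, 5, 5, 5, 5, 5, 5, 5, 5, 5, 5, 5, 5, 5, 7, 7, 7, 7, 7, 7, 7, 7, 7, 7, 7, 7, 7, 7, 7, 9, 9, 11, 13, 15, 58, 64], [3, 11, 11, 11, 13, 35, 62], [2, 10, 12, 12, 32, 63]] (by decide +kernel))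
    (Stem.mul (stem_proj gen_top rels card_eq (fun h => bd0 h) mulc2_proj 7 [3, 3, 3, 3, 3, 5, 11, 11, 25, 27, 34, 59, 59, 59, 60, 62] (by decide +kernel))
      (stem_proj gen_top rels card_eq (fun h => bd0 h) (mulc3_proj (holds_lp C.M.gen rels)) 7 [1, 1, 3, 3, 14, 33, 35, 59, 62] (by decide +kernel)) (by decide))
    card_eq [(2, 13), (3, 7), (5, 2), (7, 1), (11, 1), (13, 1)] (by decide +kernel) (by decide +kernel) (by
    simp only [List.forall_mem_cons, List.not_mem_nil, IsEmpty.forall_iff, implies_true, and_true]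
    exact ⟨.inr ⟨1, by decide, u2_pb C.M C.base card_eq⟩,
      .inr ⟨1, by decide, u3_pb C.M C.base card_eq⟩,
      .inr ⟨0, by decide, u5_pb C.M C.base card_eq⟩,
      .inl (by decide),
      .inl (by decide),
      .inl (by decide)⟩)

end Cfsg.Agent.S2048
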