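import Cfsg.Statements.S2049
import Cfsg.Agent.HeC.Cert
import Cfsg.Agent.HeC.Mul2
import Cfsg.Agent.HeC.Mul3
import Cfsg.Agent.HeC.Mul5
import Cfsg.Agent.HeC.Mul7

set_option autoImplicit false
open Cfsg

namespace Cfsg.Agent.S2049

open Cfsg.Agent.CGT Cfsg.Agent.Mult Cfsg.Agent.HeC

/-- The Schur multiplier of the Held group (the finitely presented group of the definitions) is trivial; here the Schur multiplier is described through stem extensions, as in the definitions: surjective homomorphisms onto the group from a finite group, whose kernel is central in that finite group and contained in that finite group's commutator subgroup. -/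
theorem result : Cfsg.HasCyclicSchurMultiplier Cfsg.Spor.He 1 := by
  obtain ⟨φ, C⟩ := cert
  haveI := C.fin
  exact triv_of_bounds card_eq [(2, 10), (3, 3), (5, 2), (7, 3), (17, 1)] (by decide +kernel) (by decide +kernel) (by
    simp only [List.forall_mem_cons, List.not_mem_nil, IsEmpty.forall_iff, implies_true, and_true]
    exact ⟨.inr (u2_pb C.M C.base card_eq),
      .inr (u3_pb C.M C.base card_eq),
      .inr (u5_pb C.M C.base card_eq),
      .inr (u7_pb C.M C.base card_eq),
      .inl (by decide)⟩)

end Cfsg.Agent.S2049
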