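import Cfsg.Statements.S2051
import Cfsg.Agent.RuC.Cert
import Cfsg.Agent.Mult.Twist
import Cfsg.Agent.RuC.Mul2
import Cfsg.Agent.RuC.Mul3
import Cfsg.Agent.RuC.Mul5

set_option autoImplicit false
open Cfsg

namespace Cfsg.Agent.S2051

open Cfsg.Agent.CGT Cfsg.Agent.Mult Cfsg.Agent.RuC

/-- The Schur multiplier of the Rudvalis group (the unitary automorphism group of the rank-28 Gaussian lattice modulo its centre) is cyclic of order 2; here the Schur multiplier is described through stem extensions, as in the definitions: surjective homomorphisms onto the group from a finite group, whose kernel is central in that finite group and contained in that finite group's commutator subgroup. -/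
theorem result : Cfsg.HasCyclicSchurMultiplier Cfsg.Spor.Ru 2 := by
  obtain ⟨φ, C⟩ := cert
  haveI := C.fin
  haveI : Fact (Nat.Prime 2) := ⟨Nat.prime_two⟩
  refine cyc_of_central (perfP_sound C.gen (relsB_sound (R := [[0, 0, 0, 0, 0, 0, 0, 0], [2, 2, 2, 2, 2], [4, 4], [6, 6], [8, 8], [2, 6, 2, 6], [2, 4, 2, 4, 2, 4], [6, 8, 6, 8, 6, 8], [0, 4, 0, 4, 0, 4, 0, 4], [2, 6, 2, 6, 8, 2, 6, 2, 6, 8], [2, 8, 4, 2, 8, 4, 2, 8, 4, 2, 8, 4], [6, 8, 6, 8, 6, 8, 6, 8, 6, 8, 6, 8], [0, 4, 8, 6, 0, 4, 8, 6, 0, 4, 8, 6, 0, 4, 8, 6, 0, 4, 8, 6, 0, 4, 8, 6, 0, 4, 8, 6, 0, 4, 8, 6, 0, 4, 8, 6, 0, 4, 8, 6, 0, 4, 8, 6, 0, 4, 8, 6, 0, 4, 8, 6], [2, 8, 4, 6, 8, 2, 8, 4, 6, 8, 2, 8, 4, 6, 8, 2, 8, 4, 6, 8, 2, 8, 4, 6, 8, 2, 8, 4, 6, 8, 2, 8, 4, 6, 8, 2, 8, 4, 6, 8, 2, 8, 4, 6, 8, 2, 8, 4, 6, 8, 2, 8, 4, 6, 8, 2, 8, 4, 6, 8, 2, 8, 4, 6, 8]]) C.M C.base (by decide +kernel) (fun _ _ => trivial) (by decide +kernel))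 5 [[0, 3, 4, 4, 4, 6, 6, 6, 6, 8, 8, 8, 8, 8, 10, 12, 14, 16, 25], [3, 7, 7, 10, 10], [2, 4, 6, 11, 13], [4, 4, 4, 8, 8, 8, 8, 8, 8, 8, 10, 12, 18, 20, 22, 27], [4, 4, 4, 6, 6, 8, 8, 8, 8, 8, 8, 8, 8, 10, 12, 14, 18, 20, 27]] (by decide +kernel))
    (QuotientGroup.mk' _) (QuotientGroup.mk'_surjective _) (QuotientGroup.ker_mk' _).le
    (bal_sound γ0 (m := 5) (w := [4, 6, 8, 5, 7, 9, 4, 6, 8, 5, 7, 9, 4, 6, 8, 5, 7, 9, 4, 6, 8, 5, 7, 9, 4, 6, 8, 5, 7, 9, 4, 6, 8, 5, 7, 9, 4, 6, 8, 5, 7, 9]) (by decide +kernel))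
    ((ev_qg _ _ _).symm.trans (relsB_sound (R := [_]) C.M C.base (by decide +kernel) (fun _ _ => trivial)
      (by decide +kernel) _ List.mem_cons_self)) (fun h => ?_) card_eq [(2, 14), (3, 3), (5, 3), (7, 1), (13, 1), (29, 1)] (by decide +kernel) (by decide +kernel) (by
    simp only [List.forall_mem_cons, List.not_mem_nil, IsEmpty.forall_iff, implies_true, and_true]
    exact ⟨.inr ⟨1, by decide, u2_pb C.M C.base card_eq⟩,
      .inr ⟨0, by decide, u3_pb C.M C.base card_eq⟩,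
      .inr ⟨0, by decide, u5_pb C.M C.base card_eq⟩,
      .inl (by decide),
      .inl (by decide),
      .inl (by decide)⟩)
  have := (map_one _).symm.trans <| (congrArg (ρ hE) h).symm.trans <| (map_ev _ _ _).trans
    (FT.wSc_sound hT (FT.lets_gam hT As_inv (gens hE)) (l := 4) (by decide +kernel))
  have := congrFun (congrFun this (0, 0)) (0, 0)
  rw [Matrix.smul_apply, Matrix.one_apply_eq] at this
  exact absurd this (by decide)

end Cfsg.Agent.S2051
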