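import Cfsg.Statements.S2052
import Cfsg.Agent.ONC.Cert
import Cfsg.Agent.ONC.Mulc3
import Cfsg.Agent.ONC.Mul2
import Cfsg.Agent.ONC.Mul3
import Cfsg.Agent.ONC.Mul7

set_option autoImplicit false
open Cfsg

namespace Cfsg.Agent.S2052

open Cfsg.Agent.CGT Cfsg.Agent.Mult Cfsg.Agent.ONC

/-- The Schur multiplier of the O'Nan group (the finitely presented group of the definitions) is cyclic of order 3; here the Schur multiplier is described through stem extensions, as in the definitions: surjective homomorphisms onto the group from a finite group, whose kernel is central in that finite group and contained in that finite group's commutator subgroup. -/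
theorem result : Cfsg.HasCyclicSchurMultiplier Cfsg.Spor.ON 3 := by
  obtain ⟨φ, C⟩ := cert
  haveI := C.fin
  exact cyc_of_bounds (perfP_sound gen_top rels 7 [[1, 4, 11, 12, 21, 23, 25, 37, 40, 42, 50, 53], [1, 4, 4, 10, 12, 43, 43, 53], [2, 4, 10, 14, 43, 43, 53], [0, 10, 22, 43, 43, 53], [0, 10, 36, 43, 43, 55], [0, 6, 6, 8, 10, 43, 43, 55], [1, 7, 7, 41, 42, 42, 54]] (by decide +kernel))
    (stem_proj gen_top rels card_eq (fun h => bd0 h) (mulc3_proj (holds_lp C.M.gen rels)) 7 [12, 40, 43, 43, 43, 43, 44, 53, 55] (by decide +kernel))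
    card_eq [(2, 9), (3, 4), (5, 1), (7, 3), (11, 1), (19, 1), (31, 1)] (by decide +kernel) (by decide +kernel) (by
    simp only [List.forall_mem_cons, List.not_mem_nil, IsEmpty.forall_iff, implies_true, and_true]
    exact ⟨.inr ⟨0, by decide, u2_pb C.M C.base card_eq⟩,
      .inr ⟨1, by decide, u3_pb C.M C.base card_eq⟩,
      .inl (by decide),
      .inr ⟨0, by decide, u7_pb C.M C.base card_eq⟩,
      .inl (by decide),
      .inl (by decide),
      .inl (by decide)⟩)

end Cfsg.Agent.S2052
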