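import Cfsg.Statements.S2053
import Cfsg.Agent.Fi22C.Cert
import Cfsg.Agent.Fi22C.Mulc2
import Cfsg.Agent.Fi22C.Mulc3
import Cfsg.Agent.Fi22C.Mul2
import Cfsg.Agent.Fi22C.Mul3
import Cfsg.Agent.Fi22C.Mul5

set_option autoImplicit false
open Cfsg

namespace Cfsg.Agent.S2053

open Cfsg.Agent.CGT Cfsg.Agent.Mult Cfsg.Agent.Fi22C

/-- The Schur multiplier of the Fischer group Fi₂₂ (the finitely presented group of the definitions) is cyclic of order 6; here the Schur multiplier is described through stem extensions, as in the definitions: surjective homomorphisms onto the group from a finite group, whose kernel is central in that finite group and contained in that finite group's commutator subgroup. -/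
theorem result : Cfsg.HasCyclicSchurMultiplier Cfsg.Spor.Fi22 6 := by
  obtain ⟨φ, C⟩ := cert
  haveI := C.fin
  exact cyc_of_bounds (perfP_sound gen_top rels 9 [[0, 0, 0, 0, 10, 10, 10, 14, 14, 14, 34, 34, 34, 60, 60, 66, 70, 93], [0, 0, 0, 2, 4, 4, 4, 10, 10, 10, 14, 14, 14, 18, 34, 60, 60, 66, 70, 93], [0, 0, 0, 2, 2, 2, 4, 4, 4, 4, 10, 10, 10, 14, 14, 14, 18, 60, 60, 66, 70, 93], [0, 0, 0, 2, 2, 2, 4, 4, 4, 6, 8, 8, 8, 10, 10, 10, 14, 14, 14, 18, 48, 66, 70, 93], [0, 0, 0, 2, 2, 2, 4, 4, 4, 8, 10, 10, 10, 14, 14, 14, 18, 48, 60, 66, 70, 93], [0, 0, 0, 2, 2, 2, 4, 4, 4, 8, 8, 8, 10, 10, 10, 10, 14, 14, 14, 18, 48, 60, 66, 93], [0, 0, 0, 2, 2, 2, 4, 4, 4, 8, 8, 8, 10, 10, 10, 13, 13, 14, 14, 14, 18, 48, 60, 66, 78, 93], [1, 1, 1, 3, 3, 3, 5, 5, 5, 7, 7, 7, 9, 9, 9, 11, 11, 11, 15, 15, 15, 15, 15, 19, 49, 71, 92], [1, 1, 1, 3, 3, 3, 5, 5, 5, 7, 7, 7, 9, 9, 9, 11, 11, 11, 15, 15, 15, 16, 19, 49, 71, 89,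 92]] (by decide +kernel))
    (Stem.mul (stem_proj gen_top rels card_eq (fun h => bd0 h) (mulc2_proj (l0_p.subR (by decide +kernel))) 9 [0, 0, 0, 0, 0, 0, 13, 13, 13, 13, 13, 13, 19, 34, 49, 60, 71, 78, 93, 94] (by decide +kernel))
      (stem_proj gen_top rels card_eq (fun h => bd0 h) mulc3_proj 9 [3, 3, 3, 3, 3, 5, 5, 5, 5, 5, 7, 7, 7, 7, 7, 7, 7, 7, 7, 7, 7, 7, 7, 7, 7, 9, 9, 9, 9, 9, 11, 11, 11, 11, 11, 15, 15, 15, 15, 15, 17, 17, 17, 17, 17, 90] (by decide +kernel)) (by decide))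
    card_eq [(2, 17), (3, 9), (5, 2), (7, 1), (11, 1), (13, 1)] (by decide +kernel) (by decide +kernel) (by
    simp only [List.forall_mem_cons, List.not_mem_nil, IsEmpty.forall_iff, implies_true, and_true]
    exact ⟨.inr ⟨1, by decide, u2_pb C.M C.base card_eq⟩,
      .inr ⟨1, by decide, u3_pb C.M C.base card_eq⟩,
      .inr ⟨0, by decide, u5_pb C.M C.base card_eq⟩,
      .inl (by decide),
      .inl (by decide),
      .inl (by decide)⟩)

end Cfsg.Agent.S2053
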