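import Cfsg.Statements.S2055
import Cfsg.Agent.Fi24C.Cert
import Cfsg.Agent.Fi24C.Mulc3
import Cfsg.Agent.Fi24C.Mul2
import Cfsg.Agent.Fi24C.Mul3
import Cfsg.Agent.Fi24C.Mul5
import Cfsg.Agent.Fi24C.Mul7

set_option autoImplicit false
open Cfsg

namespace Cfsg.Agent.S2055

open Cfsg.Agent.CGT Cfsg.Agent.Mult Cfsg.Agent.Fi24C

/-- The Schur multiplier of the Fischer group Fi₂₄′ (the commutator subgroup of the presented group Fi₂₄) is cyclic of order 3; here the Schur multiplier is described through stem extensions, as in the definitions: surjective homomorphisms onto the group from a finite group, whose kernel is central in that finite group and contained in that finite group's commutator subgroup. -/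
theorem result : Cfsg.HasCyclicSchurMultiplier Cfsg.Spor.Fi24' 3 := by
  obtain ⟨φ, C⟩ := cert
  haveI := C.fin
  obtain ⟨hR, hS⟩ := stem_tw (commutator Spor.Fi24).subtype Subtype.val_injective (m := 12)
    (fun j h => gam_val j (by omega)) (fun j h => gam1 j (by omega)) C.gen rels
    (fun h1 h2 => pres_lift gens_all gens_nodup h1 (h2.subR (by decide +kernel))) (by decide +kernel)
    rfl rfl mulc3_proj (by decide +kernel) 11 [24, 24, 24, 27, 27, 27, 28, 28, 28, 28, 31, 31, 31, 32, 32, 32, 32, 35, 35, 35, 36, 36, 36, 36, 39, 39, 39, 40, 40, 40, 42, 42, 42, 45, 45, 51, 55, 59, 65, 66, 70, 74, 78, 80, 89, 93, 99, 100, 104, 108, 110, 119, 125, 126, 130, 132, 143, 144, 146, 153, 155, 158] (by decide +kernel)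
  exact cyc_of_bounds (perfP_sound C.gen hR 11 [[25, 30, 51], [25, 26, 47], [25, 28, 47, 67], [25, 30, 47, 67, 85], [24, 29, 29, 46, 66, 85, 86, 101], [25, 34, 47, 67, 85, 101, 115], [25, 36, 47, 67, 85, 101, 115, 127], [25, 38, 47, 67, 85, 101, 115, 127, 137], [24, 29, 29, 29, 40, 46, 66, 85, 101, 115, 127, 137, 145], [25, 42, 47, 67, 85, 101, 123], [25, 44, 47, 67, 85, 101, 123, 155]] (by decide +kernel)) hS card_eq [(2, 21), (3, 16), (5, 2), (7, 3), (11, 1), (13, 1), (17, 1), (23, 1), (29, 1)] (by decide +kernel) (by decide +kernel) (by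
    simp only [List.forall_mem_cons, List.not_mem_nil, IsEmpty.forall_iff, implies_true, and_true]
    exact ⟨.inr ⟨0, by decide, u2_pb C.M C.base card_eq⟩,
      .inr ⟨1, by decide, u3_pb C.M C.base card_eq⟩,
      .inr ⟨0, by decide, u5_pb C.M C.base card_eq⟩,
      .inr ⟨0, by decide, u7_pb C.M C.base card_eq⟩,
      .inl (by decide),
      .inl (by decide),
      .inl (by decide),
      .inl (by decide),
      .inl (by decide)⟩)

end Cfsg.Agent.S2055
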