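import Cfsg.Statements.S2086
import Cfsg.Agent.RGD.TypeA2
import Cfsg.Agent.Cover.Roots

set_option autoImplicit false
open Cfsg

namespace Cfsg.Agent.S2086

/-- Schur multipliers of the linear groups: for n ≥ 2 and a field F with q elements (q ≥ 4 when n = 2), apart from the five exceptional pairs (n, q) = (2, 4), (2, 9), (3, 2), (3, 4), (4, 2), the Schur multiplier of PSL_n(F) is cyclic of order gcd(n, q − 1); here the Schur multiplier is described through stem extensions, as in the definitions. -/
theorem result {F : Type*} [Field F] [Fintype F] {q : ℕ} (hF : Fintype.card F = q) (n : ℕ) (hn : 2 ≤ n) (h2 : n = 2 → 4 ≤ q) (hexc : (n, q) ∉ ({(2, 4), (2, 9), (3, 2), (3, 4), (4, 2)} : Set (ℕ × ℕ))) : Cfsg.HasCyclicSchurMultiplier (Matrix.ProjectiveSpecialLinearGroup (Fin n) F) (Nat.gcd n (q - 1)) := by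
  classical
  subst hF
  obtain ⟨m, rfl⟩ : ∃ m, n = m + 1 := ⟨n - 1, by omega⟩
  simp only [Set.mem_insert_iff, Set.mem_singleton_iff, Prod.mk.injEq, not_or, not_and] at hexc
  obtain ⟨e1, e2, e3, e4, e5⟩ := hexc
  refine Cover.mult_quot_center ?_ ?_
    ((Matrix.SpecialLinearGroup.center_equiv_rootsOfUnity' 0).trans
      ((MulEquiv.subgroupCongr (by rw [Fintype.card_fin])).trans (Cover.rootsEquiv F (m + 1))))
  · by_cases hm : m = 1
    · subst hm
      obtain ⟨a, ha, ha'⟩ := RGD.exists_pow_ne_one (K := F) (s := Finset.univ) two_pos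
        (by have := h2 rfl; simp; omega)
      exact Matrix.SL2.commutator_eq_top ha ha'
    · exact RGD.sl_perfect (by omega)
  · by_cases hm : m = 1
    · subst hm
      exact Stein.sl2_closed (e1 rfl) (e2 rfl)
    by_cases hm4 : 4 ≤ m
    · exact RGD.sl_closed_big hm4
    · refine RGD.sl_closed_small (by omega) (fun h => ?_) (fun h => e4 (by omega))
      by_cases hm2 : m = 2
      · exact e3 (by omega) h
      · exact e5 (by omega) h

end Cfsg.Agent.S2086
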