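import Cfsg.Statements.S2088
import Cfsg.Agent.L34C.Cert
import Cfsg.Agent.L34C.Mulc3
import Cfsg.Agent.L34C.Mulc4a
import Cfsg.Agent.L34C.Mulc4b
import Cfsg.Agent.L34C.Mul2
import Cfsg.Agent.L34C.Mul3

set_option autoImplicit false
open Cfsg

namespace Cfsg.Agent.S2088

open Cfsg.Agent.CGT Cfsg.Agent.Mult Cfsg.Agent.L34C

/-- Exceptional Schur multiplier: over the field with 4 elements, PSL₃ has Schur multiplier isomorphic to the product of cyclic groups of orders 3, 4 and 4 (order 48, not cyclic; here the Schur multiplier is described through stem extensions, as in the definitions). -/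
theorem result {F : Type*} [Field F] [Fintype F] (hF : Fintype.card F = 4) : Cfsg.HasSchurMultiplier (Matrix.ProjectiveSpecialLinearGroup (Fin 3) F) (Multiplicative (ZMod 3 × ZMod 4 × ZMod 4)) := by
  obtain ⟨γ, φ, C, hR⟩ := cert hF (FiniteField.ringEquivOfCardEq (cardK4.trans hF.symm))
  haveI := C.fin
  have hN := C.card.trans (show chainCard c_ls = 20160 by decide +kernel)
  exact mult_of_bounds (perfP_sound C.gen hR 5 [[0, 9, 14, 25], [2, 9, 14, 19], [4, 8, 15], [6, 8, 11], [3, 9, 28]] (by decide +kernel))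
    (Stem.prodM (stem_proj C.gen hR hN (fun h => qbd0 h) (mulc3_proj (holds_lp C.M.gen hR)) 5 [0, 2, 5, 6, 6, 11, 14, 27] (by decide +kernel))
      (stem_proj_two C.gen hR hN (fun h => qbd0 h) mulc4a_proj mulc4b_proj 5 [0, 3, 8, 13, 18, 20, 27, 29] [1, 2, 2, 4, 6, 9, 10, 21, 23, 26] (by decide +kernel)) (by simp; decide))
    hN (m := 48) (by simp) [(2, 6), (3, 2), (5, 1), (7, 1)] (by decide +kernel) (by decide +kernel) (by
    simp only [List.forall_mem_cons, List.not_mem_nil, IsEmpty.forall_iff, implies_true, and_true]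
    exact ⟨.inr ⟨4, by decide, u2_pb C.M C.base hN⟩,
      .inr ⟨1, by decide, u3_pb C.M C.base hN⟩,
      .inl (by decide),
      .inl (by decide)⟩)

end Cfsg.Agent.S2088
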