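import Cfsg.Statements.S2090
import Cfsg.Agent.U43C.Cert
import Cfsg.Agent.U43C.Mulc4
import Cfsg.Agent.U43C.Mulc3a
import Cfsg.Agent.U43C.Mulc3b
import Cfsg.Agent.U43C.Mul2
import Cfsg.Agent.U43C.Mul3

set_option autoImplicit false
open Cfsg

namespace Cfsg.Agent.S2090

open Cfsg.Agent.CGT Cfsg.Agent.Mult Cfsg.Agent.U43C

/-- Exceptional Schur multiplier: PSU₄(3), realised over the field with 9 elements, has Schur multiplier isomorphic to the product of cyclic groups of orders 4, 3 and 3 (order 36, not cyclic; here the Schur multiplier is described through stem extensions, as in the definitions). -/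
theorem result {F : Type*} [Field F] [Fintype F] (hF : Fintype.card F = 9) : Cfsg.HasSchurMultiplier (Cfsg.PSU 4 F 3) (Multiplicative (ZMod 4 × ZMod 3 × ZMod 3)) := by
  obtain ⟨γ, φ, C, hR⟩ := cert hF (FiniteField.ringEquivOfCardEq (cardK9.trans hF.symm))
  haveI := C.fin
  have hN := C.card.trans (show chainCard c_ls = 3265920 by decide +kernel)
  exact mult_of_bounds (perfP_sound C.gen hR 4 [[9, 24, 27], [0, 2, 8, 25], [0, 3, 6, 14, 25], [1, 1, 1, 8, 15, 20, 26]] (by decide +kernel))
    (Stem.prodM (stem_proj C.gen hR hN (fun h => qbd0 h) mulc4_proj 4 [1, 2, 5, 7, 7, 7, 7, 8, 8, 8, 8, 15, 24] (by decide +kernel))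
      (stem_proj_two C.gen hR hN (fun h => qbd0 h) mulc3a_proj mulc3b_proj 4 [0, 2, 2, 17] [2, 2, 2, 4, 9, 12, 15, 15] (by decide +kernel)) (by simp; decide))
    hN (m := 36) (by simp) [(2, 7), (3, 6), (5, 1), (7, 1)] (by decide +kernel) (by decide +kernel) (by
    simp only [List.forall_mem_cons, List.not_mem_nil, IsEmpty.forall_iff, implies_true, and_true]
    exact ⟨.inr ⟨2, by decide, u2_pb C.M C.base hN⟩,
      .inr ⟨2, by decide, u3_pb C.M C.base hN⟩,
      .inl (by decide),
      .inl (by decide)⟩)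

end Cfsg.Agent.S2090
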