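import Cfsg.Statements.S2091
import Cfsg.Agent.U62C.Cert
import Cfsg.Agent.U62C.Mulc3
import Cfsg.Agent.U62C.Mulc2a
import Cfsg.Agent.U62C.Mulc2b
import Cfsg.Agent.U62C.Mul2
import Cfsg.Agent.U62C.Mul3

set_option autoImplicit false
open Cfsg

namespace Cfsg.Agent.S2091

open Cfsg.Agent.CGT Cfsg.Agent.Mult Cfsg.Agent.U62C

/-- Exceptional Schur multiplier: PSU₆(2), realised over the field with 4 elements, has Schur multiplier isomorphic to the product of cyclic groups of orders 3, 2 and 2 (order 12, not cyclic; here the Schur multiplier is described through stem extensions, as in the definitions). -/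
theorem result {F : Type*} [Field F] [Fintype F] (hF : Fintype.card F = 4) : Cfsg.HasSchurMultiplier (Cfsg.PSU 6 F 2) (Multiplicative (ZMod 3 × ZMod 2 × ZMod 2)) := by
  obtain ⟨γ, φ, C, hR⟩ := cert hF (FiniteField.ringEquivOfCardEq (cardK4.trans hF.symm))
  haveI := C.fin
  have hN := C.card.trans (show chainCard c_ls = 9196830720 by decide +kernel)
  exact mult_of_bounds (perfP_sound C.gen hR 9 [[0, 5, 17, 24, 34, 45, 56, 58, 61, 67, 76, 93], [2, 11, 15, 37, 45, 57, 88], [5, 27, 36, 43, 51, 54, 56, 61], [3, 3, 8, 12, 19, 24, 42, 50, 58, 88], [15, 16, 25, 30, 35, 52, 89], [2, 4, 26, 31, 43, 47, 53], [5, 13, 30], [11, 15, 37], [14, 17]] (by decide +kernel))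
    (Stem.prodM (stem_proj C.gen hR hN (fun h => qbd0 h) (mulc3_proj (holds_lp C.M.gen hR)) 9 [1, 1, 1, 3, 4, 15, 16, 25, 47, 51, 66, 66] (by decide +kernel))
      (stem_proj_two C.gen hR hN (fun h => qbd0 h) mulc2a_proj mulc2b_proj 9 [1, 3, 3, 5, 7, 9, 13, 18, 44, 44, 57, 60, 94] [1, 1, 3, 3, 4, 7, 9, 10, 18, 25, 31, 44, 44, 52, 57, 57, 60, 78, 89, 94] (by decide +kernel)) (by simp; decide))
    hN (m := 12) (by simp) [(2, 15), (3, 6), (5, 1), (7, 1), (11, 1)] (by decide +kernel) (by decide +kernel) (by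
    simp only [List.forall_mem_cons, List.not_mem_nil, IsEmpty.forall_iff, implies_true, and_true]
    exact ⟨.inr ⟨2, by decide, u2_pb C.M C.base hN⟩,
      .inr ⟨1, by decide, u3_pb C.M C.base hN⟩,
      .inl (by decide),
      .inl (by decide),
      .inl (by decide)⟩)

end Cfsg.Agent.S2091
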