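import Cfsg.Statements.S2093
import Cfsg.Agent.S62C.Cert
import Cfsg.Agent.S62C.Mulc2
import Cfsg.Agent.S62C.Mul2
import Cfsg.Agent.S62C.Mul3

set_option autoImplicit false
open Cfsg

namespace Cfsg.Agent.S2093

open Cfsg.Agent.CGT Cfsg.Agent.Mult Cfsg.Agent.S62C

/-- Exceptional Schur multiplier: over the field with 2 elements, PSp₆ has Schur multiplier cyclic of order 2 (here the Schur multiplier is described through stem extensions, as in the definitions). -/
theorem result {F : Type*} [Field F] [Fintype F] (hF : Fintype.card F = 2) : Cfsg.HasCyclicSchurMultiplier (Cfsg.PSp 3 F) 2 := by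
  obtain ⟨γ, φ, C, hR⟩ := cert hF (FiniteField.ringEquivOfCardEq ((ZMod.card 2).trans hF.symm))
  haveI := C.fin
  have hN := C.card.trans (show chainCard c_ls = 1451520 by decide +kernel)
  exact cyc_of_bounds (perfP_sound C.gen hR 6 [[0, 5, 5, 7, 9, 11, 13, 21, 22, 32, 38, 45], [2, 4, 6, 6, 8, 10, 33], [4, 6, 6, 10, 21], [0, 0, 0, 5, 7, 9, 11, 32, 45], [0, 0, 0, 5, 7, 20, 23, 32, 45], [0, 0, 5, 7, 8, 10, 13, 20, 23, 32, 34, 45]] (by decide +kernel))
    (stem_proj C.gen hR hN (fun h => qbd0 h) mulc2_proj 6 [3, 5, 24] (by decide +kernel))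
    hN [(2, 9), (3, 4), (5, 1), (7, 1)] (by decide +kernel) (by decide +kernel) (by
    simp only [List.forall_mem_cons, List.not_mem_nil, IsEmpty.forall_iff, implies_true, and_true]
    exact ⟨.inr ⟨1, by decide, u2_pb C.M C.base hN⟩,
      .inr ⟨0, by decide, u3_pb C.M C.base hN⟩,
      .inl (by decide),
      .inl (by decide)⟩)

end Cfsg.Agent.S2093
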