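import Cfsg.Statements.S2095
import Cfsg.Agent.O73C.Cert
import Cfsg.Agent.O73C.Mulc2
import Cfsg.Agent.O73C.Mulc3
import Cfsg.Agent.O73C.Mul2
import Cfsg.Agent.O73C.Mul3

set_option autoImplicit false
open Cfsg

namespace Cfsg.Agent.S2095

open Cfsg.Agent.CGT Cfsg.Agent.Mult Cfsg.Agent.O73C

/-- Exceptional Schur multiplier: over the field with 3 elements, PΩ₇ (for the form x₀² + Σ xᵢyᵢ) has Schur multiplier cyclic of order 6 (the product of cyclic groups of orders 3 and 2; here the Schur multiplier is described through stem extensions, as in the definitions). -/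
theorem result {F : Type*} [Field F] [Fintype F] (hF : Fintype.card F = 3) : Cfsg.HasCyclicSchurMultiplier (Cfsg.POmega F (Cfsg.quadFormOdd 3 F)) 6 := by
  obtain ⟨γ, φ, C, hR⟩ := cert hF (FiniteField.ringEquivOfCardEq ((ZMod.card 3).trans hF.symm))
  haveI := C.fin
  have hN := C.card.trans (show chainCard c_ls = 4585351680 by decide +kernel)
  exact cyc_of_bounds (perfP_sound C.gen hR 8 [[2, 5, 6, 11, 11, 11, 17, 60, 76, 79], [2, 14, 14, 39, 44, 61], [5, 5, 8, 10, 12, 17, 35, 38], [28, 35], [1, 1, 3, 7, 9, 13, 14, 16, 39, 44, 61, 78], [10, 15, 38, 45], [8, 14, 27, 39, 44], [13, 15, 16]] (by decide +kernel))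
    (Stem.mul (stem_proj C.gen hR hN (fun h => qbd0 h) mulc2_proj 8 [5, 11, 36] (by decide +kernel))
      (stem_proj C.gen hR hN (fun h => qbd0 h) mulc3_proj 8 [3, 3, 9, 13, 13, 16, 62] (by decide +kernel)) (by decide))
    hN [(2, 9), (3, 9), (5, 1), (7, 1), (13, 1)] (by decide +kernel) (by decide +kernel) (by
    simp only [List.forall_mem_cons, List.not_mem_nil, IsEmpty.forall_iff, implies_true, and_true]
    exact ⟨.inr ⟨1, by decide, u2_pb C.M C.base hN⟩,
      .inr ⟨1, by decide, u3_pb C.M C.base hN⟩,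
      .inl (by decide),
      .inl (by decide),
      .inl (by decide)⟩)

end Cfsg.Agent.S2095
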