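import Cfsg.Statements.S2096
import Cfsg.Agent.Cl.OStd

set_option autoImplicit false
open Cfsg

namespace Cfsg.Agent.S2096

/-- Schur multipliers of the even-dimensional orthogonal groups of plus type and odd rank: for odd l ≥ 5 and a field F with q elements, the Schur multiplier of PΩ⁺_2l(F) (for the form Σ xᵢyᵢ) is cyclic of order gcd(4, q^l − 1); here the Schur multiplier is described through stem extensions, as in the definitions. -/
theorem result {F : Type*} [Field F] [Fintype F] {q : ℕ} (hF : Fintype.card F = q) (l : ℕ) (hl : 5 ≤ l) (hodd : Odd l) : Cfsg.HasCyclicSchurMultiplier (Cfsg.POmega F (Cfsg.quadFormPlus l F)) (Nat.gcd 4 (q ^ l - 1)) := by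
  subst hF
  have h : Nat.gcd 4 (Fintype.card F ^ l - 1) = Nat.gcd 4 (Fintype.card F - 1) := by
    have := Fintype.one_lt_card (α := F)
    generalize Fintype.card F = q at *
    obtain ⟨k, rfl⟩ := hodd
    have h1 : 1 ≤ q ^ (2 * k + 1) := Nat.one_le_pow _ _ (by omega)
    have h2 : q ^ (2 * k + 1) % 4 = q % 4 ∨ q ^ (2 * k + 1) % 2 = 0 ∧ q % 2 = 0 := by
      rcases Nat.mod_two_eq_zero_or_one q with e | e
      · exact Or.inr ⟨by simp [pow_succ, Nat.mul_mod, e], e⟩
      · rcases Nat.odd_mod_four_iff.1 e with e | e <;>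
          simp [e, pow_add, pow_mul, Nat.mul_mod, Nat.pow_mod]
    rw [Nat.gcd_rec, Nat.gcd_rec 4 (q - 1)]
    rcases h2 with h2 | h2
    · congr 1; omega
    have k : ∀ n, n % 4 = 1 ∨ n % 4 = 3 → Nat.gcd (n % 4) 4 = 1 := fun n h => by
      rcases h with h | h <;> simp [h]
    rw [k _ (by omega), k _ (by omega)]
  rw [h]
  refine Cover.mult_of_equiv_right (MulEquiv.trans ?_ (Cover.rootsEquiv F 4))
    (Cl.plus_mult (by omega) (by omega))
  have k : ∀ c : Fˣ, c ^ 2 = 1 → c ^ l = c := fun c hc => by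
    obtain ⟨k, rfl⟩ := hodd
    simp [pow_succ c (2 * k), pow_mul, hc]
  exact ⟨⟨fun x => ⟨x.1.2, by rw [mem_rootsOfUnity, pow_mul _ 2 2, x.2.2, k _ x.2.1, x.2.1]⟩,
    fun r => ⟨(r.1 ^ 2, r.1), (pow_mul _ 2 2).symm.trans r.2, (k _ ((pow_mul _ 2 2).symm.trans r.2)).symm⟩,
    fun x => Subtype.ext (Prod.ext (x.2.2.trans (k _ x.2.1)) rfl), fun _ => rfl⟩, fun _ _ => rfl⟩

end Cfsg.Agent.S2096
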