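import Cfsg.Statements.S2097
import Cfsg.Agent.Cl.OStd

set_option autoImplicit false
open Cfsg

namespace Cfsg.Agent.S2097

/-- Schur multipliers of the even-dimensional orthogonal groups of plus type and even rank: for even l ≥ 4 and a field F with q elements, (l, q) ≠ (4, 2), the Schur multiplier of PΩ⁺_2l(F) (for the form Σ xᵢyᵢ) is the product of two cyclic groups of order gcd(2, q^l − 1) (so trivial for q even and a four-group for q odd; here the Schur multiplier is described through stem extensions, as in the definitions). -/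
theorem result {F : Type*} [Field F] [Fintype F] {q : ℕ} (hF : Fintype.card F = q) (l : ℕ) (hl : 4 ≤ l) (heven : Even l) (hexc : ¬ (l = 4 ∧ q = 2)) : Cfsg.HasSchurMultiplier (Cfsg.POmega F (Cfsg.quadFormPlus l F)) (Multiplicative (ZMod (Nat.gcd 2 (q ^ l - 1)) × ZMod (Nat.gcd 2 (q ^ l - 1)))) := by
  subst hF
  have h : Nat.gcd 2 (Fintype.card F ^ l - 1) = Nat.gcd 2 (Fintype.card F - 1) := by
    have := Fintype.one_lt_card (α := F)
    generalize Fintype.card F = q at *
    have h1 : 1 ≤ q ^ l := Nat.one_le_pow _ _ (by omega)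
    have h2 : q ^ l % 2 = q % 2 := by
      obtain ⟨k, rfl⟩ : ∃ k, l = k + 1 := ⟨l - 1, by omega⟩
      rcases Nat.mod_two_eq_zero_or_one q with e | e <;> simp [pow_succ, Nat.mul_mod, Nat.pow_mod, e]
    rw [Nat.gcd_rec, Nat.gcd_rec 2 (q - 1)]
    congr 1; omega
  rw [h]
  refine Cover.mult_of_equiv_right (MulEquiv.trans ?_ (((Cover.rootsEquiv F 2).prodCongr
    (Cover.rootsEquiv F 2)).trans (MulEquiv.prodMultiplicative _ _).symm)) (Cl.plus_mult hl hexc)
  have k : ∀ c : Fˣ, c ^ 2 = 1 → c ^ l = 1 := fun c hc => by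
    obtain ⟨k, rfl⟩ := heven
    rw [← two_mul, pow_mul, hc, one_pow]
  exact ⟨⟨fun x => (⟨x.1.1, x.2.1⟩, ⟨x.1.2, x.2.2.trans (k _ x.2.1)⟩),
    fun r => ⟨(r.1.1, r.2.1), r.1.2, r.2.2.trans (k _ r.1.2).symm⟩, fun _ => rfl, fun _ => rfl⟩,
    fun _ _ => rfl⟩

end Cfsg.Agent.S2097
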