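import Cfsg.Statements.S2098
import Cfsg.Agent.O82C.Cert
import Cfsg.Agent.O82C.Mulc2a
import Cfsg.Agent.O82C.Mulc2b
import Cfsg.Agent.O82C.Mul2
import Cfsg.Agent.O82C.Mul3
import Cfsg.Agent.O82C.Mul5

set_option autoImplicit false
open Cfsg

namespace Cfsg.Agent.S2098

open Cfsg.Agent.CGT Cfsg.Agent.Mult Cfsg.Agent.O82C

/-- Exceptional Schur multiplier: over the field with 2 elements, PΩ⁺₈ (for the form Σ xᵢyᵢ) has Schur multiplier a four-group, the product of two cyclic groups of order 2 (here the Schur multiplier is described through stem extensions, as in the definitions). -/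
theorem result {F : Type*} [Field F] [Fintype F] (hF : Fintype.card F = 2) : Cfsg.HasSchurMultiplier (Cfsg.POmega F (Cfsg.quadFormPlus 4 F)) (Multiplicative (ZMod 2 × ZMod 2)) := by
  obtain ⟨γ, φ, C, hR⟩ := cert hF (FiniteField.ringEquivOfCardEq ((ZMod.card 2).trans hF.symm))
  haveI := C.fin
  have hN := C.card.trans (show chainCard c_ls = 174182400 by decide +kernel)
  exact mult_of_bounds (perfP_sound C.gen hR 10 [[0, 2, 2, 4, 7, 8, 10, 14, 66, 85, 86, 95, 99], [0, 2, 4, 4, 15, 54, 75, 95], [1, 5, 6, 6, 6, 14, 55, 61, 94], [1, 5, 5, 6, 14, 55, 94], [1, 7, 11, 14, 50, 55, 86], [1, 2, 2, 4, 6, 8, 8, 17, 61, 65, 70, 85, 86], [6, 6, 10, 12, 57], [2, 2, 8, 14, 85], [0, 7, 11, 13, 56, 87], [0, 9, 9, 15, 15, 17, 17, 19, 61, 64, 66, 70, 95]] (by decide +kernel))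
    (stem_proj_two C.gen hR hN (fun h => qbd0 h) mulc2a_proj mulc2b_proj 10 [1, 3, 5, 15, 15, 19, 24, 55, 72, 77, 84, 86] [15, 19, 24] (by decide +kernel))
    hN (m := 4) (by simp) [(2, 12), (3, 5), (5, 2), (7, 1)] (by decide +kernel) (by decide +kernel) (by
    simp only [List.forall_mem_cons, List.not_mem_nil, IsEmpty.forall_iff, implies_true, and_true]
    exact ⟨.inr ⟨2, by decide, u2_pb C.M C.base hN⟩,
      .inr ⟨0, by decide, u3_pb C.M C.base hN⟩,
      .inr ⟨0, by decide, u5_pb C.M C.base hN⟩,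
      .inl (by decide)⟩)

end Cfsg.Agent.S2098
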