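import Cfsg.Statements.S2101
import Cfsg.Agent.G23C.Cert
import Cfsg.Agent.G23C.Mulc3
import Cfsg.Agent.G23C.Mul2
import Cfsg.Agent.G23C.Mul3

set_option autoImplicit false
open Cfsg

namespace Cfsg.Agent.S2101

open Cfsg.Agent.CGT Cfsg.Agent.Mult Cfsg.Agent.G23C

/-- Exceptional Schur multiplier: over the field with 3 elements the Chevalley group of type G₂ has Schur multiplier cyclic of order 3 (here the Schur multiplier is described through stem extensions, as in the definitions). -/
theorem result {F : Type*} [Field F] [Fintype F] (hF : Fintype.card F = 3) : Cfsg.HasCyclicSchurMultiplier ↥(Cfsg.Lie.chevG2.group F) 3 := by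
  obtain ⟨γ, φ, C, hR⟩ := cert hF (FiniteField.ringEquivOfCardEq ((ZMod.card 3).trans hF.symm))
  haveI := C.fin
  have hN := C.card.trans (show chainCard c_ls = 4245696 by decide +kernel)
  exact cyc_of_bounds (perfP_sound C.gen hR 4 [[0, 2, 2, 4, 4, 7, 33], [3, 7, 14, 24, 33], [1, 1, 5, 5, 26], [2, 2, 7, 24, 33]] (by decide +kernel))
    (stem_proj C.gen hR hN (fun h => qbd0 h) (mulc3_proj (holds_lp C.M.gen hR)) 4 [1, 3, 3, 5, 5, 6, 6, 36] (by decide +kernel))
    hN [(2, 6), (3, 6), (7, 1), (13, 1)] (by decide +kernel) (by decide +kernel) (by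
    simp only [List.forall_mem_cons, List.not_mem_nil, IsEmpty.forall_iff, implies_true, and_true]
    exact ⟨.inr ⟨0, by decide, u2_pb C.M C.base hN⟩,
      .inr ⟨1, by decide, u3_pb C.M C.base hN⟩,
      .inl (by decide),
      .inl (by decide)⟩)

end Cfsg.Agent.S2101
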