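import Cfsg.Statements.S2102
import Cfsg.Agent.G24C.Cert
import Cfsg.Agent.G24C.Mulc2
import Cfsg.Agent.G24C.Mul2
import Cfsg.Agent.G24C.Mul3
import Cfsg.Agent.G24C.Mul5

set_option autoImplicit false
open Cfsg

namespace Cfsg.Agent.S2102

open Cfsg.Agent.CGT Cfsg.Agent.Mult Cfsg.Agent.G24C

/-- Exceptional Schur multiplier: over the field with 4 elements the Chevalley group of type G₂ has Schur multiplier cyclic of order 2 (here the Schur multiplier is described through stem extensions, as in the definitions). -/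
theorem result {F : Type*} [Field F] [Fintype F] (hF : Fintype.card F = 4) : Cfsg.HasCyclicSchurMultiplier ↥(Cfsg.Lie.chevG2.group F) 2 := by
  obtain ⟨γ, φ, C, hR⟩ := cert hF (FiniteField.ringEquivOfCardEq (cardK4.trans hF.symm))
  haveI := C.fin
  have hN := C.card.trans (show chainCard c_ls = 251596800 by decide +kernel)
  exact cyc_of_bounds (perfP_sound C.gen hR 8 [[1, 3, 3, 5, 6, 10, 15, 30, 42, 50, 53, 62], [2, 19, 30, 41], [0, 6, 30, 32, 34, 38, 53], [3, 19, 32, 34, 38], [1, 3, 19, 66], [5, 10, 10, 18, 25], [11, 33, 35], [7, 11, 33, 35, 50]] (by decide +kernel))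
    (stem_proj C.gen hR hN (fun h => qbd0 h) mulc2_proj 8 [19, 31, 36] (by decide +kernel))
    hN [(2, 12), (3, 3), (5, 2), (7, 1), (13, 1)] (by decide +kernel) (by decide +kernel) (by
    simp only [List.forall_mem_cons, List.not_mem_nil, IsEmpty.forall_iff, implies_true, and_true]
    exact ⟨.inr ⟨1, by decide, u2_pb C.M C.base hN⟩,
      .inr ⟨0, by decide, u3_pb C.M C.base hN⟩,
      .inr ⟨0, by decide, u5_pb C.M C.base hN⟩,
      .inl (by decide),
      .inl (by decide)⟩)

end Cfsg.Agent.S2102
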