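import Cfsg.Statements.S2104
import Cfsg.Agent.F42C.Cert
import Cfsg.Agent.F42C.Mulc2
import Cfsg.Agent.F42C.Mul2
import Cfsg.Agent.F42C.Mul3
import Cfsg.Agent.F42C.Mul5
import Cfsg.Agent.F42C.Mul7

set_option autoImplicit false
open Cfsg

namespace Cfsg.Agent.S2104

open Cfsg.Agent.CGT Cfsg.Agent.Mult Cfsg.Agent.F42C

/-- Exceptional Schur multiplier: over the field with 2 elements the Chevalley group of type F₄ has Schur multiplier cyclic of order 2 (here the Schur multiplier is described through stem extensions, as in the definitions). -/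
theorem result {F : Type*} [Field F] [Fintype F] (hF : Fintype.card F = 2) : Cfsg.HasCyclicSchurMultiplier ↥(Cfsg.Lie.chevF4.group F) 2 := by
  obtain ⟨γ, φ, C, hR⟩ := cert hF (FiniteField.ringEquivOfCardEq ((ZMod.card 2).trans hF.symm))
  haveI := C.fin
  have hN := C.card.trans (show chainCard c_ls = 3311126603366400 by decide +kernel)
  exact cyc_of_bounds (perfP_sound C.gen hR 10 [[0, 14, 16, 16, 109], [14, 17, 17, 19, 29, 42, 64, 108, 111], [2, 4, 15, 15, 18, 24, 34, 43, 53, 79, 107, 110], [3, 6, 14, 14, 19, 25, 35, 42, 52, 106, 111], [3, 9, 9, 14, 14, 19, 25, 35, 42, 52, 64, 106, 111], [2, 11, 15, 18, 24, 31, 34, 43, 65, 107, 110], [2, 12, 15, 15, 18, 24, 43, 65, 107, 110], [3, 14, 14, 14, 19, 25, 29, 42, 64, 106, 111], [2, 15, 15, 16, 18, 28, 43, 65, 107, 110], [3, 14, 14, 25, 64, 106, 111]] (by decide +kernel))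
    (stem_proj C.gen hR hN (fun h => qbd0 h) (mulc2_proj (holds_lp C.M.gen hR)) 10 [0, 0, 0, 3, 9, 11, 11, 13, 19, 22, 25, 27, 29, 37, 51, 53, 64, 85, 89, 93, 109, 111] (by decide +kernel))
    hN [(2, 24), (3, 6), (5, 2), (7, 2), (13, 1), (17, 1)] (by decide +kernel) (by decide +kernel) (by
    simp only [List.forall_mem_cons, List.not_mem_nil, IsEmpty.forall_iff, implies_true, and_true]
    exact ⟨.inr ⟨1, by decide, u2_pb C.M C.base hN⟩,
      .inr ⟨0, by decide, u3_pb C.M C.base hN⟩,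
      .inr ⟨0, by decide, u5_pb C.M C.base hN⟩,
      .inr ⟨0, by decide, u7_pb C.M C.base hN⟩,
      .inl (by decide),
      .inl (by decide)⟩)

end Cfsg.Agent.S2104
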