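import Cfsg.Statements.S2106
import Cfsg.Agent.RGD.Embed

set_option autoImplicit false
open Cfsg

namespace Cfsg.Agent.S2106

/-- Schur multipliers of the (adjoint, simple) Chevalley groups of type E₇: over a field with q elements the Schur multiplier is cyclic of order gcd(2, q − 1) (here the Schur multiplier is described through stem extensions, as in the definitions). -/
theorem result {F : Type*} [Field F] [Fintype F] {q : ℕ} (hF : Fintype.card F = q) : Cfsg.HasCyclicSchurMultiplier ↥(Cfsg.Lie.chevE7.group F) (Nat.gcd 2 (q - 1)) := by
  subst hF
  exact RGD.mult_of_sc Chev.certE7 RGD.genC_E7 ((Stein.scSys _ F).perfect (by simp)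
    (fun h => absurd h (by simp; constructor <;> exact fun h => absurd (congrArg (·.rank) h) (by decide)))
    Stein.scSys_closure) RGD.sc_closed_E7 RGD.tau_inj_E7 RGD.cenE7

end Cfsg.Agent.S2106
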