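import Cfsg.Statements.S2108
import Cfsg.Agent.TwM.E6c

set_option autoImplicit false
open Cfsg

namespace Cfsg.Agent.S2108

/-- Schur multipliers of the twisted groups of type ²E₆: for a prime power q ≠ 2, with the group realised over the field with q² elements, the Schur multiplier of ²E₆(q) is cyclic of order gcd(3, q + 1) (here the Schur multiplier is described through stem extensions, as in the definitions); q = 2 is exceptional. -/
theorem result {K : Type*} [Field K] [Fintype K] {q : ℕ} (hq : IsPrimePow q) (hK : Fintype.card K = q ^ 2) (h2 : q ≠ 2) : Cfsg.HasCyclicSchurMultiplier ↥(Cfsg.Lie.twistedE6 K q) (Nat.gcd 3 (q + 1)) := by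
  have h : Nat.card K = q ^ 2 := by rw [Nat.card_eq_fintype_card, hK]
  obtain ⟨φ, hφ⟩ := Tw.exists_frob K h
  obtain ⟨p, hp⟩ := CharP.exists K
  haveI : Fact p.Prime := ⟨CharP.char_is_prime K p⟩
  have h3 := Tw.frob2 hφ h
  have hG := Tw.goodE6 hφ h3
  have a : ∀ (Γ : Type _) [Group Γ] [Finite Γ] (σ : Γ →* Tw.gen (Chev.certE6.sys K) (Lie.e6Words K q)), IsStemExtension σ →
      ∃ θ : Γ →* _, TwM.Cop (Tw.stbE6 φ) θ p (Tw.gen (Chev.certE6.sys K) (Lie.e6Words K q)) ∧ θ.ker = σ.ker := fun Γ _ _ σ hσ => by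
    obtain ⟨h1, e⟩ := TwM.stem_of hσ
    obtain ⟨h4, h5⟩ := h1.tf_div (p := p) fun E' _ _ θ' h' hp' =>
      TwM.kerE_p p h' hG hφ h (by have := hq.two_le; omega) hp'
    exact ⟨_, ⟨h1, hG, h4, h5, TwM.exE hG hφ h, TwM.gen_le_sup (by
      rintro w (⟨t, -, r, hr, rfl⟩ | ⟨t, r, hr, rfl⟩) <;> simp only [List.mem_cons, List.not_mem_nil, or_false] at hr <;>
        rcases hr with rfl | rfl | rfl | rfl <;> exact Tw.wd_pos_or_neg (by simp only [List.map]; decide +kernel))⟩, e⟩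
  refine Cover.mult_of_equiv (Tw.genEquiv Chev.certE6 _) ?_
  by_cases h0 : 3 ∣ q + 1
  · rw [Nat.gcd_eq_left h0]
    refine TwM.multE_three hφ hK h0 (fun _ => Tw.fixE6 hG h3) h3 fun Γ _ _ σ hσ => ?_
    obtain ⟨θ, h1, e⟩ := a Γ σ hσ
    exact e ▸ TwM.kerE_dvd h1 h3
  · have h4 := (Nat.Prime.coprime_iff_not_dvd Nat.prime_three).2 h0
    rw [h4]
    refine Cover.Closed.mult fun Γ _ _ σ hσ => ?_
    obtain ⟨θ, h1, e⟩ := a Γ σ hσ
    obtain ⟨χ, ψ, h5⟩ := TwM.kerE_cop h1 h3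
    refine e ▸ eq_bot_iff.2 fun z hz => ?_
    obtain ⟨s, h6, h7, rfl⟩ := h5 z hz
    rw [hφ, ← pow_succ', ← Units.val_pow_eq_pow_val, Units.val_eq_one] at h7
    obtain rfl : s = 1 := by simpa [h4] using pow_gcd_eq_one.2 ⟨h6, h7⟩
    simp

end Cfsg.Agent.S2108
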