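import Cfsg.Statements.S2110
import Cfsg.Agent.TwM.D4b

set_option autoImplicit false
open Cfsg

namespace Cfsg.Agent.S2110

/-- Schur multipliers of the triality-twisted groups ³D₄: for every prime power q, with the group realised over the field with q³ elements, the Schur multiplier of ³D₄(q) is trivial (here the Schur multiplier is described through stem extensions, as in the definitions). -/
theorem result {K : Type*} [Field K] [Fintype K] {q : ℕ} (hq : IsPrimePow q) (hK : Fintype.card K = q ^ 3) : Cfsg.HasCyclicSchurMultiplier ↥(Cfsg.Lie.twistedD4 K q) 1 := by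
  have h : Nat.card K = q ^ 3 := by rw [Nat.card_eq_fintype_card, hK]
  obtain ⟨φ, hφ⟩ := Tw.exists_frob K h
  obtain ⟨p, hp⟩ := CharP.exists K
  haveI : Fact p.Prime := ⟨CharP.char_is_prime K p⟩
  have h3 := Tw.frob3 hφ h
  have hG := Tw.goodD4 hφ h3
  refine Cover.mult_of_equiv (Tw.genEquiv Chev.certD4 _) (Cover.Closed.mult fun Γ _ _ σ hσ => ?_)
  obtain ⟨h1, e⟩ := TwM.stem_of hσ
  obtain ⟨h4, h5⟩ := h1.tf_div (p := p) fun E' _ _ θ' h' hp' => by
    rcases hq.two_le.eq_or_lt with rfl | h2
    · haveI : CharP K 2 := charP_of_card_eq_prime_pow hK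
      obtain rfl := CharP.eq K hp this
      exact TwM.kerD_two h' hG hφ h hp'
    · exact TwM.kerD_p p h' hG hφ h h2 hp'
  exact e ▸ TwM.kerD_cop ⟨h1, hG, h4, h5, TwM.exD hG hφ h, TwM.gen_le_sup (by
    rintro w (⟨t, -, r, hr, rfl⟩ | ⟨t, r, hr, rfl⟩) <;> simp only [List.mem_cons, List.not_mem_nil, or_false] at hr <;>
      rcases hr with rfl | rfl <;> exact Tw.wd_pos_or_neg (by simp only [List.map]; decide +kernel))⟩ h3

end Cfsg.Agent.S2110
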