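import Cfsg.Statements.S2113
import Cfsg.Agent.TwM.G2a

set_option autoImplicit false
open Cfsg

namespace Cfsg.Agent.S2113

/-- Schur multipliers of the small Ree groups: for q = 3^(2m+1) with m ≥ 1 the Schur multiplier of ²G₂(q) is trivial (here the Schur multiplier is described through stem extensions, as in the definitions). -/
theorem result {K : Type*} [Field K] [Fintype K] {m : ℕ} (hm : 1 ≤ m) (hK : Fintype.card K = 3 ^ (2 * m + 1)) : Cfsg.HasCyclicSchurMultiplier ↥(Cfsg.Lie.twistedG2 K (3 ^ m)) 1 := by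
  have h : Nat.card K = 3 ^ (2 * m + 1) := by rw [Nat.card_eq_fintype_card, hK]
  haveI : CharP K 3 := charP_of_card_eq_prime_pow hK
  haveI : CharP (AlgebraicClosure K) 3 := charP_of_injective_algebraMap (algebraMap K _).injective 3
  have hφ : ∀ t, iterateFrobeniusEquiv K 3 m t = t ^ 3 ^ m := fun _ => rfl
  have hψ : ∀ t, iterateFrobeniusEquiv (AlgebraicClosure K) 3 m t = t ^ 3 ^ m := fun _ => rfl
  have h3 := Tw.frobp hφ h
  have hG := Tw.goodG2 hφ h3
  have hk := Lang.frobAlg_of_isAlgebraic (k := AlgebraicClosure K) (p := 3) K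
  refine Cover.mult_of_equiv (Tw.genEquiv Chev.certG2 _) (Cover.Closed.mult (Cover.closed_of_prime fun Γ _ _ σ hσ hp => ?_))
  obtain ⟨h1, e⟩ := TwM.stem_of hσ
  rw [← e] at hp
  generalize (Subgroup.subtype _).comp σ = θ at h1 hp
  haveI := Fact.mk hp
  have h2 : IsPGroup (Nat.card θ.ker) θ.ker := .of_card (pow_one _).symm
  refine hp.ne_one (Subgroup.card_eq_one.2 ?_)
  by_cases h4 : Nat.card θ.ker = 3
  · exact TwM.kerG_three h1 hG (fun _ => Tw.fixG2 hφ h) hφ h hm (h4 ▸ h2)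
  by_cases h5 : Nat.card θ.ker = 2
  · have h6 : ∀ z ∈ θ.ker, z * z = 1 := fun z hz => by
      have := pow_card_eq_one' (x := (⟨z, hz⟩ : θ.ker))
      rw [h5, pow_two] at this
      exact congrArg Subtype.val this
    exact h1.ker_eq_bot_of_comm (h5 ▸ h2) (TwM.comm_two hφ hψ hk ⟨h1, hG, fun c hc e => by simpa [pow_succ, h6 c hc] using e,
      fun c hc => ⟨c, hc, by simp [pow_succ, h6 c hc]⟩, TwM.exG hG h3, TwM.gen_le_sup (Tw.g2Words_sign _)⟩
      (fun _ => Tw.fixG2 hφ h) h h6)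
  exact h1.ker_eq_bot_of_comm h2 (TwM.comm_odd hφ hψ hk h1 hG h5 h4)

end Cfsg.Agent.S2113
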