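import Cfsg.Statements.S2114
import Cfsg.Agent.TwM.F4b

set_option autoImplicit false
open Cfsg

namespace Cfsg.Agent.S2114

/-- Schur multipliers of the large Ree groups: for q = 2^(2m+1) with m ≥ 1 the Schur multiplier of ²F₄(q) is trivial (here the Schur multiplier is described through stem extensions, as in the definitions). -/
theorem result {K : Type*} [Field K] [Fintype K] {m : ℕ} (hm : 1 ≤ m) (hK : Fintype.card K = 2 ^ (2 * m + 1)) : Cfsg.HasCyclicSchurMultiplier ↥(Cfsg.Lie.twistedF4 K (2 ^ m)) 1 := by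
  have h : Nat.card K = 2 ^ (2 * m + 1) := by rw [Nat.card_eq_fintype_card, hK]
  haveI : CharP K 2 := charP_of_card_eq_prime_pow hK
  obtain ⟨φ, hφ, h3, hG⟩ := Tw.goodTF4 h
  refine Cover.mult_of_equiv (Tw.genEquiv Chev.certF4 _) (Cover.Closed.mult fun Γ _ _ σ hσ => ?_)
  obtain ⟨h1, e⟩ := TwM.stem_of hσ
  obtain ⟨h4, h5⟩ := h1.tf_div (p := 2) fun E' _ _ θ' h' hp' => TwM.kerF_two h' hG (fun _ => Tw.fixF4 hG) hφ h hm hp'
  exact e ▸ TwM.kerF_cop ⟨h1, hG, h4, h5, TwM.exF hG h3, TwM.gen_le_sup (Tw.f4Words_sign _)⟩ (fun _ => Tw.fixF4 hG) hφ h3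

end Cfsg.Agent.S2114
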