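import Cfsg.Statements.S2115
import Cfsg.Agent.TitsC.Cert
import Cfsg.Agent.TitsC.Mul2
import Cfsg.Agent.TitsC.Mul3
import Cfsg.Agent.TitsC.Mul5

set_option autoImplicit false
open Cfsg

namespace Cfsg.Agent.S2115

open Cfsg.Agent.CGT Cfsg.Agent.Mult Cfsg.Agent.TitsC

/-- The Tits group, the commutator subgroup of ²F₄(2), has trivial Schur multiplier (here the Schur multiplier is described through stem extensions, as in the definitions). -/
theorem result : Cfsg.HasCyclicSchurMultiplier Cfsg.Lie.TitsGroup 1 := by
  obtain ⟨γ, φ, C, hR⟩ := cert (ZMod.card 2)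
  haveI := C.fin
  have hN := C.card.trans (show chainCard c_ls = 17971200 by decide +kernel)
  exact triv_of_bounds hN [(2, 11), (3, 3), (5, 2), (13, 1)] (by decide +kernel) (by decide +kernel) (by
    simp only [List.forall_mem_cons, List.not_mem_nil, IsEmpty.forall_iff, implies_true, and_true]
    exact ⟨.inr (u2_pb C.M C.base hN),
      .inr (u3_pb C.M C.base hN),
      .inr (u5_pb C.M C.base hN),
      .inl (by decide)⟩)

end Cfsg.Agent.S2115
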