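import Cfsg.Statements.S2116
import Cfsg.Agent.AltC.A6
import Cfsg.Agent.AltC.A6c2
import Cfsg.Agent.AltC.A6c3
import Cfsg.Agent.AltC.A7
import Cfsg.Agent.AltC.A7c2
import Cfsg.Agent.AltC.A7c3

set_option autoImplicit false
open Cfsg

namespace Cfsg.Agent.S2116

open Cfsg.Agent.CGT Cfsg.Agent.Mult Cfsg.Agent.AltC

/-- Exceptional Schur multipliers of the alternating groups: for n = 6 and n = 7 the Schur multiplier of the alternating group of degree n is cyclic of order 6 (here the Schur multiplier is described through stem extensions, as in the definitions). -/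
theorem result (n : ℕ) (hn : n = 6 ∨ n = 7) : Cfsg.HasCyclicSchurMultiplier (alternatingGroup (Fin n)) 6 := by
  rcases hn with rfl | rfl
  · obtain ⟨φ, C⟩ := a6_cert
    have hR := relsB_sound (R := a6RR) C.M C.base (by decide +kernel) (fun _ _ => trivial) (by decide +kernel)
    exact cyc_of_bounds (perfP_sound C.gen hR 4 [[10, 12, 15, 19], [4, 6, 9, 11], [2, 5, 9, 10], [0, 11, 14, 19]] (by decide +kernel))
      (Stem.mul (stem_proj C.gen hR a6_card (fun h => a6bd0 h) a6c2_proj 4 [0, 0, 6, 6, 11, 11, 11] (by decide +kernel))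
        (stem_proj C.gen hR a6_card (fun h => a6bd0 h) a6c3_proj 4 [5, 10, 15, 16] (by decide +kernel)) (by decide))
      a6_card [(2, 3), (3, 2), (5, 1)] (by decide +kernel) (by decide +kernel) (by
        simp only [List.forall_mem_cons, List.not_mem_nil, IsEmpty.forall_iff, implies_true, and_true]
        exact ⟨.inr ⟨1, by decide, a6u2_pb C.M C.base a6_card⟩,
          .inr ⟨1, by decide, a6u3_pb C.M C.base a6_card⟩,
          .inl (by decide)⟩)
  · obtain ⟨φ, C⟩ := a7_cert
    have hR := relsB_sound (R := a7RR) C.M C.base (by decide +kernel) (fun _ _ => trivial) (by decide +kernel)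
    exact cyc_of_bounds (perfP_sound C.gen hR 5 [[1, 1, 4, 17, 18, 21, 28], [10, 12, 15, 19], [4, 6, 9, 11], [2, 5, 9, 10], [0, 11, 14, 19]] (by decide +kernel))
      (Stem.mul (stem_proj C.gen hR a7_card (fun h => a7bd0 h) a7c2_proj 5 [0, 0, 6, 6, 11, 11, 11] (by decide +kernel))
        (stem_proj C.gen hR a7_card (fun h => a7bd0 h) a7c3_proj 5 [5, 10, 15, 16] (by decide +kernel)) (by decide))
      a7_card [(2, 3), (3, 2), (5, 1), (7, 1)] (by decide +kernel) (by decide +kernel) (by
        simp only [List.forall_mem_cons, List.not_mem_nil, IsEmpty.forall_iff, implies_true, and_true]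
        exact ⟨.inr ⟨1, by decide, a7u2_pb C.M C.base a7_card⟩,
          .inr ⟨1, by decide, a7u3_pb C.M C.base a7_card⟩,
          .inl (by decide),
          .inl (by decide)⟩)

end Cfsg.Agent.S2116
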