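import Cfsg.Statements.S2118
import Cfsg.Agent.Stein.SL2Mult
import Cfsg.Agent.Stein.SLBasic
import Cfsg.Agent.Cover.Quot

set_option autoImplicit false
open Cfsg

namespace Cfsg.Agent.S2118

open Matrix Subgroup Cfsg.Agent.Cover Cfsg.Agent.Stein
open scoped commutatorElement

instance fact9 : Fact (∀ r : ZMod 3, r ^ 2 ≠ (-1) + 0 * r) := ⟨by decide⟩

abbrev K9 : Type := QuadraticAlgebra (ZMod 3) (-1) 0

instance fin9 : Fintype K9 := Fintype.ofEquiv _ (QuadraticAlgebra.equivProd (-1 : ZMod 3) 0).symm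

theorem card9 : Fintype.card K9 = 9 := by
  rw [Fintype.ofEquiv_card]; simp

instance char9 : CharP K9 3 := by
  have : ((3 : ℕ) : K9) = 0 := by decide
  exact (CharP.charP_iff_prime_eq_zero Nat.prime_three).2 this

def pP : Equiv.Perm (Fin 18) := ⟨![1, 2, 0, 10, 7, 8, 3, 9, 16, 4, 6, 13, 14, 15, 17, 11, 5, 12], ![2, 0, 1, 6, 9, 16, 10, 4, 5, 7, 3, 15, 17, 11, 12, 13, 8, 14], by decide, by decide⟩
def pQ : Equiv.Perm (Fin 18) := ⟨![1, 5, 4, 6, 7, 0, 13, 2, 16, 8, 12, 15, 17, 3, 11, 14, 9, 10], ![5, 0, 7, 13, 2, 1, 3, 4, 9, 16, 17, 14, 10, 6, 15, 11, 8, 12], by decide, by decide⟩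
def pR : Equiv.Perm (Fin 18) := ⟨![2, 6, 3, 0, 9, 12, 10, 15, 5, 11, 1, 4, 8, 7, 16, 13, 17, 14], ![3, 10, 0, 2, 11, 8, 1, 13, 12, 4, 6, 9, 5, 15, 17, 7, 14, 16], by decide, by decide⟩
def pS : Equiv.Perm (Fin 18) := ⟨![3, 6, 8, 9, 11, 4, 14, 15, 12, 0, 7, 5, 2, 16, 1, 10, 17, 13], ![9, 14, 12, 0, 5, 11, 1, 10, 2, 3, 15, 4, 8, 17, 6, 7, 13, 16], by decide, by decide⟩
def pW : Equiv.Perm (Fin 18) := ⟨![4, 7, 9, 11, 8, 2, 15, 16, 0, 5, 13, 12, 3, 14, 10, 17, 1, 6], ![8, 16, 5, 12, 0, 9, 17, 1, 4, 2, 14, 3, 11, 10, 13, 6, 7, 15], by decide, by decide⟩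

def pX (t : K9) : Equiv.Perm (Fin 18) := pP ^ t.re.val * pQ ^ t.im.val
def pY (t : K9) : Equiv.Perm (Fin 18) := pR ^ t.re.val * pS ^ t.im.val

theorem inv9 {t : K9} (ht : t ≠ 0) : t⁻¹ = t ^ 7 := by
  apply inv_eq_of_mul_eq_one_right
  revert t; decide +kernel

theorem relX : ∀ t u : K9, ∃ k : Fin 3, pX (t + u) = pX t * pX u * pW ^ k.val := by decide +kernel
theorem relY : ∀ t u : K9, ∃ k : Fin 3, pY (t + u) = pY t * pY u * pW ^ k.val := by decide +kernel
theorem relC : ∀ t u : K9, t ≠ 0 → ∃ k : Fin 3, pX t * pY (-t ^ 7) * pX t * pX u =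
    pY (-((t ^ 7) ^ 2 * u)) * (pX t * pY (-t ^ 7) * pX t) * pW ^ k.val := by decide +kernel
theorem comX : ∀ t : K9, pW * pX t = pX t * pW := by decide +kernel
theorem comY : ∀ t : K9, pW * pY t = pY t * pW := by decide +kernel

abbrev EE : Subgroup (Equiv.Perm (Fin 18)) := centralizer {pW}

def eW : EE := ⟨pW, by simp [mem_centralizer_iff]⟩
def eX (t : K9) : EE := ⟨pX t, by simpa [mem_centralizer_iff] using comX t⟩
def eY (t : K9) : EE := ⟨pY t, by simpa [mem_centralizer_iff] using comY t⟩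

theorem zW_le : zpowers eW ≤ center EE := by
  rw [zpowers_le, mem_center_iff]
  intro g
  exact Subtype.ext (g.2 pW rfl).symm

instance normalW : (zpowers eW).Normal := normal_of_le_center zW_le

abbrev pr : EE →* EE ⧸ zpowers eW := QuotientGroup.mk' _

theorem pr_eq {a b : EE} {k : ℕ} (h : (a : Equiv.Perm (Fin 18)) = b * pW ^ k) : pr a = pr b := by
  have : a = b * eW ^ k := Subtype.ext h
  rw [this, map_mul, map_pow, show pr eW = 1 from (QuotientGroup.eq_one_iff _).2 (mem_zpowers _)]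
  simp

def sys : SL2Sys K9 (EE ⧸ zpowers eW) where
  x t := pr (eX t)
  y t := pr (eY t)
  x_add t u := by
    obtain ⟨k, hk⟩ := relX t u
    rw [← map_mul]; exact pr_eq hk
  y_add t u := by
    obtain ⟨k, hk⟩ := relY t u
    rw [← map_mul]; exact pr_eq hk
  conj t u ht := by
    obtain ⟨k, hk⟩ := relC t u ht
    rw [mul_inv_eq_iff_eq_mul, inv9 ht]
    simp only [← map_mul]
    exact pr_eq hk

theorem ord_eW : orderOf eW = 3 := by
  apply orderOf_eq_prime
  · exact Subtype.ext (by decide +kernel : pW ^ 3 = 1)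
  · intro h
    exact absurd (congrArg Subtype.val h) (by decide +kernel : pW ≠ 1)

theorem comm_eq : ⁅eX 1, eX ⟨0, 1⟩⁆ = eW := by
  apply Subtype.ext
  change pX 1 * pX ⟨0, 1⟩ * (pX 1)⁻¹ * (pX ⟨0, 1⟩)⁻¹ = pW
  decide +kernel

theorem exists_cover : ∃ (Γ : Type) (_ : Group Γ) (_ : Finite Γ)
    (σ : Γ →* SpecialLinearGroup (Fin 2) K9),
    IsStemExtension σ ∧ Nonempty (σ.ker ≃* Multiplicative (ZMod 3)) := by
  have hk : pr.ker = zpowers eW := QuotientGroup.ker_mk' _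
  refine ⟨pullback pr sys.fromSL2, inferInstance, inferInstance, pbFst _ _,
    ⟨pbFst_surjective _ _ (QuotientGroup.mk'_surjective _), pbFst_ker_le _ _ (hk.le.trans zW_le),
      ?_⟩, ⟨(pbKerEquiv _ _).trans (mulEquivOfPrimeCardEq (p := 3) ?_ (by simp))⟩⟩
  · intro z hz
    have h1 : pbSnd pr sys.fromSL2 z ∈ zpowers eW :=
      hk.le (pbKerEquiv pr sys.fromSL2 ⟨z, hz⟩).2
    obtain ⟨k, hk'⟩ := h1
    let a : pullback pr sys.fromSL2 := ⟨((sl2Std K9).x 1, eX 1), sys.fromSL2_x 1⟩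
    let b : pullback pr sys.fromSL2 := ⟨((sl2Std K9).x ⟨0, 1⟩, eX ⟨0, 1⟩), sys.fromSL2_x _⟩
    have : z = ⁅a, b⁆ ^ k := by
      apply pb_ext
      · rw [(MonoidHom.mem_ker).1 hz, map_zpow, map_commutatorElement]
        have : ⁅pbFst pr sys.fromSL2 a, pbFst pr sys.fromSL2 b⁆ = 1 := by
          rw [commutatorElement_eq_one_iff_mul_comm]
          change (sl2Std K9).x 1 * (sl2Std K9).x _ = (sl2Std K9).x _ * (sl2Std K9).x 1
          rw [← SL2Sys.x_add, ← SL2Sys.x_add, add_comm]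
        rw [this, _root_.one_zpow]
      · rw [← hk', map_zpow, map_commutatorElement]
        exact congrArg (· ^ k) comm_eq.symm
    rw [this]
    exact zpow_mem (commutator_mem_commutator (mem_top _) (mem_top _)) k
  · rw [hk, Nat.card_zpowers, ord_eW]

theorem fam_eq : famRange (sl2Std K9).x (sl2Std K9).x_add =
    closure {(sl2Std K9).x 1, (sl2Std K9).x ⟨0, 1⟩} := by
  apply le_antisymm
  · intro g hg
    obtain ⟨t, rfl⟩ := mem_famRange.1 hg
    have : t = t.re.val • (1 : K9) + t.im.val • (⟨0, 1⟩ : K9) := by clear hg; revert t; decide +kernel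
    rw [this, SL2Sys.x_add, add_hom_nsmul (sl2Std K9).x_add, add_hom_nsmul (sl2Std K9).x_add]
    exact mul_mem (pow_mem (subset_closure (by simp)) _) (pow_mem (subset_closure (by simp)) _)
  · rw [closure_le]
    rintro _ (rfl | rfl) <;> exact mem_famRange.2 ⟨_, rfl⟩

theorem upper (Γ : Type) [Group Γ] [Finite Γ] (σ : Γ →* SpecialLinearGroup (Fin 2) K9)
    (hσ : IsStemExtension σ) : ∃ π : Multiplicative (ZMod 3) →* σ.ker, Function.Surjective π := by
  let S := sl2Std K9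
  -- the kernel is a 3-group
  obtain ⟨P⟩ : Nonempty (Sylow 3 σ.ker) := inferInstance
  let M : Subgroup Γ := (P : Subgroup σ.ker).map σ.ker.subtype
  have hM : M ≤ σ.ker := map_subtype_le _
  haveI : M.Normal := normal_of_le_center (hM.trans hσ.2.1)
  obtain ⟨h1, h2⟩ := stem_quotient hσ M hM
  have h3 : M.relIndex σ.ker = (P : Subgroup σ.ker).index := by
    rw [relIndex]; congr 1; ext x; simp [M, mem_subgroupOf]
  have h4 := sl2_ker_eq_bot_of_coprime 3 h1 (by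
    rw [h2, h3]; exact ((Nat.Prime.coprime_iff_not_dvd Nat.prime_three).2 P.not_dvd_index).symm)
  rw [h4, h3, card_bot, eq_comm, index_eq_one] at h2
  have h5 : ∀ z ∈ σ.ker, ∃ k, z ^ 3 ^ k = 1 := by
    intro z hz
    obtain ⟨k, hk⟩ := P.isPGroup' ⟨⟨z, hz⟩, by rw [h2]; trivial⟩
    exact ⟨k, congrArg Subtype.val (congrArg Subtype.val hk)⟩
  obtain ⟨a, ha⟩ := hσ.1 (S.x 1)
  obtain ⟨b, hb⟩ := hσ.1 (S.x ⟨0, 1⟩)
  have hcomm : ∀ g ∈ famRange S.x S.x_add, ∀ g' ∈ famRange S.x S.x_add, Commute g g' := by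
    intro g hg g' hg'
    obtain ⟨t, rfl⟩ := mem_famRange.1 hg
    obtain ⟨u, rfl⟩ := mem_famRange.1 hg'
    rw [Commute, SemiconjBy, ← S.x_add, ← S.x_add, add_comm]
  have hc : ⁅a, b⁆ ∈ σ.ker := comm_mem_ker (by
    rw [ha, hb]; exact hcomm _ (mem_famRange.2 ⟨_, rfl⟩) _ (mem_famRange.2 ⟨_, rfl⟩))
  have h6 : σ.ker ≤ zpowers ⁅a, b⁆ := by
    intro z hz
    obtain ⟨k, hk⟩ := h5 z hz
    have := sl2_ker_le_commutator 3 hσ hz hk
    rw [fam_eq] at this
    refine comm_le_of_closure hσ.1 hσ.2.1 (by rw [← fam_eq]; exact hcomm) ?_ this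
    rintro x y (hx | hx) (hy | hy)
    · rw [comm_eq_of_map_eq hσ.2.1 (hx.trans ha.symm) (hy.trans ha.symm)]; simp
    · rw [comm_eq_of_map_eq hσ.2.1 (hx.trans ha.symm) (hy.trans hb.symm)]; simp
    · rw [comm_eq_of_map_eq hσ.2.1 (hx.trans hb.symm) (hy.trans ha.symm), ← commutatorElement_inv a b]
      exact Subgroup.inv_mem _ (mem_zpowers ⁅a, b⁆)
    · rw [comm_eq_of_map_eq hσ.2.1 (hx.trans hb.symm) (hy.trans hb.symm)]; simp
  have h7 : ⁅a, b⁆ ^ 3 = 1 := by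
    have hz := hσ.2.1 hc
    have e1 : ⁅a * a, b⁆ = ⁅a, b⁆ * ⁅a, b⁆ := comm_mul_left_of_central hz
    have e2 : ⁅a * a * a, b⁆ = ⁅a, b⁆ * ⁅a * a, b⁆ := comm_mul_left_of_central hz
    have e3 : ⁅a * a * a, b⁆ = ⁅(1 : Γ), b⁆ := comm_eq_of_map_eq hσ.2.1 (by
      rw [map_mul, map_mul, ha, ← S.x_add, ← S.x_add, map_one,
        show (1 + 1 + 1 : K9) = 0 by decide, S.x_zero]) rfl
    rw [pow_three, ← e1, ← e2, e3, commutatorElement_one_left]
  let c : σ.ker := ⟨_, hc⟩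
  have hc3 : c ^ 3 = 1 := Subtype.ext h7
  have hgen : ∀ z : σ.ker, z ∈ zpowers c := fun z => by
    obtain ⟨k, hk⟩ := h6 z.2
    exact ⟨k, Subtype.ext hk⟩
  by_cases h1 : c = 1
  · refine ⟨1, fun z => ⟨1, ?_⟩⟩
    have := hgen z
    rw [h1, zpowers_one_eq_bot, mem_bot] at this
    simp [this]
  · have ho : orderOf c = 3 := orderOf_eq_prime hc3 h1
    have hcard : Nat.card σ.ker = 3 := (orderOf_eq_card_of_forall_mem_zpowers hgen).symm.trans ho
    let e := mulEquivOfPrimeCardEq (p := 3) (G := Multiplicative (ZMod 3)) (by simp) hcard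
    exact ⟨e.toMonoidHom, e.surjective⟩

/-- For the field with 9 elements, the special linear group SL₂ has Schur multiplier cyclic of order 3 (here the Schur multiplier is described through stem extensions, as in the definitions). -/
theorem result {F : Type*} [Field F] [Fintype F] (hF : Fintype.card F = 9) : Cfsg.HasCyclicSchurMultiplier (Matrix.SpecialLinearGroup (Fin 2) F) 3 := by
  exact mult_of_equiv (slEquiv (FiniteField.ringEquivOfCardEq (card9.trans hF.symm)))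
    ⟨exists_cover, upper⟩

end Cfsg.Agent.S2118
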