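import Cfsg.Statements.S2121
import Cfsg.Agent.Chev.Out

set_option autoImplicit false
open Cfsg Cfsg.Agent.Chev

namespace Cfsg.Agent.S2121

/-- Outer automorphisms of the Chevalley groups of type G₂: over a field with q = p^f (p prime) ≥ 3 elements, the outer automorphism group of G₂(q) has order f when p ≠ 3 and 2f when p = 3 (field automorphisms, and in characteristic 3 also the exceptional graph automorphism). -/
theorem result {F : Type*} [Field F] [Fintype F] (p f : ℕ) [Fact p.Prime] [CharP F p] (hF : Fintype.card F = p ^ f) (hq : 3 ≤ p ^ f) : Nat.card (Cfsg.Out ↥(Cfsg.Lie.chevG2.group F)) = (if p = 3 then 2 * f else f) := by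
  rw [certG2.card_Out F (graphOK_G2 F), certG2.card_cenT_one F rfl, card_ringAut F p f hF, mul_one]
  split_ifs with hp
  · subst hp
    obtain ⟨τ, hτ⟩ := Tw.exists_graph_G2 F Fin.revPerm
    rw [Cert.card_range_sym_two (by decide +kernel) (fun π _ => Tw.perm_two π) hτ]
  · rw [Cert.card_range_sym_one, one_mul]
    intro θ π h
    rcases Tw.perm_two π with e | rfl
    · exact e
    · exact absurd (CharP.eq F inferInstance (charP_of_swap_G2 F h)) hp

end Cfsg.Agent.S2121
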