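import Cfsg.Statements.S2122
import Cfsg.Agent.Chev.Out

set_option autoImplicit false
open Cfsg Cfsg.Agent.Chev

namespace Cfsg.Agent.S2122

/-- Outer automorphisms of the Chevalley groups of type F₄: over a field with q = p^f (p prime) elements, the outer automorphism group of F₄(q) has order gcd(2, p) · f (field automorphisms, and in characteristic 2 also the exceptional graph automorphism). -/
theorem result {F : Type*} [Field F] [Fintype F] (p f : ℕ) [Fact p.Prime] [CharP F p] (hF : Fintype.card F = p ^ f) : Nat.card (Cfsg.Out ↥(Cfsg.Lie.chevF4.group F)) = Nat.gcd 2 p * f := by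
  rw [certF4.card_Out F (graphOK_F4 F), certF4.card_cenT_one F rfl, card_ringAut F p f hF, mul_one]
  congr 1
  by_cases hp : p = 2
  · subst hp
    obtain ⟨τ, hτ⟩ := Tw.exists_graph_F4 F Fin.revPerm (by unfold Lie.ChevalleyDatum.IsDiagramSymmetry; decide +kernel)
    exact Cert.card_range_sym_two (by decide +kernel) Tw.sym_F4 hτ
  · rw [(Nat.coprime_primes Nat.prime_two Fact.out).2 (Ne.symm hp)]
    refine Cert.card_range_sym_one fun θ π h => ?_
    rcases Tw.sym_F4 π (h.isDiagramSymmetry (certF4.sys_φ_inj F)) with e | rfl
    · exact e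
    · exact absurd (CharP.eq F inferInstance (charP_of_swap_F4 F h)) hp

end Cfsg.Agent.S2122
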