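import Cfsg.Statements.S2127
import Cfsg.Agent.Tw.Ree2

set_option autoImplicit false
open Cfsg

namespace Cfsg.Agent.S2127

open Cfsg.Lie Cfsg.Agent.Chev Cfsg.Agent.Tw

/-- Outer automorphisms of the small Ree groups: for q = 3^(2m+1) with m ≥ 1 the outer automorphism group of ²G₂(q) has order 2m + 1 (field automorphisms only). -/
theorem result {K : Type*} [Field K] [Fintype K] {m : ℕ} (hm : 1 ≤ m) (hK : Fintype.card K = 3 ^ (2 * m + 1)) : Nat.card (Cfsg.Out ↥(Cfsg.Lie.twistedG2 K (3 ^ m))) = 2 * m + 1 := by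
  have h : Nat.card K = 3 ^ (2 * m + 1) := by rw [Nat.card_eq_fintype_card, hK]
  have := charP_of_card_eq_prime_pow hK
  obtain ⟨φ, hφ⟩ : ∃ φ : K ≃+* K, ∀ t, φ t = t ^ 3 ^ m := ⟨iterateFrobeniusEquiv K 3 m, fun _ => rfl⟩
  rw [← card_Out_congr (eqG2 K _), card_Out_G2 (frobp hφ h) (goodG2 hφ (frobp hφ h)) (fun _ => fixG2 hφ h)
    (exists_pow_ne K (by norm_num) (h ▸ lt_self_pow₀ (by norm_num) (by omega))), card_ringAut K 3 _ hK]

end Cfsg.Agent.S2127
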