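import Cfsg.Statements.S2128
import Cfsg.Agent.Tw.OutF4

set_option autoImplicit false
open Cfsg

namespace Cfsg.Agent.S2128

open Cfsg.Lie Cfsg.Agent.Chev Cfsg.Agent.Tw

/-- Outer automorphisms of the large Ree groups: for q = 2^(2m+1) with m ≥ 1 the outer automorphism group of ²F₄(q) has order 2m + 1 (field automorphisms only). -/
theorem result {K : Type*} [Field K] [Fintype K] {m : ℕ} (hm : 1 ≤ m) (hK : Fintype.card K = 2 ^ (2 * m + 1)) : Nat.card (Cfsg.Out ↥(Cfsg.Lie.twistedF4 K (2 ^ m))) = 2 * m + 1 := by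
  have h : Nat.card K = 2 ^ (2 * m + 1) := by rw [Nat.card_eq_fintype_card, hK]
  have := charP_of_card_eq_prime_pow hK
  obtain ⟨φ, hφ⟩ : ∃ φ : K ≃+* K, ∀ t, φ t = t ^ 2 ^ m := ⟨iterateFrobeniusEquiv K 2 m, fun _ => rfl⟩
  have h1 := goodF4 hφ (frobp hφ h)
  rw [← card_Out_congr (eqF4 K _), card_Out_F4 h1 (frobp hφ h) (fun _ => fixF4 h1) (exists_pow_ne K one_lt_two
    (h ▸ lt_self_pow₀ one_lt_two (by omega))), card_ringAut K 2 _ hK]

end Cfsg.Agent.S2128
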