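import Cfsg.Statements.S2131
import Cfsg.Agent.J1C.InvC
import Cfsg.Agent.J1C.InvP
import Cfsg.Agent.Inv.Z

set_option autoImplicit false
open Cfsg

namespace Cfsg.Agent.S2131

set_option maxRecDepth 100000
open Cfsg.Agent.CGT Cfsg.Agent.Inv

open Cfsg.Agent.J1C


/-- The Janko group J₁ (the group generated by two explicit 7 × 7 matrices over the integers modulo 11) has an involution whose centraliser is isomorphic to the direct product of a group of order 2 with the alternating group of degree 5. -/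
theorem result : ∃ t : ↥Cfsg.Spor.J1, orderOf t = 2 ∧ Nonempty (↥(Subgroup.centralizer ({t} : Set ↥Cfsg.Spor.J1)) ≃* Multiplicative (ZMod 2) × ↥(alternatingGroup (Fin 5))) := by
  obtain ⟨φ, C⟩ := J1C.cert
  obtain ⟨h1, δ, -, C2⟩ := cent_cert (x_cert C)
  obtain ⟨ψ, CK⟩ := z_cert
  obtain ⟨f, hf, -⟩ := exists_surj C2 CK (R := qRR) (W := [[3, 6, 5], [3, 0, 4], [6]]) (U := [[3, 4, 0], [2, 0, 3, 3, 4], [0, 2, 2, 0, 3], [4]]) (fun h => qbd0 h) (by decide +kernel)
  have := C2.fin
  exact ⟨_, h1, equiv_of_surj hf (C2.card.trans (Eq.trans (by decide +kernel) CK.card.symm))⟩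

end Cfsg.Agent.S2131
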