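import Cfsg.Statements.S2140
import Cfsg.Agent.GLn.PermMin
import Cfsg.Agent.GLn.Spectrum

set_option autoImplicit false
open Cfsg

namespace Cfsg.Agent.S2140

open Cfsg.Agent.GLn

/-- Minimal index of a proper subgroup of the linear groups: for n ≥ 3 and a field F with q elements, (n, q) ≠ (4, 2), every proper subgroup of PSL_n(F) has index at least (q^n − 1)/(q − 1), and some subgroup has exactly that index (the stabiliser of a point of the projective space). -/
theorem result {F : Type*} [Field F] [Fintype F] {q : ℕ} (hF : Fintype.card F = q) (n : ℕ) (hn : 3 ≤ n) (hexc : ¬ (n = 4 ∧ q = 2)) : (∀ H : Subgroup (Matrix.ProjectiveSpecialLinearGroup (Fin n) F), H ≠ ⊤ → (q ^ n - 1) / (q - 1) ≤ H.index) ∧ (∃ H : Subgroup (Matrix.ProjectiveSpecialLinearGroup (Fin n) F), H.index = (q ^ n - 1) / (q - 1)) := by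
  obtain ⟨m, rfl⟩ : ∃ m, n = m + 3 := ⟨n - 3, by omega⟩
  subst hF
  rw [geom_eq_div _ _ Fintype.one_lt_card, ← Nat.card_eq_fintype_card]
  refine ⟨fun H hH => ?_, ?_⟩
  · have hs := QuotientGroup.mk'_surjective
      (Subgroup.center (Matrix.SpecialLinearGroup (Fin (m + 3)) F))
    rw [← H.index_comap_of_surjective hs]
    have h1 : H.comap (QuotientGroup.mk' _) ≠ ⊤ := fun e =>
      hH (by rw [← Subgroup.map_comap_eq_self_of_surjective hs H, e,
        Subgroup.map_top_of_surjective _ hs])
    have := QuotientGroup.nontrivial_iff.mpr h1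
    exact le_card_of_pretransitive (by omega) _
  · have : Nonempty (Projectivization F (Fin (m + 3) → F)) := inferInstance
    obtain ⟨p⟩ := this
    exact ⟨MulAction.stabilizer _ p, by rw [MulAction.index_stabilizer_of_transitive, card_proj]⟩

end Cfsg.Agent.S2140
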