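import Cfsg.Statements.S2141
import Cfsg.Agent.Polar.MinSp

set_option autoImplicit false
open Cfsg

namespace Cfsg.Agent.S2141

open Cfsg.Agent.Polar

/-- Minimal index of a proper subgroup of the symplectic groups over fields with at least 3 elements: for m ≥ 2 and a field F with q ≥ 3 elements, (m, q) ≠ (2, 3), every proper subgroup of PSp_2m(F) has index at least (q^(2m) − 1)/(q − 1), and that index is attained. -/
theorem result {F : Type*} [Field F] [Fintype F] {q : ℕ} (hF : Fintype.card F = q) (m : ℕ) (hm : 2 ≤ m) (hq : 3 ≤ q) (hexc : ¬ (m = 2 ∧ q = 3)) : (∀ H : Subgroup (Cfsg.PSp m F), H ≠ ⊤ → (q ^ (2 * m) - 1) / (q - 1) ≤ H.index) ∧ (∃ H : Subgroup (Cfsg.PSp m F), H.index = (q ^ (2 * m) - 1) / (q - 1)) := by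
  subst hF
  have hc : Nat.card F = Fintype.card F := Nat.card_eq_fintype_card
  rw [← hc] at hq hexc ⊢
  have hP := spStd_nd (F := F) m
  have hfr := finrank_spStd (F := F) m
  have : Nontrivial (Fin m ⊕ Fin m → F) := Module.nontrivial_of_finrank_pos (R := F) (by omega)
  obtain ⟨v, hv⟩ := exists_ne (0 : Fin m ⊕ Fin m → F)
  obtain ⟨f, h⟩ := hP.exists_hyp (PQ.sp_sing v) hv
  refine PQ.min_index_transfer (spEquivEG m) (fun H hH => ?_) ⟨_, PQ.mem_pst_of_commute hP
    PQ.sp_rich h hv, ?_⟩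
  · exact Nat.div_le_of_le_mul ((PQ.sp_min_index hP hfr hm hq hexc hH).trans_eq (mul_comm _ _))
  · rw [← hfr, ← PQ.sp_pst_index hP hv, Nat.mul_div_cancel _ (by omega)]

end Cfsg.Agent.S2141
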