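import Cfsg.Statements.S2142
import Cfsg.Agent.Polar.SpTwo

set_option autoImplicit false
open Cfsg

namespace Cfsg.Agent.S2142

open Cfsg.Agent.Polar Cfsg.Agent.Forms

/-- Minimal index of a proper subgroup of the symplectic groups over the field with 2 elements: for m ≥ 3, every proper subgroup of Sp_2m(2) has index at least 2^(m−1)(2^m − 1), and that index is attained. -/
theorem result {F : Type*} [Field F] [Fintype F] (hF : Fintype.card F = 2) (m : ℕ) (hm : 3 ≤ m) : (∀ H : Subgroup (Cfsg.PSp m F), H ≠ ⊤ → 2 ^ (m - 1) * (2 ^ m - 1) ≤ H.index) ∧ (∃ H : Subgroup (Cfsg.PSp m F), H.index = 2 ^ (m - 1) * (2 ^ m - 1)) := by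
  have hq : Nat.card F = 2 := by rw [Nat.card_eq_fintype_card, hF]
  have hP := spStd_nd (F := F) m
  have hfr := finrank_spStd (F := F) m
  obtain ⟨k, rfl⟩ : ∃ k, m = k + 1 := ⟨m - 1, by omega⟩
  have hN : 2 * (2 ^ (k + 1 - 1) * (2 ^ (k + 1) - 1)) + 2 ^ (k + 1) = (2 ^ (k + 1)) ^ 2 := by
    obtain ⟨a, ha⟩ : ∃ a, 2 ^ (k + 1) = a + 1 := ⟨2 ^ (k + 1) - 1, by
      have := Nat.one_le_two_pow (n := k + 1); omega⟩
    rw [← mul_assoc, Nat.add_sub_cancel, ← pow_succ', ha, Nat.add_sub_cancel]; ring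
  have : Nontrivial (Fin (k + 1) ⊕ Fin (k + 1) → F) :=
    Module.nontrivial_of_finrank_pos (R := F) (by omega)
  obtain ⟨v, hv⟩ := exists_ne (0 : Fin (k + 1) ⊕ Fin (k + 1) → F)
  obtain ⟨f, h⟩ := hP.exists_hyp (PQ.sp_sing v) hv
  refine PQ.min_index_transfer (spEquivEG (k + 1)) (fun H hH => ?_) ?_
  · have := PQ.sp_two_min_index hP hq hfr hm hH
    omega
  · obtain ⟨κ, hκ⟩ := PQ.sp_two_exists hP hq hfr (by omega) (κ := QPlus (k + 1) F) fun x y => by
      rw [quad_add, spStd_B, sympB_eq]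
      congr 1
      refine (pol_QPlus _ x y).trans (Finset.sum_congr rfl fun i _ => ?_)
      linear_combination (x (.inl i) * y (.inr i)) * two_eq_zero_of_card hq
    refine ⟨(spStd F (k + 1)).qst κ, fun z _ hz x => ?_, by omega⟩
    obtain ⟨t, ht⟩ := PQ.exists_scalar_of_commute hP PQ.sp_rich h hz
    rcases eq_zero_or_one hq t with rfl | rfl
    · exact (PQ.act_ne_zero z hv (by simpa using ht v)).elim
    · rw [ht, one_smul]

end Cfsg.Agent.S2142
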