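import Cfsg.Statements.S2145
import Cfsg.Agent.Polar.MinO

set_option autoImplicit false
open Cfsg

namespace Cfsg.Agent.S2145

open Cfsg.Agent.Polar Cfsg.Agent.Forms

/-- Minimal index of a proper subgroup of the even-dimensional orthogonal groups of plus type: for m ≥ 4 and a field F with q ≥ 4 elements, every proper subgroup of PΩ⁺_2m(F) (for the form Σ xᵢyᵢ) has index at least (q^m − 1)(q^(m−1) + 1)/(q − 1), and that index is attained (the singular points). -/
theorem result {F : Type*} [Field F] [Fintype F] {q : ℕ} (hF : Fintype.card F = q) (hq : 4 ≤ q) (m : ℕ) (hm : 4 ≤ m) : (∀ H : Subgroup (Cfsg.POmega F (Cfsg.quadFormPlus m F)), H ≠ ⊤ → (q ^ m - 1) * (q ^ (m - 1) + 1) / (q - 1) ≤ H.index) ∧ (∃ H : Subgroup (Cfsg.POmega F (Cfsg.quadFormPlus m F)), H.index = (q ^ m - 1) * (q ^ (m - 1) + 1) / (q - 1)) := by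
  have hF' : Nat.card F = q := by rw [Nat.card_eq_fintype_card, hF]
  have hQ := QPlus_nondegenerate (F := F) m
  exact PQ.o_min_plus (ofQuad_nd hQ) hF' (by simp; omega) (spl_QPlus m) hm hq
    (omegaEquiv hQ (by simp; omega))

end Cfsg.Agent.S2145
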