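import Cfsg.Statements.S2147
import Cfsg.Agent.Polar.MinO

set_option autoImplicit false
open Cfsg

namespace Cfsg.Agent.S2147

open Cfsg.Agent.Polar Cfsg.Agent.Forms

/-- Minimal index of a proper subgroup of the even-dimensional orthogonal groups of minus type: for m ≥ 4 and a field F with q elements, every proper subgroup of PΩ⁻_2m(F) (for the form Σ_{i<m−1} xᵢyᵢ + z₁² + a z₁z₂ + b z₂² with anisotropic binary part) has index at least (q^m + 1)(q^(m−1) − 1)/(q − 1), and that index is attained. -/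
theorem result {F : Type*} [Field F] [Fintype F] {q : ℕ} (hF : Fintype.card F = q) (m : ℕ) (hm : 4 ≤ m) (a b : F) (hab : ∀ z₁ z₂ : F, z₁ ^ 2 + a * z₁ * z₂ + b * z₂ ^ 2 = 0 → z₁ = 0 ∧ z₂ = 0) : (∀ H : Subgroup (Cfsg.POmega F (Cfsg.quadFormMinus (m - 1) F a b)), H ≠ ⊤ → (q ^ m + 1) * (q ^ (m - 1) - 1) / (q - 1) ≤ H.index) ∧ (∃ H : Subgroup (Cfsg.POmega F (Cfsg.quadFormMinus (m - 1) F a b)), H.index = (q ^ m + 1) * (q ^ (m - 1) - 1) / (q - 1)) := by
  have hF' : Nat.card F = q := by rw [Nat.card_eq_fintype_card, hF]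
  have hQ := QMinus_nondegenerate (F := F) (m - 1) hab
  refine PQ.o_min_minus (ofQuad_nd hQ) hF' (by simp; omega) ?_ hm (omegaEquiv hQ (by simp; omega))
  rintro ⟨M, hM, hm'⟩
  have := finrank_le_of_singular_QMinus (m - 1) hab (M := M) fun x hx =>
    PQ.o_sing_iff.1 (hM.sing x hx)
  omega

end Cfsg.Agent.S2147
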