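import Cfsg.Statements.S2148
import Cfsg.Agent.U3.Main

set_option autoImplicit false
open Cfsg

namespace Cfsg.Agent.S2148

/-- Minimal index of a proper subgroup of the three-dimensional unitary groups: for a field F with q² elements, q ≥ 3 and q ≠ 5, every proper subgroup of PSU₃(q) has index at least q³ + 1, and that index is attained. -/
theorem result {F : Type*} [Field F] [Fintype F] (q : ℕ) (hF : Fintype.card F = q ^ 2) (hq : 3 ≤ q) (h5 : q ≠ 5) : (∀ H : Subgroup (Cfsg.PSU 3 F q), H ≠ ⊤ → q ^ 3 + 1 ≤ H.index) ∧ (∃ H : Subgroup (Cfsg.PSU 3 F q), H.index = q ^ 3 + 1) := by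
  have hP := Polar.uStd_nd hF 3
  have hfr : Module.finrank F (Fin 3 → F) = 3 := by simp
  exact Polar.PQ.min_index_transfer (Polar.suEquiv hF 3)
    (fun H hH => (U3.u3_index hP hfr hq hH).resolve_right fun h => h5 h.1) (U3.u3_exists hP hfr)

end Cfsg.Agent.S2148
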