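import Cfsg.Statements.S2149
import Cfsg.Agent.U3.A7

set_option autoImplicit false
open Cfsg

namespace Cfsg.Agent.S2149

/-- Minimal index of a proper subgroup of PSU₃(5), realised over the field with 25 elements: every proper subgroup has index at least 50, and that index is attained. -/
theorem result {F : Type*} [Field F] [Fintype F] (hF : Fintype.card F = 25) : (∀ H : Subgroup (Cfsg.PSU 3 F 5), H ≠ ⊤ → 50 ≤ H.index) ∧ (∃ H : Subgroup (Cfsg.PSU 3 F 5), H.index = 50) := by
  have hF' : Fintype.card F = 5 ^ 2 := hF
  refine ⟨fun H hH => ?_, U3.exists_index_fifty hF'⟩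
  have hP := Polar.uStd_nd hF' 3
  have hfr : Module.finrank F (Fin 3 → F) = 3 := by simp
  let φ := Polar.suEquiv hF' 3
  let K := (H.comap (QuotientGroup.mk' _)).comap φ.symm.toMonoidHom
  have hK : K.index = H.index := by
    rw [Subgroup.index_comap_of_surjective _ φ.symm.surjective,
      Subgroup.index_comap_of_surjective _ (QuotientGroup.mk'_surjective _)]
  have e1 : (K.map (Polar.uStd hF' 3).EG.subtype).relIndex (Polar.uStd hF' 3).EG = K.index := by
    rw [Subgroup.relIndex, Subgroup.subgroupOf,
      Subgroup.comap_map_eq_self_of_injective (Subgroup.subtype_injective _)]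
  have h := U3.u3_index hP hfr (by norm_num) (H := K.map (Polar.uStd hF' 3).EG.subtype)
    fun hle => hH (by
      rw [← Subgroup.index_eq_one, ← hK, ← e1, Subgroup.relIndex_eq_one]; exact hle)
  rw [e1, hK] at h
  omega

end Cfsg.Agent.S2149
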