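import Cfsg.Statements.S2150
import Cfsg.Agent.Polar.MinU4

set_option autoImplicit false
open Cfsg

namespace Cfsg.Agent.S2150

open Cfsg.Agent.Polar

/-- Minimal index of a proper subgroup of the four-dimensional unitary groups: for a field F with q² elements, every proper subgroup of PSU₄(q) has index at least (q + 1)(q³ + 1), and that index is attained. -/
theorem result {F : Type*} [Field F] [Fintype F] (q : ℕ) (hF : Fintype.card F = q ^ 2) (hq : 2 ≤ q) : (∀ H : Subgroup (Cfsg.PSU 4 F q), H ≠ ⊤ → (q + 1) * (q ^ 3 + 1) ≤ H.index) ∧ (∃ H : Subgroup (Cfsg.PSU 4 F q), H.index = (q + 1) * (q ^ 3 + 1)) := by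
  have hP := uStd_nd hF 4
  have hfr : Module.finrank F (Fin 4 → F) = 4 := by simp
  refine PQ.min_index_transfer (suEquiv hF 4) (fun H hH => PQ.u4_min_index hP hfr hH) ?_
  obtain ⟨X, hX⟩ := PQ.u4_exists hP hfr
  obtain ⟨e, he0, he⟩ := PQ.u_exists_sing (uStd hF 4) (by omega)
  obtain ⟨f, h⟩ := hP.exists_hyp he he0
  refine ⟨_, fun z _ hz => PQ.mem_sst.2 fun x hx => ?_, hX⟩
  obtain ⟨t, ht⟩ := PQ.exists_scalar_of_commute hP PQ.u_rich h hz
  rw [ht]; exact X.smul_mem t hx

end Cfsg.Agent.S2150
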