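import Cfsg.Statements.S2152
import Cfsg.Agent.Polar.MinUAr

set_option autoImplicit false
open Cfsg

namespace Cfsg.Agent.S2152

open Cfsg.Agent.Polar

/-- Minimal index of a proper subgroup of the unitary groups of even dimension n ≥ 6: for a field F with q² elements, q ≥ 3, every proper subgroup of PSU_n(q) has index at least (q^n − 1)(q^(n−1) + 1)/(q² − 1), and that index is attained (the isotropic points). -/
theorem result {F : Type*} [Field F] [Fintype F] (q : ℕ) (hF : Fintype.card F = q ^ 2) (hq : 3 ≤ q) (n : ℕ) (hn : 6 ≤ n) (heven : Even n) : (∀ H : Subgroup (Cfsg.PSU n F q), H ≠ ⊤ → (q ^ n - 1) * (q ^ (n - 1) + 1) / (q ^ 2 - 1) ≤ H.index) ∧ (∃ H : Subgroup (Cfsg.PSU n F q), H.index = (q ^ n - 1) * (q ^ (n - 1) + 1) / (q ^ 2 - 1)) := by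
  have hP := uStd_nd hF n
  have hq2 : 2 ≤ q := by omega
  obtain ⟨d, rfl⟩ : ∃ d, n = d + 2 := ⟨n - 2, by omega⟩
  have hfr : Module.finrank F (Fin (d + 2) → F) = d + 2 := by simp
  have hc := (PQ.u_count (d + 2) _ _ hP hfr).1 heven
  have ha2 : 2 ≤ q ^ d := hq2.trans (Nat.le_self_pow (by omega) q)
  have ha : 1 ≤ q ^ d := by omega
  rw [show d + 2 - 1 = d + 1 from rfl, pow_succ q d]
  rw [pow_add q d 2] at hc ⊢
  obtain ⟨e, he0, he⟩ := PQ.u_exists_sing (uStd hF (d + 2)) (by omega)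
  have h1 := uar_even_sing hq2 ha (PQ.u_sing_index hP he he0) hc.1
  rw [uar_div hq2 h1]
  refine PQ.u_min_of hP hfr (by omega) (suEquiv hF (d + 2)) (uar_even_h1 hq2 ha2 h1)
    (fun v hv0 => ?_) ⟨e, he0, rfl⟩
  by_cases hv : (uStd hF (d + 2)).Sing v
  · exact uar_le hq2 (h1.trans (uar_even_sing hq2 ha (PQ.u_sing_index hP hv hv0) hc.1).symm).le
  · exact uar_even_non hq ha h1 (PQ.u_nonsing_index hP (by omega) hv)
      (hc.2 _ (mt (PQ.sing_iff_of_QEq (PQ.QEq.self v)).2 hv))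

end Cfsg.Agent.S2152
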