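import Cfsg.Statements.S2153
import Cfsg.Agent.Polar.MinUAr

set_option autoImplicit false
open Cfsg

namespace Cfsg.Agent.S2153

open Cfsg.Agent.Polar

/-- Minimal index of a proper subgroup of the unitary groups PSU_n(2) with n divisible by 6, realised over the field with 4 elements: every proper subgroup has index at least 2^(n−1)(2^n − 1)/3, and that index is attained. -/
theorem result {F : Type*} [Field F] [Fintype F] (hF : Fintype.card F = 4) (n : ℕ) (hn : 6 ∣ n) (hpos : 6 ≤ n) : (∀ H : Subgroup (Cfsg.PSU n F 2), H ≠ ⊤ → 2 ^ (n - 1) * (2 ^ n - 1) / 3 ≤ H.index) ∧ (∃ H : Subgroup (Cfsg.PSU n F 2), H.index = 2 ^ (n - 1) * (2 ^ n - 1) / 3) := by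
  have hF' : Fintype.card F = 2 ^ 2 := hF
  have hP := uStd_nd hF' n
  have heven : Even n := even_iff_two_dvd.2 (Dvd.dvd.trans (by norm_num) hn)
  obtain ⟨d, rfl⟩ : ∃ d, n = d + 2 := ⟨n - 2, by omega⟩
  have hfr : Module.finrank F (Fin (d + 2) → F) = d + 2 := by simp
  have hc := (PQ.u_count (d + 2) _ _ hP hfr).1 heven
  have ha : 1 ≤ 2 ^ d := Nat.one_le_two_pow
  rw [show d + 2 - 1 = d + 1 from rfl, pow_succ 2 d]
  rw [pow_add 2 d 2] at hc ⊢
  have key : ∀ v, ¬ (uStd hF' (d + 2)).Sing v → 3 * ((uStd hF' (d + 2)).pst v).relIndex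
      (uStd hF' (d + 2)).EG = 2 ^ d * 2 * (2 ^ d * 2 ^ 2 - 1) := fun v hv => by
    have h1 := PQ.u_nonsing_index hP (by omega) hv
    have h2 := hc.2 _ (mt (PQ.sing_iff_of_QEq (PQ.QEq.self v)).2 hv)
    rw [h1] at h2
    have h3 : 1 ≤ 2 ^ d * 2 ^ 2 := by omega
    zify [h3] at h2 ⊢
    linarith
  have : Nontrivial (Fin (d + 2) → F) := Module.nontrivial_of_finrank_pos (R := F) (by omega)
  obtain ⟨θ, hθ⟩ := PQ.exists_trace_one hF'
  obtain ⟨w, hw⟩ := PQ.u_exists_QEq hP θ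
  have hw' : ¬ (uStd hF' (d + 2)).Sing w := fun h => by
    have h1 := (PQ.sing_iff_of_QEq hw).1 h
    rw [mem_uFP_lam] at h1
    simp_all
  have h1 := key w hw'
  rw [← h1, Nat.mul_div_cancel_left _ (by norm_num)]
  have h3 : 1 ≤ 2 ^ d * 2 ^ 2 := by omega
  refine PQ.u_min_of hP hfr (by omega) (suEquiv hF' (d + 2)) ?_
    (fun v hv0 => ?_) ⟨w, by rintro rfl; exact hw' PQ.sing_zero, rfl⟩
  · zify [h3] at h1 ⊢
    nlinarith [show (0 : ℤ) ≤ 2 ^ d by positivity]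
  by_cases hv : (uStd hF' (d + 2)).Sing v
  · have h2 := uar_even_sing le_rfl ha (PQ.u_sing_index hP hv hv0) hc.1
    zify [h3] at h1 h2 ⊢
    norm_num at h2
    nlinarith [show (1 : ℤ) ≤ 2 ^ d by exact_mod_cast ha]
  · have := key v hv
    omega

end Cfsg.Agent.S2153
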