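import Cfsg.Statements.S2154
import Cfsg.Agent.Chev.Kempf
import Cfsg.Agent.Chev.Data

set_option autoImplicit false
open Cfsg Cfsg.Agent.Chev

namespace Cfsg.Agent.S2154

/-- The Borel–Tits property of the finite Chevalley groups of types G₂, B₂, D₄, F₄, E₆, E₇, E₈ over a finite field of characteristic p: for every non-trivial p-subgroup U of the group G there are an element g of G and a proper set J of fundamental roots such that the normaliser of U in G lies in the conjugate by g of the standard parabolic subgroup P_J and U lies in the conjugate by g of its unipotent radical U_J. -/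
theorem result {F : Type*} [Field F] [Fintype F] (p : ℕ) [Fact p.Prime] [CharP F p] (D : Cfsg.Lie.ChevalleyDatum) (hD : D ∈ [Cfsg.Lie.chevG2, Cfsg.Lie.chevB2, Cfsg.Lie.chevD4, Cfsg.Lie.chevF4, Cfsg.Lie.chevE6, Cfsg.Lie.chevE7, Cfsg.Lie.chevE8]) (U : Subgroup (GL D.Idx F)) (hUG : U ≤ D.group F) (hU : IsPGroup p ↥U) (hne : U ≠ ⊥) : ∃ g ∈ D.group F, ∃ J : Set ℕ, (∃ i, i < D.rank ∧ i ∉ J) ∧ Subgroup.normalizer (U : Set (GL D.Idx F)) ⊓ D.group F ≤ (D.parabolicSubgroup F J).map (MulAut.conj g).toMonoidHom ∧ U ≤ (D.unipotentRadical F J).map (MulAut.conj g).toMonoidHom := by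
  obtain ⟨C⟩ := cert_of_mem hD
  have hQ : IsPGroup p (U.subgroupOf (D.group F)) := hU.comap_of_injective _ (D.group F).subtype_injective
  have hne' : U.subgroupOf (D.group F) ≠ ⊥ := by
    intro h
    apply hne
    rw [← Subgroup.map_subgroupOf_eq_of_le hUG, h, Subgroup.map_bot]
  obtain ⟨g, J, ⟨i, hi⟩, h1, h2⟩ := (C.sys F).borel_tits_pgroup (C.sys_φ_inj F) p hQ hne'
  refine ⟨(g⁻¹ : ↥(D.group F)), (g⁻¹).2, Fin.val '' J, ⟨i, i.2, fun ⟨j, hj, e⟩ => hi (Fin.ext e ▸ hj)⟩, ?_, ?_⟩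
  · rintro y ⟨hy, hyG⟩
    rw [C.parabolicSubgroup_eq, Cert.nodes_image]
    refine ⟨(g * ⟨y, hyG⟩ * g⁻¹ : ↥(D.group F)), ⟨_, h2 ⟨y, hyG⟩ fun x hx => ?_, rfl⟩, by simp [mul_assoc]⟩
    exact (Subgroup.mem_normalizer_iff.1 hy x).1 hx
  · intro x hx
    rw [C.unipotentRadical_eq, Cert.nodes_image]
    exact ⟨(g * ⟨x, hUG hx⟩ * g⁻¹ : ↥(D.group F)), ⟨_, h1 ⟨x, hUG hx⟩ hx, rfl⟩, by simp [mul_assoc]⟩

end Cfsg.Agent.S2154
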