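import Cfsg.Statements.S2155
import Cfsg.Agent.Chev.CentU
import Cfsg.Agent.Chev.Data

set_option autoImplicit false
open Cfsg Cfsg.Agent.Chev

namespace Cfsg.Agent.S2155

/-- In a Chevalley group of type G₂, B₂, D₄, F₄, E₆, E₇ or E₈ over a finite field of characteristic p (for types G₂ and B₂ the field is assumed to have at least 3 elements, so that the group is simple), the generalized Fitting subgroup of every proper standard parabolic subgroup P_J is a p-group (P_J is p-constrained with trivial largest normal subgroup of order prime to p). -/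
theorem result {F : Type*} [Field F] [Fintype F] (p : ℕ) [Fact p.Prime] [CharP F p] (D : Cfsg.Lie.ChevalleyDatum) (hD : D ∈ [Cfsg.Lie.chevG2, Cfsg.Lie.chevB2, Cfsg.Lie.chevD4, Cfsg.Lie.chevF4, Cfsg.Lie.chevE6, Cfsg.Lie.chevE7, Cfsg.Lie.chevE8]) (hq : (D = Cfsg.Lie.chevG2 ∨ D = Cfsg.Lie.chevB2) → 3 ≤ Fintype.card F) (J : Set ℕ) (hJ : ∃ i, i < D.rank ∧ i ∉ J) : IsPGroup p ↥(Cfsg.generalizedFittingSubgroup ↥(D.parabolicSubgroup F J)) := by
  obtain ⟨C⟩ := cert_of_mem hD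
  obtain ⟨i, hi, hiJ⟩ := hJ
  rw [C.parabolicSubgroup_eq]
  let S := C.sys F
  let K := Cert.nodes D J
  let Q : Subgroup ↥((S.P K).map (D.group F).subtype) := ((S.UJ K).map (D.group F).subtype).subgroupOf _
  have hN : Q.Normal := ⟨by
    rintro ⟨_, h⟩ ⟨u, hu, rfl⟩ ⟨_, g, hg, rfl⟩
    exact ⟨_, S.P_conj_UJ hg hu, rfl⟩⟩
  have hU : IsPGroup p (((S.Up).map (D.group F).subtype).subgroupOf ((S.P K).map (D.group F).subtype)) :=
    ((S.isPGroup_Up p).map _).comap_subtype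
  have : Finite ↥((S.P K).map (D.group F).subtype) :=
    Finite.of_equiv _ ((S.P K).equivMapOfInjective _ (D.group F).subtype_injective).toEquiv
  refine isPGroup_genFitting (Q := Q) (hU.to_le (Subgroup.comap_mono (Subgroup.map_mono (S.UJ_le_Up K))))
    (hU.to_le ?_)
  rintro ⟨_, g, hg, rfl⟩ h
  refine ⟨g, S.mem_Up_of_commute_rad (C.sys_φ_inj F) (J := K) (i₀ := ⟨i, hi⟩) hiJ fun r hr hr' => ?_, rfl⟩
  have := h ⟨_, _, S.UJ_le_P K (S.x_mem_UJ hr hr' 1), rfl⟩ ⟨_, S.x_mem_UJ hr hr' 1, rfl⟩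
  rw [mul_inv_eq_iff_eq_mul]
  exact Subtype.ext (congrArg Subtype.val this).symm

end Cfsg.Agent.S2155
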