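import Cfsg.Statements.S2159
import Cfsg.Agent.Chev.Out

set_option autoImplicit false
open Cfsg Cfsg.Agent.Chev

namespace Cfsg.Agent.S2159

/-- Structure of the outer automorphism group of the Chevalley group `G` of type G₂, B₂, D₄, F₄, E₆, E₇ or E₈ over a finite field. Let `D̄` be the image in `Out(G)` of the subgroup generated by the diagonal automorphisms and `F̄` the image of the subgroup generated by the field automorphisms. Then `D̄` is a normal abelian subgroup of `Out(G)`, `F̄` is cyclic, `D̄F̄` is a normal subgroup, and the quotient of `Out(G)` by `D̄F̄` is trivial, of order 2, or non-abelian of order 6 (so isomorphic to the symmetric group on three letters): its index is 1 or 2, or it is 6 with the commutator subgroup of `Out(G)` not inside `D̄F̄`. -/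
theorem result {F : Type*} [Field F] [Finite F] (D : Cfsg.Lie.ChevalleyDatum) (hD : D ∈ [Cfsg.Lie.chevG2, Cfsg.Lie.chevB2, Cfsg.Lie.chevD4, Cfsg.Lie.chevF4, Cfsg.Lie.chevE6, Cfsg.Lie.chevE7, Cfsg.Lie.chevE8])
    (Dbar Fbar : Subgroup (Cfsg.Out ↥(D.group F)))
    (hDbar : Dbar = (Subgroup.closure {φ : MulAut ↥(D.group F) | D.IsDiagonalAut φ}).map (QuotientGroup.mk' (Cfsg.Inn ↥(D.group F))))
    (hFbar : Fbar = (Subgroup.closure {φ : MulAut ↥(D.group F) | D.IsFieldAut φ}).map (QuotientGroup.mk' (Cfsg.Inn ↥(D.group F)))) :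
    Dbar.Normal ∧ IsMulCommutative ↥Dbar ∧ IsCyclic ↥Fbar ∧ (Dbar ⊔ Fbar).Normal ∧
      ((Dbar ⊔ Fbar).index = 1 ∨ (Dbar ⊔ Fbar).index = 2 ∨
        ((Dbar ⊔ Fbar).index = 6 ∧ ¬ commutator (Cfsg.Out ↥(D.group F)) ≤ Dbar ⊔ Fbar)) := by
  have key : ∀ C : Cert D, C.GraphOK F → ((Nat.card (C.sym F).range = 1 ∨ Nat.card (C.sym F).range = 2) ∨
      (Nat.card (C.sym F).range = 6 ∧ ∃ a ∈ (C.sym F).range, ∃ b ∈ (C.sym F).range, a * b ≠ b * a)) →
      Dbar.Normal ∧ IsMulCommutative ↥Dbar ∧ IsCyclic ↥Fbar ∧ (Dbar ⊔ Fbar).Normal ∧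
      ((Dbar ⊔ Fbar).index = 1 ∨ (Dbar ⊔ Fbar).index = 2 ∨
        ((Dbar ⊔ Fbar).index = 6 ∧ ¬ commutator (Cfsg.Out ↥(D.group F)) ≤ Dbar ⊔ Fbar)) := by
    intro C hG h
    rw [C.closure_diag] at hDbar
    rw [C.closure_field] at hFbar
    obtain rfl : Dbar = C.Dbar F := hDbar
    obtain rfl : Fbar = C.Fbar F := hFbar
    refine ⟨C.normal_Dbar F hG, C.comm_Dbar F, C.cyclic_Fbar F, by rw [← C.ker_symO]; infer_instance, ?_⟩
    rw [← C.ker_symO, Subgroup.index_ker, C.range_symO]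
    rcases h with (h | h) | ⟨h, _, ⟨a, rfl⟩, _, ⟨b, rfl⟩, hab⟩
    · exact Or.inl h
    · exact Or.inr (Or.inl h)
    · refine Or.inr (Or.inr ⟨h, fun hc => hab ?_⟩)
      have := hc (Subgroup.commutator_mem_commutator (Subgroup.mem_top (Cert.qO F a)) (Subgroup.mem_top (Cert.qO F b)))
      rw [MonoidHom.mem_ker, map_commutatorElement, commutatorElement_eq_one_iff_mul_comm] at this
      exact this
  simp only [List.mem_cons, List.not_mem_nil, or_false] at hD
  rcases hD with rfl | rfl | rfl | rfl | rfl | rfl | rfl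
  · exact key certG2 (graphOK_G2 F) (Or.inl (Cert.card_range_sym_le fun π _ => Tw.perm_two π))
  · exact key certB2 (graphOK_B2 F) (Or.inl (Cert.card_range_sym_le fun π _ => Tw.perm_two π))
  · have h1 : ∀ π, π ∈ (certD4.sym F).range ↔ Lie.chevD4.IsDiagramSymmetry π := fun π =>
      ⟨fun ⟨θ, h⟩ => h ▸ Cert.sym_isDiagramSymmetry θ, fun h => by
        obtain ⟨τ, hτ⟩ := Tw.exists_graph_D4 F π h
        exact Cert.mem_range_sym.2 ⟨τ, Cert.pres_of_graph hτ⟩⟩
    refine key certD4 (graphOK_D4 F) (Or.inr ⟨?_, Tw.triD4.nodes, (h1 _).2 ?_, Tw.swapD4.nodes, (h1 _).2 ?_, ?_⟩)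
    · rw [Nat.card_congr (Equiv.subtypeEquivRight h1)]
      unfold Lie.ChevalleyDatum.IsDiagramSymmetry
      have : Fintype.card {π : Equiv.Perm (Fin 4) // ∀ i j : Fin 4, i ≠ j →
        Lie.chevD4.bonds (π i) (π j) = Lie.chevD4.bonds i j} = 6 := by decide +kernel
      rw [← this, ← Nat.card_eq_fintype_card]; rfl
    · unfold Lie.ChevalleyDatum.IsDiagramSymmetry; decide +kernel
    · unfold Lie.ChevalleyDatum.IsDiagramSymmetry; decide +kernel
    · decide +kernel
  · exact key certF4 (graphOK_F4 F) (Or.inl (Cert.card_range_sym_le Tw.sym_F4))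
  · exact key certE6 (graphOK_E6 F) (Or.inl (Cert.card_range_sym_le Tw.sym_E6))
  · exact key certE7 (graphOK_E7 F) (Or.inl (Cert.card_range_sym_le (ρ := 1) fun π h => Or.inl (sym_E7 π h)))
  · exact key certE8 (graphOK_E8 F) (Or.inl (Cert.card_range_sym_le (ρ := 1) fun π h => Or.inl (sym_E8 π h)))

end Cfsg.Agent.S2159
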