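import Cfsg.Statements.S2161
import Cfsg.Agent.Chev.Gen
import Cfsg.Agent.Chev.DataD4
import Cfsg.Agent.Chev.DataE6

set_option autoImplicit false
open Cfsg Cfsg.Agent.Chev

namespace Cfsg.Agent.S2161

/-- For the Chevalley groups of types D₄ and E₆ (one root length) over any field: if `π` is a symmetry of the Dynkin diagram and `φ` is an automorphism sending `x_{p_i}(t)` to `x_{p_{π i}}(t)` and `x_{-p_i}(t)` to `x_{-p_{π i}}(t)` for every fundamental root `p_i`, then for every root `r` there is a sign `ε = ±1` with `φ(x_r(t)) = x_{π·r}(ε t)` for all `t`, where `π·r` is the root whose coefficients are those of `r` permuted by `π`. -/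
theorem result {F : Type*} [Field F] (D : Cfsg.Lie.ChevalleyDatum) (hD : D ∈ [Cfsg.Lie.chevD4, Cfsg.Lie.chevE6])
    (π : Equiv.Perm (Fin D.rank)) (hπ : D.IsDiagramSymmetry π) (φ : ↥(D.group F) ≃* ↥(D.group F))
    (hφ : ∀ (g : ↥(D.group F)) (i : Fin D.rank) (t : F),
      (((g : GL D.Idx F) : Matrix D.Idx D.Idx F) = D.x F (D.simple i) t →
        ((φ g : GL D.Idx F) : Matrix D.Idx D.Idx F) = D.x F (D.simple (π i)) t) ∧
      (((g : GL D.Idx F) : Matrix D.Idx D.Idx F) = D.x F (D.neg (D.simple i)) t →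
        ((φ g : GL D.Idx F) : Matrix D.Idx D.Idx F) = D.x F (D.neg (D.simple (π i))) t))
    (r : ℕ) (hr : r < D.nroots) :
    ∃ ε : F, (ε = 1 ∨ ε = -1) ∧ ∀ (g : ↥(D.group F)) (t : F),
      ((g : GL D.Idx F) : Matrix D.Idx D.Idx F) = D.x F r t →
        ((φ g : GL D.Idx F) : Matrix D.Idx D.Idx F) = D.x F (D.permRoot π r) (ε * t) := by
  have h0 : ∃ C : Cert D, ∀ i j, C.len (C.sp i) = C.len (C.sp j) := by
    simp only [List.mem_cons, List.not_mem_nil, or_false] at hD
    rcases hD with rfl | rfl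
    · refine ⟨certD4, ?_⟩
      simp only [certD4_len, Cert.sp_val]; decide +kernel
    · refine ⟨certE6, ?_⟩
      simp only [certE6_len, Cert.sp_val]; decide +kernel
  obtain ⟨C, hC⟩ := h0
  obtain ⟨r', h1, -, ε, h2, h3⟩ := (C.sys F).graph_signs (C.sys F) φ.toMonoidHom π (C.A_perm_of_symm hC hπ)
    (fun i => C.map_x_iff.1 fun g t => (hφ g i t).1)
    (fun i => C.map_x_iff.1 fun g t => by rw [← C.neg_simple, ← C.neg_simple]; exact (hφ g i t).2) ⟨r, hr⟩
  refine ⟨ε, by rcases h2 with h | h <;> simp [h], ?_⟩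
  rw [C.permRoot_eq π h1]
  exact C.map_x_iff.2 h3

end Cfsg.Agent.S2161
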