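import Cfsg.Statements.S2298
import Cfsg.Agent.GL2Char.Count

set_option autoImplicit false
open Cfsg

namespace Cfsg.Agent.S2298

open Cfsg.Agent.GL2Char Cfsg.Agent.CharLib

/-- Over a finite field F with q elements, every irreducible complex character of GL₂ has degree 1, q − 1, q or q + 1; and when q ≥ 3 (so that these four numbers are distinct) there are exactly q − 1 irreducible characters of degree 1, exactly q − 1 of degree q, exactly (q − 1)(q − 2)/2 of degree q + 1 and exactly q(q − 1)/2 of degree q − 1. -/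
theorem result {F : Type*} [Field F] [Fintype F] :
    (∀ χ : Matrix.GeneralLinearGroup (Fin 2) F → ℂ, Cfsg.IsIrrCharacter (Matrix.GeneralLinearGroup (Fin 2) F) χ →
      χ 1 = 1 ∨ χ 1 = (Fintype.card F : ℂ) - 1 ∨ χ 1 = (Fintype.card F : ℂ) ∨ χ 1 = (Fintype.card F : ℂ) + 1) ∧
    (3 ≤ Fintype.card F →
      Nat.card {χ : Cfsg.IrrCharacter (Matrix.GeneralLinearGroup (Fin 2) F) // (χ : Matrix.GeneralLinearGroup (Fin 2) F → ℂ) 1 = 1} = Fintype.card F - 1 ∧
      Nat.card {χ : Cfsg.IrrCharacter (Matrix.GeneralLinearGroup (Fin 2) F) // (χ : Matrix.GeneralLinearGroup (Fin 2) F → ℂ) 1 = (Fintype.card F : ℂ)} = Fintype.card F - 1 ∧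
      Nat.card {χ : Cfsg.IrrCharacter (Matrix.GeneralLinearGroup (Fin 2) F) // (χ : Matrix.GeneralLinearGroup (Fin 2) F → ℂ) 1 = (Fintype.card F : ℂ) + 1} = (Fintype.card F - 1) * (Fintype.card F - 2) / 2 ∧
      Nat.card {χ : Cfsg.IrrCharacter (Matrix.GeneralLinearGroup (Fin 2) F) // (χ : Matrix.GeneralLinearGroup (Fin 2) F → ℂ) 1 = (Fintype.card F : ℂ) - 1} = Fintype.card F * (Fintype.card F - 1) / 2) := by
  classical
  obtain ⟨K, _, _, _, _, _⟩ := exists_quad F
  refine ⟨fun χ hχ => ?_, fun hq => ⟨?_, ?_, ?_, ?_⟩⟩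
  · rcases (isIrr_GL2_iff K χ).mp hχ with ⟨α, rfl⟩ | ⟨α, rfl⟩ | ⟨α, β, -, rfl⟩ | ⟨θ, -, rfl⟩
    · exact Or.inl (lin_one α)
    · exact Or.inr (Or.inr (Or.inl (st_one α)))
    · exact Or.inr (Or.inr (Or.inr (ps_one α β)))
    · exact Or.inr (Or.inl (cusp_one θ))
  · rw [card_irr_eq_card_range (lin (F := F)) (fun χ => χ 1 = 1),
      Nat.card_range_of_injective lin_injective, card_mulChar]
    intro χ
    exact ⟨fun h => eq_lin_of_degree (by omega) h.1 h.2,
      by rintro ⟨α, rfl⟩; exact ⟨isIrr_lin α, lin_one α⟩⟩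
  · rw [card_irr_eq_card_range (st (F := F)) (fun χ => χ 1 = (Fintype.card F : ℂ)),
      Nat.card_range_of_injective st_injective, card_mulChar]
    intro χ
    exact ⟨fun h => eq_st_of_degree h.1 h.2,
      by rintro ⟨α, rfl⟩; exact ⟨isIrr_st α, st_one α⟩⟩
  · rw [card_irr_eq_card_range
      (fun p : {p : MulChar F ℂ × MulChar F ℂ // p.1 ≠ p.2} => ps p.1.1 p.1.2)
      (fun χ => χ 1 = (Fintype.card F : ℂ) + 1)]
    · have h1 := card_range_two_to_one
        (fun p : {p : MulChar F ℂ × MulChar F ℂ // p.1 ≠ p.2} => ps p.1.1 p.1.2)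
        (fun p => ⟨(p.1.2, p.1.1), p.2.symm⟩)
        (fun p h => p.2 (congrArg (fun x => x.1.2) h))
        (fun p p' => by
          rw [ps_eq_iff]
          simp only [Subtype.ext_iff, Prod.ext_iff])
      rw [card_offDiag, card_mulChar] at h1
      rw [show Fintype.card F - 2 = Fintype.card F - 1 - 1 by omega]
      omega
    · intro χ
      constructor
      · intro h
        obtain ⟨α, β, h1, h2⟩ := eq_ps_of_degree h.1 h.2
        exact ⟨⟨(α, β), h1⟩, h2⟩
      · rintro ⟨p, rfl⟩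
        exact ⟨isIrr_ps p.2, ps_one _ _⟩
  · rw [card_irr_eq_card_range
      (fun θ : {θ : MulChar K ℂ // ¬ θ ^ Fintype.card F = θ} => cusp F θ.1)
      (fun χ => χ 1 = (Fintype.card F : ℂ) - 1)]
    · have h1 := card_range_two_to_one
        (fun θ : {θ : MulChar K ℂ // ¬ θ ^ Fintype.card F = θ} => cusp F θ.1)
        (fun θ => ⟨θ.1 ^ Fintype.card F, by rw [pow_q_pow_q]; exact fun h => θ.2 h.symm⟩)
        (fun θ h => θ.2 (congrArg Subtype.val h))
        (fun θ θ' => by
          rw [cusp_eq_iff]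
          simp only [Subtype.ext_iff])
      rw [card_subtype_not, card_mulChar, card_pow_q_eq.1, card_K (F := F) (K := K)] at h1
      have h2 : Fintype.card F ^ 2 - 1 - (Fintype.card F - 1) =
          Fintype.card F * (Fintype.card F - 1) := by
        rw [Nat.mul_sub_one, sq]
        have : Fintype.card F ≤ Fintype.card F * Fintype.card F := Nat.le_mul_self _
        omega
      omega
    · intro χ
      constructor
      · intro h
        rcases eq_cusp_of_degree K h.1 h.2 with h1 | ⟨θ, h1, h2⟩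
        · omega
        · exact ⟨⟨θ, h1⟩, h2⟩
      · rintro ⟨θ, rfl⟩
        exact ⟨isIrr_cusp θ.2, cusp_one _⟩

end Cfsg.Agent.S2298
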