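import Cfsg.Statements.S2300
import Cfsg.Agent.GL2Char.SLCount

set_option autoImplicit false
open Cfsg

namespace Cfsg.Agent.S2300

open Cfsg.Agent.CharLib Cfsg.Agent.GL2Char

/-- Over a finite field F with q elements, q even, every irreducible complex character of SL₂ has degree 1, q − 1, q or q + 1; and when q ≥ 4 (so that these four numbers are distinct) there are exactly one irreducible character of degree 1, one of degree q, (q − 2)/2 of degree q + 1 and q/2 of degree q − 1. -/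
theorem result {F : Type*} [Field F] [Fintype F] [CharP F 2] :
    (∀ χ : Matrix.SpecialLinearGroup (Fin 2) F → ℂ, Cfsg.IsIrrCharacter (Matrix.SpecialLinearGroup (Fin 2) F) χ →
      χ 1 = 1 ∨ χ 1 = (Fintype.card F : ℂ) - 1 ∨ χ 1 = (Fintype.card F : ℂ) ∨ χ 1 = (Fintype.card F : ℂ) + 1) ∧
    (4 ≤ Fintype.card F →
      Nat.card {χ : Cfsg.IrrCharacter (Matrix.SpecialLinearGroup (Fin 2) F) // (χ : Matrix.SpecialLinearGroup (Fin 2) F → ℂ) 1 = 1} = 1 ∧
      Nat.card {χ : Cfsg.IrrCharacter (Matrix.SpecialLinearGroup (Fin 2) F) // (χ : Matrix.SpecialLinearGroup (Fin 2) F → ℂ) 1 = (Fintype.card F : ℂ)} = 1 ∧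
      Nat.card {χ : Cfsg.IrrCharacter (Matrix.SpecialLinearGroup (Fin 2) F) // (χ : Matrix.SpecialLinearGroup (Fin 2) F → ℂ) 1 = (Fintype.card F : ℂ) + 1} = (Fintype.card F - 2) / 2 ∧
      Nat.card {χ : Cfsg.IrrCharacter (Matrix.SpecialLinearGroup (Fin 2) F) // (χ : Matrix.SpecialLinearGroup (Fin 2) F → ℂ) 1 = (Fintype.card F : ℂ) - 1} = Fintype.card F / 2) := by
  classical
  have h2 : (2 : F) = 0 := CharTwo.two_eq_zero
  have hev : Fintype.card F % 2 = 0 := FiniteField.even_card_of_char_two (ringChar.eq F 2)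
  refine ⟨fun χ hχ => ?_, fun hq => ⟨card_sl_degree_one hq, card_sl_degree_q, ?_, ?_⟩⟩
  · obtain ⟨K, _, _, _, _, _⟩ := exists_quad F
    rcases isIrr_SL2_cases K hχ with rfl | rfl | ⟨α, -, rfl⟩ | ⟨θ, -, rfl⟩ | ⟨α, -, -, χ', h1⟩ |
      ⟨θ, -, -, χ', h1⟩
    · simp
    · simp [stSL_apply_one]
    · simp [psSL_apply_one]
    · simp [cuspSL_apply_one]
    · exact absurd h2 h1.two_ne_zero
    · exact absurd h2 h1.two_ne_zero
  · have h := card_sl_degree_q_add_one (F := F)
    rw [(Nat.coprime_two_right.mpr (Nat.odd_iff.mpr (by omega)) :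
      (Fintype.card F - 1).gcd 2 = 1)] at h
    exact Nat.eq_div_of_mul_eq_right two_ne_zero (h.trans (by omega))
  · have h := card_sl_degree_q_sub_one (F := F) hq
    rw [(Nat.coprime_two_right.mpr (Nat.odd_iff.mpr (by omega)) :
      (Fintype.card F + 1).gcd 2 = 1)] at h
    exact Nat.eq_div_of_mul_eq_right two_ne_zero (h.trans (by omega))

end Cfsg.Agent.S2300
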