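import Cfsg.Statements.S2301
import Cfsg.Agent.SL2.Elem

set_option autoImplicit false
open Cfsg

namespace Cfsg.Agent.S2301

open Cfsg.Agent.SL2

/-- Over a finite field with q elements of odd characteristic p, the elements of order p of SL₂ (the non-identity unipotent elements) fall into exactly two conjugacy classes, each of size (q² − 1)/2; two upper unitriangular matrices with non-zero off-diagonal entries b and b′ are conjugate exactly when bb′ is a square. -/
theorem result {F : Type*} [Field F] [Fintype F] (p : ℕ) [Fact p.Prime] [CharP F p] (hp : p ≠ 2) :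
    Nat.card {C : ConjClasses (Matrix.SpecialLinearGroup (Fin 2) F) // ∃ g : Matrix.SpecialLinearGroup (Fin 2) F, orderOf g = p ∧ ConjClasses.mk g = C} = 2 ∧
    (∀ g : Matrix.SpecialLinearGroup (Fin 2) F, orderOf g = p → Nat.card (ConjClasses.mk g).carrier = (Fintype.card F ^ 2 - 1) / 2) ∧
    ∀ g h : Matrix.SpecialLinearGroup (Fin 2) F, (g : Matrix (Fin 2) (Fin 2) F) 0 0 = 1 → (g : Matrix (Fin 2) (Fin 2) F) 1 1 = 1 → (g : Matrix (Fin 2) (Fin 2) F) 1 0 = 0 → (g : Matrix (Fin 2) (Fin 2) F) 0 1 ≠ 0 →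
      (h : Matrix (Fin 2) (Fin 2) F) 0 0 = 1 → (h : Matrix (Fin 2) (Fin 2) F) 1 1 = 1 → (h : Matrix (Fin 2) (Fin 2) F) 1 0 = 0 → (h : Matrix (Fin 2) (Fin 2) F) 0 1 ≠ 0 →
      (IsConj g h ↔ IsSquare ((g : Matrix (Fin 2) (Fin 2) F) 0 1 * (h : Matrix (Fin 2) (Fin 2) F) 0 1)) := by
  have h2 : (2 : F) ≠ 0 := two_ne_zero_of_char p hp
  refine ⟨?_, ?_, ?_⟩
  · obtain ⟨ν, hν⟩ := exists_nonsquare h2
    have hν0 : ν ≠ 0 := by rintro rfl; exact hν IsSquare.zero
    have ho : ∀ b : F, b ≠ 0 → orderOf (upT b) = p := fun b hb =>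
      (sl_orderOf_eq_char_iff p).2 ⟨trace_upT b, fun e => hb (upT_injective (e.trans upT_zero.symm))⟩
    have : {C : ConjClasses (SLT F) | ∃ g : SLT F, orderOf g = p ∧ ConjClasses.mk g = C} =
        {ConjClasses.mk (upT 1), ConjClasses.mk (upT ν)} := by
      ext C
      simp only [Set.mem_setOf_eq, Set.mem_insert_iff, Set.mem_singleton_iff]
      constructor
      · rintro ⟨g, hg, rfl⟩
        obtain ⟨a1, a2⟩ := (sl_orderOf_eq_char_iff p).1 hg
        obtain ⟨b, hb, e⟩ := isConj_upT a1 (not_isScal_of_trace_two a1 a2)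
        by_cases hs : IsSquare b
        · left
          exact ConjClasses.mk_eq_mk_iff_isConj.2
            (e.trans ((upT_isConj_iff hb one_ne_zero).2 (by simpa using hs)))
        · right
          exact ConjClasses.mk_eq_mk_iff_isConj.2
            (e.trans ((upT_isConj_iff hb hν0).2 (isSquare_mul_of_not hs hν)))
      · rintro (rfl | rfl)
        · exact ⟨_, ho 1 one_ne_zero, rfl⟩
        · exact ⟨_, ho ν hν0, rfl⟩
    change Nat.card {C : ConjClasses (SLT F) | ∃ g : SLT F, orderOf g = p ∧ ConjClasses.mk g = C} = 2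
    rw [this, Nat.card_coe_set_eq, Set.ncard_pair]
    intro e
    have := (upT_isConj_iff one_ne_zero hν0).1 (ConjClasses.mk_eq_mk_iff_isConj.1 e)
    exact hν (by simpa using this)
  · intro g hg
    obtain ⟨a1, a2⟩ := (sl_orderOf_eq_char_iff p).1 hg
    have a3 := not_isScal_of_trace_two a1 a2
    rw [card_carrier_eq_index]
    have h := Subgroup.card_mul_index (Subgroup.centralizer ({g} : Set (SLT F)))
    rw [card_cent_par_odd h2 a3 (by rw [a1]; norm_num), card_sl, mul_comm 2, mul_assoc] at h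
    have := Nat.eq_of_mul_eq_mul_left Fintype.card_pos h
    omega
  · intro g h a1 a2 a3 a4 b1 b2 b3 b4
    have e1 : g = upT (g.1 0 1) := by
      apply sl_ext; apply m2_ext <;> simp [upT_val, a1, a2, a3]
    have e2 : h = upT (h.1 0 1) := by
      apply sl_ext; apply m2_ext <;> simp [upT_val, b1, b2, b3]
    rw [← upT_isConj_iff a4 b4, ← e1, ← e2]

end Cfsg.Agent.S2301
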