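import Cfsg.Statements.S2302
import Cfsg.Agent.SL2.Elem

set_option autoImplicit false
open Cfsg

namespace Cfsg.Agent.S2302

open Cfsg.Agent.SL2

/-- Over a finite field with q elements of characteristic 2, the involutions of SL₂ (the non-identity unipotent elements) form a single conjugacy class, of size q² − 1. -/
theorem result {F : Type*} [Field F] [Fintype F] [CharP F 2] (g h : Matrix.SpecialLinearGroup (Fin 2) F) (hg : orderOf g = 2) (hh : orderOf h = 2) :
    IsConj g h ∧ Nat.card (ConjClasses.mk g).carrier = Fintype.card F ^ 2 - 1 := by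
  have h2 : (2 : F) = 0 := by exact_mod_cast CharP.cast_eq_zero F 2
  obtain ⟨a1, a2⟩ := (sl_orderOf_eq_char_iff 2).1 hg
  obtain ⟨b1, b2⟩ := (sl_orderOf_eq_char_iff 2).1 hh
  have a3 := not_isScal_of_trace_two a1 a2
  refine ⟨sl_isConj_of_trace_two h2 a3 (not_isScal_of_trace_two b1 b2) (a1.trans b1.symm), ?_⟩
  rw [card_carrier_eq_index]
  have h := Subgroup.card_mul_index (Subgroup.centralizer ({g} : Set (SLT F)))
  rw [card_cent_par_even h2 a3 (by rw [a1]; norm_num), card_sl] at h
  exact Nat.eq_of_mul_eq_mul_left Fintype.card_pos h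

end Cfsg.Agent.S2302
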