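import Cfsg.Statements.S2303
import Cfsg.Agent.SL2.Elem

set_option autoImplicit false
open Cfsg

namespace Cfsg.Agent.S2303

open Cfsg.Agent.SL2

/-- Over a finite field with q elements: a diagonal element of GL₂ with two distinct diagonal entries has centralizer of order (q − 1)² (so q(q + 1) conjugates), and an element of GL₂ with no eigenvector in F² has centralizer of order q² − 1 (so q(q − 1) conjugates). -/
theorem result {F : Type*} [Field F] [Fintype F] (g : Matrix.GeneralLinearGroup (Fin 2) F) :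
    ((g : Matrix (Fin 2) (Fin 2) F) 0 1 = 0 → (g : Matrix (Fin 2) (Fin 2) F) 1 0 = 0 → (g : Matrix (Fin 2) (Fin 2) F) 0 0 ≠ (g : Matrix (Fin 2) (Fin 2) F) 1 1 →
      Nat.card (Subgroup.centralizer ({g} : Set (Matrix.GeneralLinearGroup (Fin 2) F))) = (Fintype.card F - 1) ^ 2) ∧
    ((∀ (c : F) (v : Fin 2 → F), v ≠ 0 → (g : Matrix (Fin 2) (Fin 2) F).mulVec v ≠ c • v) →
      Nat.card (Subgroup.centralizer ({g} : Set (Matrix.GeneralLinearGroup (Fin 2) F))) = Fintype.card F ^ 2 - 1) := by
  constructor
  · intro h1 h2 h3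
    have hs : Spl g.1.trace g.1.det :=
      ⟨_, _, h3, by rw [Matrix.trace_fin_two], by rw [Matrix.det_fin_two, h1]; ring⟩
    rw [card_cent_gl (not_isScal_of_disc hs.disc), card_norm_ne_zero_spl hs]
  · intro h
    have hs : Ell g.1.trace g.1.det := ell_iff_no_eigenvector.2 h
    rw [card_cent_gl (not_isScal_of_disc hs.disc), card_norm_ne_zero_ell hs]

end Cfsg.Agent.S2303
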