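import Cfsg.Statements.S2308
import Cfsg.Agent.SL2.Elem

set_option autoImplicit false
open Cfsg

namespace Cfsg.Agent.S2308

open Cfsg.Agent.SL2

theorem mem_B {F : Type*} [Field F] (g : GLT F) :
    g ∈ Cfsg.upperTriangularGL 2 F ↔ g.1 1 0 = 0 := by
  change g.1.BlockTriangular id ↔ _
  constructor
  · intro h; exact h (by decide : id (0 : Fin 2) < id 1)
  · intro h i j hij
    fin_cases i <;> fin_cases j <;> simp_all

theorem inv_mul_mem_B {F : Type*} [Field F] (x y : GLT F) :
    x⁻¹ * y ∈ Cfsg.upperTriangularGL 2 F ↔ x.1 0 0 * y.1 1 0 - x.1 1 0 * y.1 0 0 = 0 := by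
  rw [mem_B]
  have e : y.1 = x.1 * (x⁻¹ * y).1 := by rw [← Units.val_mul, mul_inv_cancel_left]
  have hd := x.det_ne_zero
  rw [Matrix.det_fin_two] at hd
  have e0 := congrArg (fun m : M2 F => m 0 0) e
  have e1 := congrArg (fun m : M2 F => m 1 0) e
  simp only [mul_ap] at e0 e1
  constructor
  · intro h
    rw [h] at e0 e1
    rw [e0, e1]; ring
  · intro h
    apply mul_left_cancel₀ hd
    linear_combination h - x.1 0 0 * e1 + x.1 1 0 * e0

/-- Coset representatives. -/
noncomputable def rep {F : Type*} [Field F] : Option F → GLT F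
  | none => mkGL !![0, -1; 1, 0] (by simp [Matrix.det_fin_two])
  | some c => mkGL !![1, 0; c, 1] (by simp [Matrix.det_fin_two])

theorem rep_none {F : Type*} [Field F] : (rep none : GLT F).1 = !![0, -1; 1, 0] := rfl
theorem rep_some {F : Type*} [Field F] (c : F) : (rep (some c) : GLT F).1 = !![1, 0; c, 1] := rfl

theorem card_fixed {F : Type*} [Field F] (g : GLT F) :
    Nat.card (MulAction.fixedBy (GLT F ⧸ Cfsg.upperTriangularGL 2 F) g) =
      Nat.card {o : Option F // Q g.1 ((rep o).1 0 0) ((rep o).1 1 0) = 0} := by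
  have hb : Function.Bijective (fun o : Option F => ((rep o : GLT F) : GLT F ⧸ Cfsg.upperTriangularGL 2 F)) := by
    constructor
    · intro o o' e
      have := (inv_mul_mem_B _ _).1 (QuotientGroup.eq.1 e)
      rcases o with _ | c <;> rcases o' with _ | c' <;> simp [rep_none, rep_some] at this ⊢
      linear_combination -this
    · intro y
      obtain ⟨y, rfl⟩ := QuotientGroup.mk_surjective y
      by_cases h : y.1 0 0 = 0
      · exact ⟨none, QuotientGroup.eq.2 ((inv_mul_mem_B _ _).2 (by simp [rep_none, h]))⟩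
      · exact ⟨some (y.1 1 0 / y.1 0 0), QuotientGroup.eq.2 ((inv_mul_mem_B _ _).2 (by
          simp [rep_some, h]))⟩
  symm
  refine Nat.card_congr ((Equiv.ofBijective _ hb).subtypeEquiv fun o => ?_)
  rw [MulAction.mem_fixedBy, Equiv.ofBijective_apply, MulAction.Quotient.smul_mk, eq_comm,
    eq_comm (a := g • rep o |> QuotientGroup.mk), QuotientGroup.eq, inv_mul_mem_B]
  simp only [smul_eq_mul, Units.val_mul, mul_ap, Q]
  constructor <;> intro h <;> linear_combination -h

/-- Values of the permutation character of GL₂ over a finite field F with q elements on the cosets of its upper triangular subgroup (equivalently, the number of lines of F² that an element maps to themselves): q + 1 at a scalar matrix, 2 at a diagonal matrix with two different diagonal entries, 0 at an element with no eigenvector in F², and 1 at an upper triangular matrix with equal diagonal entries and non-zero upper right entry. -/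
theorem result {F : Type*} [Field F] [Fintype F] (g : Matrix.GeneralLinearGroup (Fin 2) F) :
    ((∃ a : F, (g : Matrix (Fin 2) (Fin 2) F) = a • (1 : Matrix (Fin 2) (Fin 2) F)) → Cfsg.fixedPointCharacter (Cfsg.upperTriangularGL 2 F) g = Fintype.card F + 1) ∧
    ((g : Matrix (Fin 2) (Fin 2) F) 0 1 = 0 → (g : Matrix (Fin 2) (Fin 2) F) 1 0 = 0 → (g : Matrix (Fin 2) (Fin 2) F) 0 0 ≠ (g : Matrix (Fin 2) (Fin 2) F) 1 1 →
      Cfsg.fixedPointCharacter (Cfsg.upperTriangularGL 2 F) g = 2) ∧
    ((∀ (c : F) (v : Fin 2 → F), v ≠ 0 → (g : Matrix (Fin 2) (Fin 2) F).mulVec v ≠ c • v) → Cfsg.fixedPointCharacter (Cfsg.upperTriangularGL 2 F) g = 0) ∧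
    ((g : Matrix (Fin 2) (Fin 2) F) 1 0 = 0 → (g : Matrix (Fin 2) (Fin 2) F) 0 0 = (g : Matrix (Fin 2) (Fin 2) F) 1 1 → (g : Matrix (Fin 2) (Fin 2) F) 0 1 ≠ 0 →
      Cfsg.fixedPointCharacter (Cfsg.upperTriangularGL 2 F) g = 1) := by
  unfold Cfsg.fixedPointCharacter
  rw [card_fixed]
  refine ⟨fun h => ?_, fun h1 h2 h3 => ?_, fun h => ?_, fun h1 h2 h3 => ?_⟩
  · have := isScal_iff.2 h
    simp [Q_of_isScal this]
  · have : {o : Option F | Q g.1 ((rep o).1 0 0) ((rep o).1 1 0) = 0} = {none, some 0} := by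
      ext o
      rcases o with _ | c <;> simp [rep_none, rep_some, Q, h1, h2, sub_eq_zero, h3.symm]
    change ((Nat.card {o : Option F | Q g.1 ((rep o).1 0 0) ((rep o).1 1 0) = 0} : ℕ) : ℂ) = 2
    rw [this, Nat.card_coe_set_eq, Set.ncard_pair (by simp)]
    rfl
  · have : {o : Option F | Q g.1 ((rep o).1 0 0) ((rep o).1 1 0) = 0} = ∅ := by
      ext o
      rcases o with _ | c <;> simp [rep_none, rep_some, Q]
      · intro e
        apply h (g.1 1 1) ![0, 1] (by simp)
        ext i; fin_cases i <;> simp [Matrix.mulVec, dotProduct, Fin.sum_univ_two, e]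
      · intro e
        apply h (g.1 0 0 + g.1 0 1 * c) ![1, c] (by simp)
        ext i; fin_cases i <;> simp [Matrix.mulVec, dotProduct, Fin.sum_univ_two]
        linear_combination e
    change ((Nat.card {o : Option F | Q g.1 ((rep o).1 0 0) ((rep o).1 1 0) = 0} : ℕ) : ℂ) = 0
    rw [this]
    simp
  · have : {o : Option F | Q g.1 ((rep o).1 0 0) ((rep o).1 1 0) = 0} = {some 0} := by
      ext o
      rcases o with _ | c <;> simp [rep_none, rep_some, Q, h1, h2, h3]
    change ((Nat.card {o : Option F | Q g.1 ((rep o).1 0 0) ((rep o).1 1 0) = 0} : ℕ) : ℂ) = 1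
    rw [this]
    simp

end Cfsg.Agent.S2308
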