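import Cfsg.Statements.S2309
import Cfsg.Agent.GL2Char.Count

set_option autoImplicit false
open Cfsg

namespace Cfsg.Agent.S2309

open Cfsg.Agent.GL2Char Cfsg.Agent.CharLib

/-- Over a finite field F with q elements: every irreducible complex character of GL₂ of degree q − 1 vanishes at every diagonal matrix with two distinct entries, and every irreducible complex character of degree q + 1 vanishes at every element with no eigenvector in F². -/
theorem result {F : Type*} [Field F] [Fintype F] (χ : Matrix.GeneralLinearGroup (Fin 2) F → ℂ) (hχ : Cfsg.IsIrrCharacter (Matrix.GeneralLinearGroup (Fin 2) F) χ) (g : Matrix.GeneralLinearGroup (Fin 2) F) :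
    (χ 1 = (Fintype.card F : ℂ) - 1 → (g : Matrix (Fin 2) (Fin 2) F) 0 1 = 0 → (g : Matrix (Fin 2) (Fin 2) F) 1 0 = 0 → (g : Matrix (Fin 2) (Fin 2) F) 0 0 ≠ (g : Matrix (Fin 2) (Fin 2) F) 1 1 → χ g = 0) ∧
    (χ 1 = (Fintype.card F : ℂ) + 1 → (∀ (c : F) (v : Fin 2 → F), v ≠ 0 → (g : Matrix (Fin 2) (Fin 2) F).mulVec v ≠ c • v) → χ g = 0) := by
  classical
  obtain ⟨K, _, _, _, _, _⟩ := exists_quad F
  constructor
  · intro h h01 h10 hne
    obtain ⟨ht, hd⟩ := diag_trace_det h10
    rcases eq_cusp_of_degree K hχ h with ⟨h1, -⟩ | ⟨θ, -, rfl⟩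
    · exfalso
      have h2 := g.det_ne_zero
      rw [hd] at h2
      have h3 := FiniteField.pow_card_sub_one_eq_one _ (left_ne_zero_of_mul h2)
      have h4 := FiniteField.pow_card_sub_one_eq_one _ (right_ne_zero_of_mul h2)
      rw [h1] at h3 h4
      simp only [Nat.add_one_sub_one, pow_one] at h3 h4
      exact hne (h3.trans h4.symm)
    · exact (vals_cusp θ).dg g _ _ hne ht hd
  · intro h hno
    obtain ⟨α, β, -, rfl⟩ := eq_ps_of_degree hχ h
    obtain ⟨z, hz, ht, hd⟩ := exists_ell_of_no_eigen K hno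
    exact (vals_ps K α β).el g z hz ht hd

end Cfsg.Agent.S2309
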