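import Cfsg.Statements.S2310
import Cfsg.Agent.GL2Char.Count

set_option autoImplicit false
open Cfsg

namespace Cfsg.Agent.S2310

open Cfsg.Agent.GL2Char Cfsg.Agent.CharLib

/-- Over a finite field F with q ≥ 3 elements, let u be the upper unitriangular matrix of GL₂ with off-diagonal entry 1. An irreducible complex character χ of GL₂ takes at u the value 1 if χ has degree 1 or q + 1, the value −1 if χ has degree q − 1, and the value 0 if χ has degree q. -/
theorem result {F : Type*} [Field F] [Fintype F] (hq : 3 ≤ Fintype.card F) (χ : Matrix.GeneralLinearGroup (Fin 2) F → ℂ) (hχ : Cfsg.IsIrrCharacter (Matrix.GeneralLinearGroup (Fin 2) F) χ)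
    (u : Matrix.GeneralLinearGroup (Fin 2) F) (hu : (u : Matrix (Fin 2) (Fin 2) F) = !![1, 1; 0, 1]) :
    (χ 1 = 1 → χ u = 1) ∧ (χ 1 = (Fintype.card F : ℂ) + 1 → χ u = 1) ∧
    (χ 1 = (Fintype.card F : ℂ) - 1 → χ u = -1) ∧ (χ 1 = (Fintype.card F : ℂ) → χ u = 0) := by
  classical
  obtain ⟨K, _, _, _, _, _⟩ := exists_quad F
  have h1 : ¬ IsSc (u : Mat F) := by simp [hu, IsSc]
  have h2 : (u : Mat F).trace = 1 + 1 := by simp [hu, Matrix.trace_fin_two]
  have h3 : (u : Mat F).det = 1 * 1 := by simp [hu, Matrix.det_fin_two]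
  refine ⟨fun h => ?_, fun h => ?_, fun h => ?_, fun h => ?_⟩
  · obtain ⟨α, rfl⟩ := eq_lin_of_degree (by omega) hχ h
    simpa using (vals_lin K α).un u 1 h1 h2 h3
  · obtain ⟨α, β, -, rfl⟩ := eq_ps_of_degree hχ h
    simpa using (vals_ps K α β).un u 1 h1 h2 h3
  · rcases eq_cusp_of_degree K hχ h with h4 | ⟨θ, -, rfl⟩
    · omega
    · simpa using (vals_cusp θ).un u 1 h1 h2 h3
  · obtain ⟨α, rfl⟩ := eq_st_of_degree hχ h
    exact (vals_st K α).un u 1 h1 h2 h3

end Cfsg.Agent.S2310
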