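import Cfsg.Statements.S2315
import Cfsg.Agent.GLn.NilCount

set_option autoImplicit false
open Cfsg

namespace Cfsg.Agent.S2315

open Cfsg.Agent.GLn

/-- Steinberg's count of unipotent elements for the general linear group: over a finite field with q elements of characteristic p, the number of elements of GL_n of p-power order (the unipotent matrices) is q^(n(n−1)). -/
theorem result {F : Type*} [Field F] [Fintype F] (p : ℕ) [Fact p.Prime] [CharP F p] (n : ℕ) :
    Nat.card {g : Matrix.GeneralLinearGroup (Fin n) F // ∃ k : ℕ, orderOf g = p ^ k} = Fintype.card F ^ (n * (n - 1)) := by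
  rw [← Nat.card_eq_fintype_card (α := F), ← card_nilpotent]
  refine Nat.card_congr (Equiv.ofBijective (fun g => ⟨g.1.val - 1, ?_⟩) ⟨?_, ?_⟩)
  · obtain ⟨k, hk⟩ := g.2
    refine ⟨p ^ k, (pow_char_pow_eq_one_iff p _ k).mp ?_⟩
    rw [← hk, ← Units.val_pow_eq_pow_val, pow_orderOf_eq_one, Units.val_one]
  · intro g h e
    exact Subtype.ext (Units.ext (sub_left_injective (congrArg Subtype.val e)))
  · rintro ⟨N, hN⟩
    have hd : (1 + N).det ≠ 0 := by rw [det_one_add_of_isNilpotent hN]; exact one_ne_zero
    refine ⟨⟨Matrix.GeneralLinearGroup.mkOfDetNeZero _ hd, ?_⟩, Subtype.ext (by simp)⟩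
    have := orderOf_dvd_of_unipotent p (A := 1 + N) (by simpa using hN)
    obtain ⟨k, -, hk⟩ := (Nat.dvd_prime_pow Fact.out).mp this
    exact ⟨k, (gl_orderOf_eq _).trans hk⟩

end Cfsg.Agent.S2315
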