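import Cfsg.Statements.S2316
import Cfsg.Agent.GLn.SpUni2

set_option autoImplicit false
open Cfsg

namespace Cfsg.Agent.S2316


/-- Steinberg's count of unipotent elements for the symplectic group: over a finite field with q elements of characteristic p, the number of elements of Sp_{2m} of p-power order is q^(2m²). -/
theorem result {F : Type*} [Field F] [Fintype F] (p : ℕ) [Fact p.Prime] [CharP F p] (m : ℕ) :
    Nat.card {g : ↥(Matrix.symplecticGroup (Fin m) F) // ∃ k : ℕ, orderOf g = p ^ k} = Fintype.card F ^ (2 * m ^ 2) := by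
  rw [← Nat.card_eq_fintype_card (α := F), ← GLn.cN_one, GLn.cN]
  refine Nat.card_congr (((GLn.spRelEquiv m).subtypeEquiv
    (q := fun T => IsNilpotent T.1) fun g => ?_).trans
    ((Equiv.subtypeSubtypeEquivSubtypeInter _ (fun T => IsNilpotent T)).trans
      (Equiv.subtypeEquivRight fun T => by rw [GLn.sff_zero, and_comm])))
  change _ ↔ IsNilpotent (g.1 - 1)
  rw [← orderOf_submonoid]
  constructor
  · rintro ⟨k, hk⟩
    refine ⟨p ^ k, (GLn.pow_char_pow_eq_one_iff p _ k).mp ?_⟩
    rw [← hk, pow_orderOf_eq_one]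
  · intro h
    obtain ⟨k, -, hk⟩ := (Nat.dvd_prime_pow Fact.out).mp (GLn.orderOf_dvd_of_unipotent p h)
    exact ⟨k, hk⟩

end Cfsg.Agent.S2316
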