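import Cfsg.Statements.S2319
import Cfsg.Agent.StB.Tits
import Cfsg.Agent.Chev.ReflG2
import Cfsg.Agent.Chev.ReflB2
import Cfsg.Agent.Chev.ReflD4
import Cfsg.Agent.Chev.ReflF4
import Cfsg.Agent.Chev.ReflE6
import Cfsg.Agent.Chev.ReflE7
import Cfsg.Agent.Chev.ReflE8

set_option autoImplicit false
open Cfsg

namespace Cfsg.Agent.S2319

/-- In a Chevalley group of type G₂, B₂, D₄, F₄, E₆, E₇ or E₈ over a finite field, the number of distinct irreducible constituents of the permutation character on the cosets of B = UH equals the number of conjugacy classes (equivalently, of irreducible characters) of the Weyl group, the Coxeter group of the type with nodes numbered as the fundamental roots. -/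
theorem result {F : Type*} [Field F] [Fintype F]
    (dw : Cfsg.Lie.ChevalleyDatum × (Σ n : ℕ, CoxeterMatrix (Fin n)))
    (hdw : dw ∈ [(Cfsg.Lie.chevG2, ⟨2, CoxeterMatrix.G₂⟩), (Cfsg.Lie.chevB2, ⟨2, CoxeterMatrix.B 2⟩), (Cfsg.Lie.chevD4, ⟨4, Cfsg.Lie.coxeterD4⟩), (Cfsg.Lie.chevF4, ⟨4, CoxeterMatrix.F₄⟩),
      (Cfsg.Lie.chevE6, ⟨6, CoxeterMatrix.E₆⟩), (Cfsg.Lie.chevE7, ⟨7, CoxeterMatrix.E₇⟩), (Cfsg.Lie.chevE8, ⟨8, CoxeterMatrix.E₈⟩)]) :
    Nat.card {χ : Cfsg.IrrCharacter ↥(dw.1.group F) //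
      ∃ φ : ↥(dw.1.group F) → ℂ, Cfsg.IsCharacter ↥(dw.1.group F) φ ∧
        Cfsg.fixedPointCharacter ((dw.1.borelSubgroup F).subgroupOf (dw.1.group F)) = (χ : ↥(dw.1.group F) → ℂ) + φ} =
      Nat.card (ConjClasses dw.2.2.Group) := by
  have key : ∃ C : Chev.Cert dw.1, Nonempty (dw.2.2.Group ≃* C.W) := by
    obtain ⟨C⟩ := Chev.cert_of_mem (D := dw.1) (by
      simp only [List.mem_cons, List.not_mem_nil, or_false] at hdw ⊢
      rcases hdw with rfl | rfl | rfl | rfl | rfl | rfl | rfl <;> simp)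
    refine ⟨C, ?_⟩
    simp only [List.mem_cons, List.not_mem_nil, or_false] at hdw
    rcases hdw with rfl | rfl | rfl | rfl | rfl | rfl | rfl
    · exact ⟨(Chev.coxG2 C).choose⟩
    · exact ⟨(Chev.coxB2 C).choose⟩
    · exact ⟨(Chev.coxD4 C).choose⟩
    · exact ⟨(Chev.coxF4 C).choose⟩
    · exact ⟨(Chev.coxE6 C).choose⟩
    · exact ⟨(Chev.coxE7 C).choose⟩
    · exact ⟨(Chev.coxE8 C).choose⟩
  obtain ⟨C, ⟨e⟩⟩ := key
  have := Fintype.ofFinite ↥(dw.1.group F)
  have : Finite dw.2.2.Group := Finite.of_equiv _ e.symm.toEquiv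
  rw [C.borelSubgroup_of, StB.card_constituents _ (C.sys_φ_inj F),
    ← CharLib.card_irr_eq_card_conjClasses, ← CharLib.card_irr_eq_card_conjClasses,
    Nat.card_congr (CharLib.irrEquiv e)]

end Cfsg.Agent.S2319
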