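import Cfsg.Statements.S2320
import Cfsg.Agent.GL2Char.Count

set_option autoImplicit false
open Cfsg

namespace Cfsg.Agent.S2320

open Cfsg.Agent.GL2Char Cfsg.Agent.CharLib

/-- Over a finite field F with q elements, every irreducible complex character of GL₂ of degree q takes a value of absolute value 1 at every diagonal matrix with two different diagonal entries and at every element with no eigenvector in F². -/
theorem result {F : Type*} [Field F] [Fintype F] (χ : Matrix.GeneralLinearGroup (Fin 2) F → ℂ) (hχ : Cfsg.IsIrrCharacter (Matrix.GeneralLinearGroup (Fin 2) F) χ) (hdeg : χ 1 = (Fintype.card F : ℂ)) (g : Matrix.GeneralLinearGroup (Fin 2) F) :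
    ((g : Matrix (Fin 2) (Fin 2) F) 0 1 = 0 → (g : Matrix (Fin 2) (Fin 2) F) 1 0 = 0 → (g : Matrix (Fin 2) (Fin 2) F) 0 0 ≠ (g : Matrix (Fin 2) (Fin 2) F) 1 1 → ‖χ g‖ = 1) ∧
    ((∀ (c : F) (v : Fin 2 → F), v ≠ 0 → (g : Matrix (Fin 2) (Fin 2) F).mulVec v ≠ c • v) → ‖χ g‖ = 1) := by
  classical
  obtain ⟨K, _, _, _, _, _⟩ := exists_quad F
  obtain ⟨α, rfl⟩ := eq_st_of_degree hχ hdeg
  have hn : ‖α (g : Mat F).det‖ = 1 :=
    norm_eq_one_of_mul (lin_one α) (isChar_mul_of_degree_one (isChar_of_irr (isIrr_lin α))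
      (lin_one α)) g
  constructor
  · intro h01 h10 hne
    obtain ⟨ht, hd⟩ := diag_trace_det h10
    rw [(vals_st K α).dg g _ _ hne ht hd, ← hd, hn]
  · intro hno
    obtain ⟨z, hz, ht, hd⟩ := exists_ell_of_no_eigen K hno
    rw [(vals_st K α).el g z hz ht hd, ← hd, norm_neg, hn]

end Cfsg.Agent.S2320
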