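import Cfsg.Statements.S2321
import Cfsg.Agent.GL2Char.SLCount

set_option autoImplicit false
open Cfsg

namespace Cfsg.Agent.S2321

open Cfsg.Agent.CharLib Cfsg.Agent.GL2Char

/-- Over a finite field F with q elements, an irreducible complex character of SL₂ of degree q (the Steinberg character) takes the value 1 at every diagonal matrix whose diagonal entry a has a² ≠ 1, the value −1 at every element with no eigenvector in F², and the value 0 at every upper triangular matrix with equal diagonal entries and non-zero upper right entry. -/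
theorem result {F : Type*} [Field F] [Fintype F] (χ : Matrix.SpecialLinearGroup (Fin 2) F → ℂ) (hχ : Cfsg.IsIrrCharacter (Matrix.SpecialLinearGroup (Fin 2) F) χ) (hdeg : χ 1 = (Fintype.card F : ℂ)) (g : Matrix.SpecialLinearGroup (Fin 2) F) :
    ((g : Matrix (Fin 2) (Fin 2) F) 0 1 = 0 → (g : Matrix (Fin 2) (Fin 2) F) 1 0 = 0 → (g : Matrix (Fin 2) (Fin 2) F) 0 0 ^ 2 ≠ 1 → χ g = 1) ∧
    ((∀ (c : F) (v : Fin 2 → F), v ≠ 0 → (g : Matrix (Fin 2) (Fin 2) F).mulVec v ≠ c • v) → χ g = -1) ∧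
    ((g : Matrix (Fin 2) (Fin 2) F) 1 0 = 0 → (g : Matrix (Fin 2) (Fin 2) F) 0 0 = (g : Matrix (Fin 2) (Fin 2) F) 1 1 → (g : Matrix (Fin 2) (Fin 2) F) 0 1 ≠ 0 → χ g = 0) := by
  classical
  obtain ⟨K, _, _, _, _, _⟩ := exists_quad F
  obtain rfl := sl_degree_q hχ hdeg
  have hV := vals_stSL F K
  refine ⟨fun _ h10 h => ?_, fun h => ?_, fun h10 h1 h01 => ?_⟩
  · exact hV.dg g _ _ (sl_diag h10 h) (diag_trace_det h10).1 (diag_trace_det h10).2
  · obtain ⟨z, hz, ht, hd⟩ := exists_ell_of_no_eigen K h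
    exact hV.el g z hz ht hd
  · refine hV.un g (g.1 0 0) (fun h => h01 h.1) ?_ ?_
    · rw [(diag_trace_det h10).1, ← h1]
    · rw [(diag_trace_det h10).2, ← h1]

end Cfsg.Agent.S2321
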