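import Cfsg.Statements.S2322
import Cfsg.Agent.GL2Char.SLCount

set_option autoImplicit false
open Cfsg

namespace Cfsg.Agent.S2322

open Cfsg.Agent.CharLib Cfsg.Agent.GL2Char

/-- Over a finite field F with q elements, q odd: every irreducible complex character of SL₂ of degree q − 1 or (q − 1)/2 vanishes at every diagonal matrix whose diagonal entry a has a² ≠ 1, and every irreducible complex character of degree q + 1 or (q + 1)/2 vanishes at every element with no eigenvector in F². -/
theorem result {F : Type*} [Field F] [Fintype F] (hodd : Odd (Fintype.card F)) (χ : Matrix.SpecialLinearGroup (Fin 2) F → ℂ) (hχ : Cfsg.IsIrrCharacter (Matrix.SpecialLinearGroup (Fin 2) F) χ) (g : Matrix.SpecialLinearGroup (Fin 2) F) :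
    ((χ 1 = (Fintype.card F : ℂ) - 1 ∨ χ 1 = (((Fintype.card F - 1) / 2 : ℕ) : ℂ)) →
      (g : Matrix (Fin 2) (Fin 2) F) 0 1 = 0 → (g : Matrix (Fin 2) (Fin 2) F) 1 0 = 0 → (g : Matrix (Fin 2) (Fin 2) F) 0 0 ^ 2 ≠ 1 → χ g = 0) ∧
    ((χ 1 = (Fintype.card F : ℂ) + 1 ∨ χ 1 = (((Fintype.card F + 1) / 2 : ℕ) : ℂ)) →
      (∀ (c : F) (v : Fin 2 → F), v ≠ 0 → (g : Matrix (Fin 2) (Fin 2) F).mulVec v ≠ c • v) → χ g = 0) := by
  classical
  obtain ⟨K, _, _, _, _, _⟩ := exists_quad F
  have ha := cast_half_add hodd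
  have hs := cast_half_sub hodd
  refine ⟨fun hd _ h10 h => ?_, fun hd h => ?_⟩
  · have h3 : Fintype.card F ≠ 3 := by
      intro h3
      apply h
      have h0 : g.1 0 0 ≠ 0 := by
        have := (diag_trace_det h10).2
        rw [SL2_det] at this
        exact left_ne_zero_of_mul_eq_one this.symm
      have := FiniteField.pow_card_sub_one_eq_one _ h0
      rwa [h3] at this
    have hV := fun θ : MulChar K ℂ =>
      (vals_cuspSL (F := F) θ).dg g _ _ (sl_diag h10 h) (diag_trace_det h10).1
        (diag_trace_det h10).2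
    rcases hd with hd | hd
    · rcases sl_degree_q_sub_one K hχ hd with ⟨θ, -, rfl⟩ | ⟨h2, -⟩ | ⟨h2, -⟩
      · exact hV θ
      · rw [h2] at hodd; exact absurd hodd (by decide)
      · exact absurd h2 h3
    · rcases sl_degree_half_sub K hχ (by rw [hd, hs]) with ⟨θ, -, -, χ', h1⟩ | ⟨h2, -⟩
      · have := h1.two_mul (h1.semisimple (sl_diag_disc h10 h))
        rw [hV θ] at this
        simpa using this
      · exact absurd h2 h3
  · obtain ⟨z, hz, ht, hdet⟩ := exists_ell_of_no_eigen K h
    have hV := fun α : MulChar F ℂ => (vals_psSL K α).el g z hz ht hdet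
    rcases hd with hd | hd
    · obtain ⟨α, -, rfl⟩ := sl_degree_q_add_one hχ hd
      exact hV α
    · rcases sl_degree_half_add K hχ (by rw [hd, ha]) with ⟨α, -, -, χ', h1⟩ | ⟨h3, θ, h1, rfl⟩
      · have := h1.two_mul (h1.semisimple (ell_disc hz ht hdet))
        rw [hV α] at this
        simpa using this
      · obtain ⟨w, rfl⟩ := exists_mu (hdet.symm.trans (SL2_det _))
        rw [(vals_cuspSL (F := F) θ).el g _ hz ht hdet, cusp_val_mu, cusp_val_three h3 h1 hz,
          neg_zero]

end Cfsg.Agent.S2322
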