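import Cfsg.Statements.S2323
import Cfsg.Agent.GL2Char.SLCount

set_option autoImplicit false
open Cfsg

namespace Cfsg.Agent.S2323

open Cfsg.Agent.CharLib Cfsg.Agent.GL2Char

/-- Over a finite field F with q ≥ 4 elements, let u be the upper unitriangular matrix of SL₂ with off-diagonal entry 1. An irreducible complex character of SL₂ takes at u the value 1 if its degree is q + 1 and the value −1 if its degree is q − 1. -/
theorem result {F : Type*} [Field F] [Fintype F] (hq : 4 ≤ Fintype.card F) (χ : Matrix.SpecialLinearGroup (Fin 2) F → ℂ) (hχ : Cfsg.IsIrrCharacter (Matrix.SpecialLinearGroup (Fin 2) F) χ)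
    (u : Matrix.SpecialLinearGroup (Fin 2) F) (hu : (u : Matrix (Fin 2) (Fin 2) F) = !![1, 1; 0, 1]) :
    (χ 1 = (Fintype.card F : ℂ) + 1 → χ u = 1) ∧ (χ 1 = (Fintype.card F : ℂ) - 1 → χ u = -1) := by
  classical
  obtain ⟨K, _, _, _, _, _⟩ := exists_quad F
  obtain rfl : u = Cfsg.Agent.SL2.upT 1 := Subtype.ext hu
  refine ⟨fun hd => ?_, fun hd => ?_⟩
  · obtain ⟨α, -, rfl⟩ := sl_degree_q_add_one hχ hd
    rw [(vals_psSL K α).upT one_ne_zero, map_one]
  · rcases sl_degree_q_sub_one K hχ hd with ⟨θ, -, rfl⟩ | ⟨h2, -⟩ | ⟨h2, -⟩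
    · rw [(vals_cuspSL θ).upT one_ne_zero, map_one, map_one]
    · omega
    · omega

end Cfsg.Agent.S2323
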