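import Cfsg.Statements.S2324
import Cfsg.Agent.GL2Char.SLCount

set_option autoImplicit false
open Cfsg

namespace Cfsg.Agent.S2324

open Cfsg.Agent.CharLib Cfsg.Agent.GL2Char

/-- Over a finite field F with q elements, q odd and q ≥ 5, let u be the upper unitriangular matrix of SL₂ with off-diagonal entry 1 and let δ = (−1)^((q−1)/2). Every irreducible complex character χ of SL₂ of degree (q + 1)/2 satisfies (2χ(u) − 1)² = δq, and every irreducible complex character χ of degree (q − 1)/2 satisfies (2χ(u) + 1)² = δq; that is, χ(u) = (1 ± √(δq))/2 in the first case and χ(u) = (−1 ± √(δq))/2 in the second. Moreover two different irreducible characters of degree (q + 1)/2 take the two different values (their values at u add up to 1), and likewise for degree (q − 1)/2 (values adding up to −1). -/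
theorem result {F : Type*} [Field F] [Fintype F] (hodd : Odd (Fintype.card F)) (hq : 5 ≤ Fintype.card F)
    (u : Matrix.SpecialLinearGroup (Fin 2) F) (hu : (u : Matrix (Fin 2) (Fin 2) F) = !![1, 1; 0, 1]) :
    (∀ χ : Matrix.SpecialLinearGroup (Fin 2) F → ℂ, Cfsg.IsIrrCharacter (Matrix.SpecialLinearGroup (Fin 2) F) χ → χ 1 = (((Fintype.card F + 1) / 2 : ℕ) : ℂ) → (2 * χ u - 1) ^ 2 = (-1 : ℂ) ^ ((Fintype.card F - 1) / 2) * (Fintype.card F : ℂ)) ∧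
    (∀ χ : Matrix.SpecialLinearGroup (Fin 2) F → ℂ, Cfsg.IsIrrCharacter (Matrix.SpecialLinearGroup (Fin 2) F) χ → χ 1 = (((Fintype.card F - 1) / 2 : ℕ) : ℂ) → (2 * χ u + 1) ^ 2 = (-1 : ℂ) ^ ((Fintype.card F - 1) / 2) * (Fintype.card F : ℂ)) ∧
    (∀ χ₁ χ₂ : Matrix.SpecialLinearGroup (Fin 2) F → ℂ, Cfsg.IsIrrCharacter (Matrix.SpecialLinearGroup (Fin 2) F) χ₁ → Cfsg.IsIrrCharacter (Matrix.SpecialLinearGroup (Fin 2) F) χ₂ → χ₁ ≠ χ₂ →
      χ₁ 1 = (((Fintype.card F + 1) / 2 : ℕ) : ℂ) → χ₂ 1 = (((Fintype.card F + 1) / 2 : ℕ) : ℂ) → χ₁ u + χ₂ u = 1) ∧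
    (∀ χ₁ χ₂ : Matrix.SpecialLinearGroup (Fin 2) F → ℂ, Cfsg.IsIrrCharacter (Matrix.SpecialLinearGroup (Fin 2) F) χ₁ → Cfsg.IsIrrCharacter (Matrix.SpecialLinearGroup (Fin 2) F) χ₂ → χ₁ ≠ χ₂ →
      χ₁ 1 = (((Fintype.card F - 1) / 2 : ℕ) : ℂ) → χ₂ 1 = (((Fintype.card F - 1) / 2 : ℕ) : ℂ) → χ₁ u + χ₂ u = -1) := by
  classical
  obtain ⟨K, _, _, _, _, _⟩ := exists_quad F
  obtain rfl : u = Cfsg.Agent.SL2.upT 1 := Subtype.ext hu
  have ha := cast_half_add hodd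
  have hs := cast_half_sub hodd
  have hp : ∀ {α : MulChar F ℂ} {χ χ'}, HalfPair (psSL α) χ χ' →
      χ (Cfsg.Agent.SL2.upT 1) + χ' (Cfsg.Agent.SL2.upT 1) = 1 := by
    intro α χ χ' h
    rw [← Pi.add_apply χ χ', ← h.eq, (vals_psSL K α).upT one_ne_zero, map_one]
  have hc : ∀ {θ : MulChar K ℂ} {χ χ'}, HalfPair (cuspSL F θ) χ χ' →
      χ (Cfsg.Agent.SL2.upT 1) + χ' (Cfsg.Agent.SL2.upT 1) = -1 := by
    intro θ χ χ' h
    rw [← Pi.add_apply χ χ', ← h.eq, (vals_cuspSL θ).upT one_ne_zero, map_one, map_one]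
  refine ⟨fun χ hχ hd => ?_, fun χ hχ hd => ?_, fun χ₁ χ₂ h1 h2 hne hd1 hd2 => ?_,
    fun χ₁ χ₂ h1 h2 hne hd1 hd2 => ?_⟩
  · rcases sl_degree_half_add K hχ (by rw [hd, ha]) with ⟨α, -, -, χ', h⟩ | ⟨h3, -⟩
    · rw [← h.sq_diff, ← hp h]; ring
    · omega
  · rcases sl_degree_half_sub K hχ (by rw [hd, hs]) with ⟨α, -, -, χ', h⟩ | ⟨h3, -⟩
    · rw [← h.sq_diff, ← neg_neg (1 : ℂ), ← hc h]; ring
    · omega
  · rcases sl_degree_half_add K h1 (by rw [hd1, ha]) with ⟨α, a1, a2, χ', h⟩ | ⟨h3, -⟩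
    · rcases sl_degree_half_add K h2 (by rw [hd2, ha]) with ⟨β, b1, b2, χ'', h'⟩ | ⟨h3, -⟩
      · rw [quad_unique b1 b2 a1 a2] at h'
        rcases h.eq_or_eq h' with rfl | rfl
        · exact absurd rfl hne
        · exact hp h
      · omega
    · omega
  · rcases sl_degree_half_sub K h1 (by rw [hd1, hs]) with ⟨α, a1, a2, χ', h⟩ | ⟨h3, -⟩
    · rcases sl_degree_half_sub K h2 (by rw [hd2, hs]) with ⟨β, b1, b2, χ'', h'⟩ | ⟨h3, -⟩
      · rw [(cuspSL_eq_iff _ _).mpr (Or.inl (cyclic_quad_unique b1 b2 a1 a2))] at h'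
        rcases h.eq_or_eq h' with rfl | rfl
        · exact absurd rfl hne
        · exact hc h
      · omega
    · omega

end Cfsg.Agent.S2324
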