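import Cfsg.Statements.S2329
import Cfsg.Agent.SL2.Elem

set_option autoImplicit false
open Cfsg

namespace Cfsg.Agent.S2329

open Cfsg.Agent.SL2

/-- Over a finite field of characteristic p, any two elements of order p of GL₂ are conjugate: there is a single conjugacy class of non-identity unipotent elements. -/
theorem result {F : Type*} [Field F] [Fintype F] (p : ℕ) [Fact p.Prime] [CharP F p] (g h : Matrix.GeneralLinearGroup (Fin 2) F)
    (hg : orderOf g = p) (hh : orderOf h = p) : IsConj g h := by
  have key : ∀ g : Matrix.GeneralLinearGroup (Fin 2) F, orderOf g = p →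
      g.1.trace = 2 ∧ g.1.det = 1 ∧ ¬ IsScal g.1 := by
    intro g hg
    have h1 : g.1 ^ p ^ 1 = 1 := by
      rw [pow_one, ← Units.val_pow_eq_pow_val, ← hg, pow_orderOf_eq_one]; rfl
    obtain ⟨ht, hd⟩ := trace_det_of_pow_char_pow p h1
    refine ⟨ht, hd, not_isScal_of_trace_two (g := mkSL g.1 hd) ht ?_⟩
    intro e
    have : g = 1 := Units.ext (congrArg Subtype.val e)
    rw [this, orderOf_one] at hg
    exact (Fact.out : p.Prime).one_lt.ne hg
  obtain ⟨a1, a2, a3⟩ := key g hg
  obtain ⟨b1, b2, b3⟩ := key h hh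
  exact gl_isConj_of_trace_det a3 b3 (a1.trans b1.symm) (a2.trans b2.symm)

end Cfsg.Agent.S2329
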