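import Cfsg.Statements.S2330
import Cfsg.Agent.SL2.Elem

set_option autoImplicit false
open Cfsg

namespace Cfsg.Agent.S2330

open Cfsg.Agent.SL2

/-- Over a finite field with q elements, the general linear group GL₂ has exactly q² − 1 conjugacy classes. -/
theorem result {F : Type*} [Field F] [Fintype F] :
    Nat.card (ConjClasses (Matrix.GeneralLinearGroup (Fin 2) F)) = Fintype.card F ^ 2 - 1 := by
  classical
  let f : GLT F → Fˣ ⊕ (F × Fˣ) := fun g =>
    if h : IsScal g.1 then Sum.inl (Units.mk0 (g.1 0 0) (by
      intro e; apply g.det_ne_zero; rw [Matrix.det_fin_two, h.1, e]; ring))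
    else Sum.inr (g.1.trace, Matrix.GeneralLinearGroup.det g)
  have hf : ∀ g h, f g = f h ↔ IsConj g h := by
    intro g h
    by_cases hg : IsScal g.1 <;> by_cases hh : IsScal h.1
    · simp only [f, dif_pos hg, dif_pos hh, Sum.inl.injEq, Units.mk0_inj]
      constructor
      · intro e
        have : g = h := by
          apply Units.ext
          apply m2_ext e (hg.1.trans hh.1.symm) (hg.2.1.trans hh.2.1.symm)
          rw [← hg.2.2, ← hh.2.2, e]
        rw [this]
      · intro e
        obtain ⟨c, rfl⟩ := isConj_iff.1 e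
        have : c * g = g * c := Units.ext (hg.comm c.1)
        rw [this, mul_inv_cancel_right]
    · simp only [f, dif_pos hg, dif_neg hh]
      exact ⟨fun e => by simp at e, fun e => absurd (gl_isScal_of_isConj e hg) hh⟩
    · simp only [f, dif_neg hg, dif_pos hh]
      exact ⟨fun e => by simp at e, fun e => absurd (gl_isScal_of_isConj e.symm hh) hg⟩
    · simp only [f, dif_neg hg, dif_neg hh, Sum.inr.injEq, Prod.mk.injEq]
      constructor
      · rintro ⟨e1, e2⟩
        exact gl_isConj_of_trace_det hg hh e1 (congrArg Units.val e2)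
      · intro e
        exact ⟨gl_trace_of_isConj e, Units.ext (gl_det_of_isConj e)⟩
  have hs : Function.Surjective f := by
    rintro (a | ⟨t, d⟩)
    · refine ⟨mkGL ((a : F) • (1 : M2 F)) (by simp), ?_⟩
      have : IsScal (mkGL ((a : F) • (1 : M2 F)) (by simp)).1 := isScal_iff.2 ⟨a, rfl⟩
      simp only [f, dif_pos this]
      simp
    · refine ⟨mkGL (comp t d) (by simp), ?_⟩
      have : ¬ IsScal (mkGL (comp t (d : F)) (by simp)).1 := comp_not_isScal _ _
      simp only [f, dif_neg this]
      simp [Units.ext_iff]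
  rw [card_conjClasses_eq_of_invariant f hf, hs.range_eq, Nat.card_univ, Nat.card_sum, Nat.card_prod,
    Nat.card_units, Nat.card_eq_fintype_card]
  have hq : 1 < Fintype.card F := Fintype.one_lt_card
  obtain ⟨k, hk⟩ := Nat.exists_eq_add_of_lt hq
  rw [hk]
  have : (1 + k + 1) ^ 2 = (1 + k + 1 - 1) + (1 + k + 1) * (1 + k + 1 - 1) + 1 := by
    simp; ring
  omega

end Cfsg.Agent.S2330
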