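import Cfsg.Statements.S2331
import Cfsg.Agent.SL2.Elem

set_option autoImplicit false
open Cfsg

namespace Cfsg.Agent.S2331

open Cfsg.Agent.SL2

/-- Over a finite field with q elements, q even, the special linear group SL₂ has exactly q + 1 conjugacy classes. -/
theorem result {F : Type*} [Field F] [Fintype F] [CharP F 2] :
    Nat.card (ConjClasses (Matrix.SpecialLinearGroup (Fin 2) F)) = Fintype.card F + 1 := by
  classical
  have h2 : (2 : F) = 0 := by exact_mod_cast CharP.cast_eq_zero F 2
  let f : SLT F → Option F := fun g => if IsScal g.1 then none else some g.1.trace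
  have h1 : ∀ g : SLT F, IsScal g.1 → g = 1 := fun g hg => by
    rcases sl_isScal_iff.1 hg with e | e
    · exact e
    · rw [e, sl_neg_eq_self h2]
  have hf : ∀ g h, f g = f h ↔ IsConj g h := by
    intro g h
    by_cases hg : IsScal g.1 <;> by_cases hh : IsScal h.1
    · simp only [f, if_pos hg, if_pos hh, true_iff]
      rw [h1 g hg, h1 h hh]
    · simp only [f, if_pos hg, if_neg hh]
      exact ⟨fun e => by simp at e, fun e => absurd (sl_isScal_of_isConj e hg) hh⟩
    · simp only [f, if_neg hg, if_pos hh]
      exact ⟨fun e => by simp at e, fun e => absurd (sl_isScal_of_isConj e.symm hh) hg⟩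
    · simp only [f, if_neg hg, if_neg hh, Option.some.injEq]
      exact ⟨sl_isConj_of_trace_two h2 hg hh, sl_trace_of_isConj⟩
  have hs : Function.Surjective f := by
    rintro (_ | t)
    · exact ⟨1, by simp [f, isScal_one]⟩
    · exact ⟨cmp t, by simp only [f, if_neg (cmp_not_isScal t), trace_cmp]⟩
  rw [card_conjClasses_eq_of_invariant f hf, hs.range_eq, Nat.card_univ, Nat.card_eq_fintype_card,
    Fintype.card_option]

end Cfsg.Agent.S2331
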