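import Cfsg.Statements.S2362
import Cfsg.Agent.HForm.OSpec

set_option autoImplicit false
open Cfsg

namespace Cfsg.Agent.S2362

open Cfsg.Agent.HForm Cfsg.Agent.Forms Polynomial

/-- Let F be a finite field of odd order and n ≥ 3. The simple orthogonal group PΩ(2n+1, F) (type B_n) and the projective symplectic group PSp(2n, F) (type C_n), which have the same order, do not have the same set of element orders. -/
theorem result {F : Type*} [Field F] [Fintype F] (hodd : Odd (Fintype.card F)) (n : ℕ) (hn : 3 ≤ n) :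
    Set.range (orderOf : Cfsg.POmega F (Cfsg.quadFormOdd n F) → ℕ) ≠ Set.range (orderOf : Cfsg.PSp n F → ℕ) := by
  classical
  obtain ⟨p, hp⟩ := CharP.exists F
  have : Fact p.Prime := ⟨CharP.char_is_prime F p⟩
  have hp' : p.Prime := Fact.out
  have h2 := two_ne_zero_of_odd hodd
  have h2K : (2 : AlgebraicClosure F) ≠ 0 := by
    rw [← map_ofNat (algebraMap F _) 2]; simpa using h2
  obtain ⟨m, rfl⟩ : ∃ m, n = m + 1 := ⟨n - 1, by omega⟩
  have hq1 : 1 < Fintype.card F := Fintype.one_lt_card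
  have hq3 : 3 ≤ Fintype.card F := by obtain ⟨k, hk⟩ := hodd; omega
  have hTN : TorN (Fintype.card F) m (Fintype.card F ^ m + 1) := Or.inr rfl
  have hpN := hTN.not_dvd p (by omega)
  have hcop : ∀ k, Nat.Coprime (Fintype.card F ^ m + 1) (p ^ k) := fun k =>
    Nat.Coprime.pow_right _ (hp'.coprime_iff_not_dvd.mpr hpN).symm
  intro heq
  have h1 : (Fintype.card F ^ m + 1) * p ∈ Set.range (orderOf : PSp (m + 1) F → ℕ) := by
    obtain ⟨x, hx0, hx, hPM⟩ := exists_torus_elt (F := F) (K := AlgebraicClosure F)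
      (d := m) (by omega) (Or.inr dvd_rfl)
    obtain ⟨δ, h⟩ := formP_sp_torus (F := F) (by omega) x hx0 hPM
    obtain ⟨w, hw⟩ := ((h.sum (formP_sp_jordan p 1 (by simp) 1 1 one_pos
      (by simpa using hp'.two_le) (by simp))).congr (n' := 2 * (m + 1)) (by ring) rfl
      (fun _ _ => Iff.rfl)).toPSp
    refine mem_range_orderOf_of_dvd ⟨w, rfl⟩ ?_
    rcases (hw _).mp dvd_rfl with h | h
    · refine Nat.Coprime.mul_dvd_of_dvd_of_dvd (by simpa using hcop 1) ?_ (by simpa using h.2.2)
      rw [← hx, orderOf_dvd_iff_pow_eq_one, h.1.1, map_one]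
    · exact absurd (by linear_combination h.2.1 - one_pow (M := F) (orderOf w)) h2
  rw [← heq, ← coe_QOdd] at h1
  obtain ⟨x, hx⟩ := h1
  induction x using QuotientGroup.induction_on with | H g =>
  have hB := QOdd_nondegenerate m.succ h2
  have hc := card_odd_index m.succ
  rw [orderOf_mk_omega hB (by omega) (hc ▸ odd_two_mul_add_one _)] at hx
  obtain ⟨hR, hR', h0, hcard⟩ := o_evs (AlgebraicClosure F) hB g.1
  have hprod := omega_evs_prod (AlgebraicClosure F) g
  have hth := omega_thetaOk (AlgebraicClosure F) hodd hB (by omega) g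
  have hpow : ∀ o k, _ → _ → _ → _ → _ → (Fintype.card F ^ m + 1) * p ∣ o := fun o k a b c d e =>
    hx ▸ orderOf_dvd_of_pow_eq_one
      (Subtype.ext (o_pow_eq_one (K := AlgebraicClosure F) h2 hB p g.1 o k a b c d e))
  have hev := evs_pow_eq (AlgebraicClosure F) g.1.1.1 (orderOf g) (1 : F) (by
    rw [one_smul, ← o_pow_eq_one_iff, ← Subgroup.coe_pow, pow_orderOf_eq_one]; rfl)
  obtain ⟨R, hRg⟩ : ∃ R, R = g.1.1.1.charpoly.aroots (AlgebraicClosure F) := ⟨_, rfl⟩
  rw [← hRg] at hR hR' h0 hcard hprod hth hpow hev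
  rw [hc] at hcard
  have hevN : ∀ y ∈ R, y ^ (Fintype.card F ^ m + 1) = 1 := fun y hy => by
    refine pow_eq_one_of_pow_char_pow p (k := 1) ?_
    rw [pow_one, ← pow_mul, ← hx, hev y hy, map_one]
  have hinj : Function.Injective (fun y : AlgebraicClosure F => y ^ Fintype.card F) :=
    frob_injective
  obtain ⟨C, hRC, hC, hC', hCne, hCc, hCe, hbe⟩ := sign_decomp h2K hinj hR hR' h0 hprod
  have hbig : ∀ M, (∀ y ∈ R, y ^ M = 1) → Fintype.card F ^ m + 1 ∣ M := fun M hM => by
    have hk : ∀ z, R.count z ≤ p ^ Nat.clog p R.card := fun z =>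
      (Multiset.count_le_card _ _).trans (Nat.le_pow_clog hp'.one_lt _)
    exact (hcop _).dvd_of_dvd_mul_right ((dvd_mul_right _ _).trans
      (hpow (M * p ^ Nat.clog p R.card) _ (fun y hy => by rw [pow_mul, hM y hy, one_pow])
        (dvd_mul_left _ _) (fun z _ => hk z) hbe ((hk _).trans (Nat.le_succ _))))
  obtain ⟨q, hq⟩ : ∃ q, q = Fintype.card F := ⟨_, rfl⟩
  rw [← hq] at hq1 hq3
  let Φ : ℕ := ((cyclotomic (2 * m) ℤ).eval (q : ℤ)).natAbs
  have hΦ : ∀ e, e ∣ 2 * m → e < 2 * m → (q ^ e - 1) * Φ ∣ q ^ (2 * m) - 1 := by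
    intro e he he'
    have h1 := map_dvd (evalRingHom (q : ℤ))
      (X_pow_sub_one_mul_cyclotomic_dvd_X_pow_sub_one_of_dvd ℤ
        (Nat.mem_properDivisors.mpr ⟨he, he'⟩))
    have h2 := Int.natAbs_dvd_natAbs.mpr h1
    simp only [coe_evalRingHom, eval_mul, eval_sub, eval_pow, eval_X, eval_one, Int.natAbs_mul]
      at h2
    have h3 : ∀ j, ((q : ℤ) ^ j - 1).natAbs = q ^ j - 1 := by
      intro j
      have : 1 ≤ q ^ j := Nat.one_le_pow _ _ (by omega)
      zify [this]
      rw [abs_of_nonneg (by exact_mod_cast (by omega : (0 : ℤ) ≤ ((q ^ j : ℕ) : ℤ) - 1))]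
    rwa [h3, h3] at h2
  have hΦ2 : 2 < Φ := by
    have := sub_one_lt_natAbs_cyclotomic_eval (n := 2 * m) (q := q) (by omega) (by omega)
    omega
  have hsq : q ^ (2 * m) - 1 = (q ^ m - 1) * (q ^ m + 1) := by
    rw [mul_comm 2 m, pow_mul, mul_comm, ← Nat.sq_sub_sq]
  have hqm : 1 < q ^ m := Nat.one_lt_pow (by omega) hq1
  have hΦ1 : Φ ∣ q ^ m + 1 := by
    have := hΦ m (dvd_mul_left _ _) (by omega)
    rwa [hsq, Nat.mul_dvd_mul_iff_left (by omega)] at this
  obtain ⟨T, hT⟩ : Φ ∣ q ^ (2 * m) - 1 := (dvd_mul_left _ _).trans (hΦ 1 (one_dvd _) (by omega))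
  obtain ⟨x, hxR, hxT⟩ : ∃ x ∈ R, x ^ T ≠ 1 := by
    by_contra h
    push Not at h
    obtain ⟨t, ht⟩ := hbig T h
    rw [ht, hsq, ← hq, mul_comm (q ^ m + 1) t, ← mul_assoc] at hT
    have h5 : Φ ∣ q ^ m - 1 := ⟨t, Nat.eq_of_mul_eq_mul_right (by positivity) hT⟩
    have h6 := Nat.dvd_sub hΦ1 h5
    rw [show q ^ m + 1 - (q ^ m - 1) = 2 by omega] at h6
    exact absurd (Nat.le_of_dvd two_pos h6) (by omega)
  have hx0 : x ≠ 0 := fun h => h0 (h ▸ hxR)
  have hper : ∀ e, 0 < e → x ^ q ^ e = x → 2 * m ∣ e := by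
    intro e he h
    have h1 : x ^ q ^ (2 * m) = x := by
      rw [← Nat.sub_add_cancel (Nat.one_le_pow (2 * m) q (by omega)), pow_succ, hsq, mul_comm (_ - 1),
        pow_mul, hq, hevN x hxR, one_pow, one_mul]
    rw [← iterate_pow_eq] at h h1
    have h3 : _ = x := Function.IsPeriodicPt.gcd h h1
    rw [iterate_pow_eq] at h3
    by_contra h4
    have h5 := Nat.gcd_dvd_right e (2 * m)
    have h6 := hΦ _ h5 (lt_of_le_of_ne (Nat.le_of_dvd (by omega) h5)
      fun h => h4 (h ▸ Nat.gcd_dvd_left _ _))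
    rw [hT, mul_comm Φ, Nat.mul_dvd_mul_iff_right (by omega)] at h6
    obtain ⟨t, ht⟩ := h6
    apply hxT
    have : x ^ (q ^ e.gcd (2 * m) - 1) = 1 := by
      apply mul_right_cancel₀ hx0
      rw [← pow_succ, Nat.sub_add_cancel (Nat.one_le_pow _ _ (by omega)), h3, one_mul]
    rw [ht, pow_mul, this, one_pow]
  have hx1 : x ≠ x⁻¹ := by
    intro h
    have := Nat.le_of_dvd one_pos (hper 1 one_pos (by
      rcases eq_one_or_neg_one_of_eq_inv hx0 h with rfl | rfl
      · simp
      · rw [pow_one, hq, hodd.neg_one_pow]))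
    omega
  have hxC : x ∈ C := by rw [← Multiset.count_pos, hCc x hx1, Multiset.count_pos]; exact hxR
  obtain ⟨d, N, C', hd, hN, hxN, hmin, hnd, hle, hCC, -, hCi, hCn⟩ :=
    chunk_split Fintype.card_pos hinj hC hC' hCne hxC
  have hdm : d = m := by
    apply le_antisymm
    · by_contra h
      exact hmin m (by omega) (by omega) (hTN.pm (hevN x hxR))
    · have : 2 * m ∣ 2 * d := hper _ (by omega) (by
        rw [two_mul, pow_add, pow_mul, hq]
        rcases hN.pm hxN with h | h <;> simp [h])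
      have := Nat.le_of_dvd (by omega) this
      omega
  subst hdm
  have hcc := congrArg Multiset.card hRC
  have hcc' := congrArg Multiset.card hCC
  simp only [Multiset.card_add, Multiset.card_replicate, card_chunk] at hcc hcc'
  obtain ⟨u, hu⟩ := hCe
  obtain ⟨v, hv⟩ := hbe
  by_cases ha : R.count 1 ≤ 1
  · have hx1' : C.count x = 1 := by
      have := Multiset.count_pos.mpr hxC
      by_contra h
      have : 2 * (2 * d) ≤ C.count x * (2 * d) := Nat.mul_le_mul_right _ (by omega)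
      omega
    have h3 := hpow _ 0 hevN (by simp) (fun y hy => by
      rw [pow_zero]
      by_cases hy0 : y ∈ R
      swap
      · rw [Multiset.count_eq_zero_of_notMem hy0]; exact Nat.zero_le _
      by_cases hy1 : y = y⁻¹
      · rcases eq_one_or_neg_one_of_eq_inv (fun h => h0 (h ▸ hy0)) hy1 with rfl | rfl
        · exact ha
        · exact absurd rfl hy
      rw [← hCc y hy1]
      by_cases hy2 : y ∈ chunk (Fintype.card F) d x
      · rw [count_chunk hinj hC hC' hy2, hx1']
      rw [hCC, Multiset.count_add, Multiset.count_eq_zero_of_notMem hy2, zero_add]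
      by_cases hy3 : y ∈ C'
      · have h4 := card_core_add_two_count_le hCi hy1 hy3
        have h5 := Multiset.card_pos_iff_exists_mem.mpr ⟨y, mem_core.mpr ⟨hy3, hy1⟩⟩
        omega
      · rw [Multiset.count_eq_zero_of_notMem hy3]; exact Nat.zero_le _) ⟨v, hv⟩
      (by rw [pow_zero]; omega)
    have h4 := Nat.le_of_dvd (by positivity) h3
    have := Nat.mul_le_mul_left (Fintype.card F ^ d + 1) hp'.two_le
    omega
  have hC0 : C' = 0 := Multiset.card_eq_zero.mp (by omega)
  rw [show R.count (-1) = 0 by omega, Multiset.replicate_zero, add_zero, hCC, hC0, add_zero] at hRC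
  have h3 := hth.chunk hodd hd hTN (hevN x hxR) hx0 hx1 hRC
    fun y hy => Multiset.eq_of_mem_replicate hy
  have h4 := hbig _ fun y hy => by
    rw [hRC] at hy
    rcases Multiset.mem_add.mp hy with hy | hy
    · exact (orderOf_of_mem_chunk hinj hy _).mpr h3
    · rw [Multiset.eq_of_mem_replicate hy, one_pow]
  rw [← hq] at h4
  have := Nat.le_of_dvd (by omega) h4
  omega

end Cfsg.Agent.S2362
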