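import Cfsg.Statements.S2364
import Cfsg.Agent.GLn.Card

set_option autoImplicit false
open Cfsg

namespace Cfsg.Agent.S2364

open Cfsg.Agent.GLn Polynomial

/-- Let F be a finite field of characteristic p, n ≥ 4, and let a, b be commuting elements of PSL(n, F) with a of order p. Then every prime divisor of the order of b divides the order of SL(n − 2, F). -/
theorem result {F : Type*} [Field F] [Fintype F] (p : ℕ) [Fact p.Prime] [CharP F p] (n : ℕ) (hn : 4 ≤ n)
    (a b : Matrix.ProjectiveSpecialLinearGroup (Fin n) F) (ha : orderOf a = p) (hab : Commute a b) :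
    (orderOf b).primeFactors ⊆ (Nat.card (Matrix.SpecialLinearGroup (Fin (n - 2)) F)).primeFactors := by
  intro r hr0
  obtain ⟨hr, hrb, -⟩ := Nat.mem_primeFactors.mp hr0
  refine Nat.mem_primeFactors.mpr ⟨hr, ?_, Nat.card_pos.ne'⟩
  by_cases hrp : r = p
  · rw [hrp]; exact (char_dvd_card p).trans (card_dvd_card_SL (by omega))
  induction b using QuotientGroup.induction_on with | H B =>
  obtain ⟨μ, hμ, h2⟩ := exists_sq_dvd_of_commute p (K := AlgebraicClosure F) a ha B hab
  obtain ⟨ν, hν, hrν⟩ := exists_root_dvd_orderOf p (K := AlgebraicClosure F) B hr hrp hrb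
  have hi := isIntegral_of_root hν
  have h3 := orderOf_card_dvd_natDegree hi (root_ne_zero (by simp) hν) hrν
  have h4 := minpoly.natDegree_pos hi
  have h5 := minpoly.natDegree_pos (isIntegral_of_root hμ)
  have h6 : (minpoly F ν).natDegree ≤ n - 2 := by
    have := natDegree_le_of_sq_dvd hμ h2 hν
    rw [Fintype.card_fin] at this
    omega
  by_cases h1 : (minpoly F ν).natDegree = 1
  · refine Dvd.dvd.trans ?_ (pow_sub_one_dvd_card_SL (i := 2) le_rfl (by omega))
    rw [dvd_pow_sub_one_iff _ _ _ Fintype.card_pos]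
    exact h3.trans (h1 ▸ one_dvd _)
  · refine Dvd.dvd.trans ?_ (pow_sub_one_dvd_card_SL (i := (minpoly F ν).natDegree) (by omega) h6)
    rwa [dvd_pow_sub_one_iff _ _ _ Fintype.card_pos]

end Cfsg.Agent.S2364
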