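import Cfsg.Statements.S2365
import Cfsg.Agent.HForm.USpec

set_option autoImplicit false
open Cfsg

namespace Cfsg.Agent.S2365

open Cfsg.Agent.HForm Polynomial

/-- Let q be a power of the prime p, F the field with q² elements, m ≥ 4, and let a, b be commuting elements of PSU(m, q) with a of order p. Then every prime divisor of the order of b divides the order of SU(m − 2, q). -/
theorem result {F : Type*} [Field F] [Fintype F] (p : ℕ) [Fact p.Prime] [CharP F p] (m q : ℕ) (hm : 4 ≤ m) (hF : Fintype.card F = q ^ 2)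
    (a b : Cfsg.PSU m F q) (ha : orderOf a = p) (hab : Commute a b) :
    (orderOf b).primeFactors ⊆ (Nat.card ↥(Cfsg.SU (m - 2) F q)).primeFactors := by
  classical
  have hp : p.Prime := Fact.out
  intro r hr0
  obtain ⟨hr, hrb, -⟩ := Nat.mem_primeFactors.mp hr0
  refine Nat.mem_primeFactors.mpr ⟨hr, ?_, Nat.card_pos.ne'⟩
  obtain ⟨τ, hτ⟩ := exists_tau hF F
  have hττ := tau_tau hF hτ
  have hq := two_le_of_sq hF
  have key : ∀ W : ℕ → F → Prop, FormP τ 1 False (m - 2) 1 W → (∀ k, W k 1 → r ∣ k) →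
      r ∣ Nat.card (SU (m - 2) F q) := by
    intro W h hW
    obtain ⟨g, hg⟩ := h.toSU hF hτ
    refine (hW _ ((hg _ _).mp ?_)).trans (orderOf_dvd_natCard g)
    rw [one_smul, ← Matrix.SpecialLinearGroup.coe_pow, ← Subgroup.coe_pow, pow_orderOf_eq_one]
    rfl
  by_cases hrp : r = p
  · subst hrp
    exact key _ (((formP_u_jordan hττ (exists_tau_ne hF hτ) r 1 (by simp) 2 1 two_pos
      (by simpa using hp.two_le) (by simp)).sum (formP_scalar hττ 1 (by simp) (m - 4))).congr
      (by omega) (by simp) (fun _ _ => Iff.rfl)) (fun k h => by simpa using h.1.2)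
  by_cases hrq : r ∣ q + 1
  · obtain ⟨ω, hω, hω1⟩ := exists_norm_one_order hF hrq
    have hω0 : ω ≠ 0 := by rintro rfl; simp at hω1
    refine key _ ((((formP_scalar hττ ω ((mul_tau_eq_one_iff hτ ω).mpr hω1) 1).sum
      (formP_scalar hττ ω⁻¹ (by rw [mul_tau_eq_one_iff hτ, inv_pow, hω1, inv_one]) 1)).sum
      (formP_scalar hττ 1 (by simp) (m - 4))).congr
      (by omega) (by simp [hω0]) (fun _ _ => Iff.rfl)) (fun k h => ?_)
    rw [← hω, orderOf_dvd_iff_pow_eq_one]
    exact h.1.1.resolve_left one_ne_zero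
  -- an element of order `p * r`
  obtain ⟨c, hc⟩ : ∃ c : PSU m F q, orderOf c = p * r := by
    have hb : orderOf (b ^ (orderOf b / r)) = r := by
      rw [orderOf_pow_of_dvd (Nat.div_pos (Nat.le_of_dvd (orderOf_pos b) hrb) hr.pos).ne'
        (Nat.div_dvd_of_dvd hrb), Nat.div_div_self hrb (orderOf_pos b).ne']
    refine ⟨a * b ^ (orderOf b / r), ?_⟩
    rw [(hab.pow_right _).orderOf_mul_eq_mul_orderOf_of_coprime, ha, hb]
    rw [ha, hb]
    exact (Nat.coprime_primes hp hr).mpr (Ne.symm hrp)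
  induction c using QuotientGroup.induction_on with | H g =>
  obtain ⟨hR, h0, hcard, -⟩ := su_evs (K := AlgebraicClosure F) hF g
  have hdvd : ∀ k, (g.1 : Matrix (Fin m) (Fin m) F) ^ k = 1 → p * r ∣ k := fun k hk =>
    hc ▸ (psu_dvd_iff hF (by omega) g k).mpr ⟨1, by simpa using hk⟩
  have hg1 : (g.1 : Matrix (Fin m) (Fin m) F) ^ orderOf g = 1 := by
    rw [← Matrix.SpecialLinearGroup.coe_pow, ← Subgroup.coe_pow, pow_orderOf_eq_one]
    rfl
  obtain ⟨y, hy, hry⟩ := exists_ev_dvd_order (AlgebraicClosure F) p _ (orderOf_pos g) hg1 hr hrp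
    (fun k hk => (dvd_mul_left _ _).trans (hdvd k hk))
  have hev := evs_pow_eq (AlgebraicClosure F) _ _ (1 : F) (hg1.trans (one_smul _ _).symm)
  have hpow := fun o => pow_eq_one_of_evs (K := AlgebraicClosure F) p
    (g.1 : Matrix (Fin m) (Fin m) F) o 0
  obtain ⟨R, hRg⟩ : ∃ R, R = (g.1 : Matrix (Fin m) (Fin m) F).charpoly.aroots
    (AlgebraicClosure F) := ⟨_, rfl⟩
  rw [← hRg] at hR h0 hcard hy hev hpow
  obtain ⟨x, hx⟩ : ∃ x, 1 < R.count x := by
    by_contra h
    push Not at h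
    obtain ⟨i, t, ht, hit⟩ := Nat.exists_eq_pow_mul_and_not_dvd (orderOf_pos g).ne' p hp.ne_one
    refine ht ((dvd_mul_right _ _).trans (hdvd t (hpow t (fun z hz => ?_) (by simp)
      (by simpa using h))))
    refine pow_eq_one_of_pow_char_pow p (k := i) ?_
    rw [← pow_mul, mul_comm, ← hit, hev z hz, map_one]
  have hy0 : y ≠ 0 := fun h => h0 (h ▸ hy)
  obtain ⟨d, R', hd, hfix, hnd, hRR, -, hdis⟩ := exists_orb (uinv_injective hF) hR hy
  have hμ := Multiset.count_pos.mpr hy
  have hd1 : d ≠ 1 := by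
    rintro rfl
    exact hrq (hry.trans (orderOf_dvd_of_pow_eq_one ((uf_fix_iff hy0).mp hfix)))
  have hcc : R.count y * d + R'.card = m := by
    rw [← hcard]; conv_rhs => rw [hRR]
    rw [Multiset.card_add, Multiset.card_nsmul, card_orb]
  have hdm : d ≤ m - 2 := by
    by_cases h2 : R.count y = 1
    · have h3 := congrArg (Multiset.count x) hRR
      rw [h2, one_nsmul, Multiset.count_add] at h3
      have h4 := Multiset.count_le_card x R'
      rw [h2] at hcc
      by_cases hxo : x ∈ orb (uf q) d y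
      · rw [Multiset.count_eq_one_of_mem hnd hxo,
          Multiset.count_eq_zero_of_notMem (hdis x hxo)] at h3
        omega
      · rw [Multiset.count_eq_zero_of_notMem hxo] at h3
        omega
    · have : 2 * d ≤ R.count y * d := Nat.mul_le_mul_right _ (by omega)
      omega
  have ho : 0 < orderOf y := by
    rw [orderOf_pos_iff, isOfFinOrder_iff_pow_eq_one]
    exact ⟨_, orderOf_pos g, by simpa using hev y hy⟩
  obtain ⟨z, hz⟩ : ∃ z, z = y ^ (orderOf y / r) := ⟨_, rfl⟩
  have hzr : orderOf z = r := by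
    rw [hz, orderOf_pow_of_dvd (Nat.div_pos (Nat.le_of_dvd ho hry) hr.pos).ne'
        (Nat.div_dvd_of_dvd hry), Nat.div_div_self hry ho.ne']
  have hz0 : z ≠ 0 := hz ▸ pow_ne_zero _ hy0
  have hzfix : (uf q)^[d] z = z := by rw [hz, uf_iterate_pow, hfix]
  obtain ⟨δ, hδ, h1⟩ := formP_u_orb hF hτ hz0 hzfix
  have hδ1 : δ = 1 := by
    apply (algebraMap F (AlgebraicClosure F)).injective
    rw [hδ, map_one, prod_orb_eq_one_iff hz0, ← orderOf_dvd_iff_pow_eq_one, hzr]
    have := (uf_iterate_eq_iff hz0).mp hzfix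
    rw [← orderOf_dvd_iff_pow_eq_one, hzr, ← uT_mul] at this
    exact (hr.dvd_mul.mp this).resolve_right hrq
  subst hδ1
  refine key _ ((h1.sum (formP_scalar hττ 1 (by simp) (m - 2 - d))).congr
      (by omega) (by simp) (fun _ _ => Iff.rfl)) (fun k h => ?_)
  rw [← hzr, orderOf_dvd_iff_pow_eq_one]
  simpa using h.1 z (self_mem_orb hd z)

end Cfsg.Agent.S2365
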