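import Cfsg.Statements.S2366
import Cfsg.Agent.HForm.USpec

set_option autoImplicit false
open Cfsg

namespace Cfsg.Agent.S2366

open Cfsg.Agent.HForm Polynomial

theorem sq_sub_one' (q : ℕ) : q ^ 2 - 1 = (q + 1) * (q - 1) := by
  rw [← Nat.sq_sub_sq, one_pow]

theorem uA_three {q : ℕ} (hq : 2 ≤ q) : uA q 3 = (q ^ 2 - q + 1) / Nat.gcd 3 (q + 1) := by
  rw [uA]
  congr 1
  have h := uT_mul q 3
  rw [ua_of_odd (by decide)] at h
  apply Nat.eq_of_mul_eq_mul_right (by omega : 0 < q + 1)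
  rw [h]
  have : q ≤ q ^ 2 := by nlinarith
  zify [this]; ring

theorem dvd_div_of {a b d m : ℕ} (hd : d = Nat.gcd b a) (ha : 0 < a) (h : a ∣ m * b) :
    a / d ∣ m := by
  have hg : 0 < Nat.gcd b a := Nat.gcd_pos_of_pos_right _ ha
  have h1 := Nat.coprime_div_gcd_div_gcd hg
  rw [← hd] at h1 hg
  obtain ⟨x, hx⟩ : d ∣ a := hd ▸ Nat.gcd_dvd_right _ _
  obtain ⟨y, hy⟩ : d ∣ b := hd ▸ Nat.gcd_dvd_left _ _
  rw [hx, hy, Nat.mul_div_cancel_left _ hg, Nat.mul_div_cancel_left _ hg] at h1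
  rw [hx, hy, show m * (d * y) = d * (m * y) by ring, Nat.mul_dvd_mul_iff_left hg] at h
  rw [hx, Nat.mul_div_cancel_left _ hg]
  exact h1.symm.dvd_of_dvd_mul_right h

theorem upper {F : Type*} [Field F] [Fintype F] (p : ℕ) [hp : Fact p.Prime] [CharP F p]
    (hp2 : p ≠ 2) (q : ℕ) (hF : Fintype.card F = q ^ 2) (x : PSU 3 F q) :
    orderOf x ∣ q + 1 ∨ orderOf x ∣ p * ((q + 1) / Nat.gcd 3 (q + 1)) ∨
      orderOf x ∣ (q - 1) * ((q + 1) / Nat.gcd 3 (q + 1)) ∨ orderOf x ∣ uA q 3 := by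
  classical
  induction x using QuotientGroup.induction_on with | H g =>
  obtain ⟨hR, h0, hcard, hprod⟩ := su_evs (K := AlgebraicClosure F) hF g
  obtain ⟨R, hRg⟩ : ∃ R, R = (g.1 : Matrix (Fin 3) (Fin 3) F).charpoly.aroots
    (AlgebraicClosure F) := ⟨_, rfl⟩
  rw [← hRg] at hR h0 hcard hprod
  have hq := two_le_of_sq hF
  obtain ⟨D, hD⟩ : ∃ D, D = Nat.gcd 3 (q + 1) := ⟨_, rfl⟩
  obtain ⟨M, hM⟩ : D ∣ q + 1 := hD ▸ Nat.gcd_dvd_right _ _
  obtain ⟨e, he⟩ : D ∣ 3 := hD ▸ Nat.gcd_dvd_left _ _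
  have hD0 : 0 < D := hD ▸ Nat.gcd_pos_of_pos_left _ (by omega)
  have hM' : (q + 1) / D = M := by rw [hM, Nat.mul_div_cancel_left _ hD0]
  rw [← hD, hM']
  have hp3 : 3 ≤ p := by have := hp.out.two_le; omega
  have hinj := uinv_injective (K := AlgebraicClosure F) hF
  by_cases hall : ∀ y ∈ R, y ^ (q + 1) = 1
  · by_cases hnd : R.Nodup
    · left
      simpa using psu_dvd_of_evs hF le_rfl p g (M := q + 1) (k := 0) (c := 1) (by simp)
        (hRg ▸ hall) (hRg ▸ by simpa using Multiset.nodup_iff_count_le_one.mp hnd)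
    · right; left
      rw [Multiset.nodup_iff_count_le_one] at hnd
      push Not at hnd
      obtain ⟨y, hy⟩ := hnd
      obtain ⟨R', hR'⟩ := Multiset.le_iff_exists_add.mp
        (Multiset.le_count_iff_replicate_le.mp (show 2 ≤ R.count y from hy))
      have hc : R'.card = 1 := by
        have := congrArg Multiset.card hR'
        simp at this; omega
      obtain ⟨z, rfl⟩ := Multiset.card_eq_one.mp hc
      have hyR : y ∈ R := Multiset.count_pos.mp (by omega)
      have hy1 := hall y hyR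
      have hy0 : y ≠ 0 := fun h => h0 (h ▸ hyR)
      have hz : y ^ 2 * z = 1 := by simpa [hR', sq, mul_assoc] using hprod
      have h3 : y ^ (3 * M) = 1 := by
        rw [he, show D * e * M = D * M * e by ring, ← hM, pow_mul, hy1, one_pow]
      have := psu_dvd_of_evs hF le_rfl p g (M := M) (k := 1) (c := y ^ M) (by
        rw [← pow_mul, mul_comm, pow_mul, hy1, one_pow]) (by
        rw [← hRg, hR']
        intro u hu
        rcases Multiset.mem_add.mp hu with hu | hu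
        · rw [Multiset.eq_of_mem_replicate hu]
        · rw [Multiset.mem_singleton.mp hu]
          apply mul_left_cancel₀ (pow_ne_zero M (pow_ne_zero 2 hy0))
          rw [← mul_pow, hz, one_pow, ← h3]; ring) (fun u => by
        rw [← hRg]
        exact (Multiset.count_le_card _ _).trans (by rw [pow_one]; omega))
      rwa [pow_one, mul_comm] at this
  push Not at hall
  obtain ⟨y, hy, hy1⟩ := hall
  have hy0 : y ≠ 0 := fun h => h0 (h ▸ hy)
  obtain ⟨d, R', hd, hfix, hnd, hRR, hR', hdis⟩ := exists_orb hinj hR hy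
  have hμ := Multiset.count_pos.mpr hy
  have hd1 : d ≠ 1 := by
    rintro rfl
    exact hy1 ((uf_fix_iff hy0).mp hfix)
  have hc : R.count y * d + R'.card = 3 := by
    rw [← hcard]; conv_rhs => rw [hRR]
    rw [Multiset.card_add, Multiset.card_nsmul, card_orb]
  have hμ1 : R.count y = 1 := by
    by_contra h
    have : 2 * 2 ≤ R.count y * d := Nat.mul_le_mul (by omega) (by omega)
    omega
  rw [hμ1, one_mul] at hc
  rw [hμ1, one_nsmul] at hRR
  have hRnd : R.Nodup := by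
    rw [hRR, Multiset.nodup_add]
    refine ⟨hnd, ?_, Multiset.disjoint_left.mpr fun h => hdis _ h⟩
    rw [Multiset.nodup_iff_count_le_one]
    intro u
    exact (Multiset.count_le_card _ _).trans (by omega)
  have hcount : ∀ u, ((g.1 : Matrix (Fin 3) (Fin 3) F).charpoly.aroots
      (AlgebraicClosure F)).count u ≤ p ^ 0 :=
    hRg ▸ by simpa using Multiset.nodup_iff_count_le_one.mp hRnd
  by_cases hd3 : d = 3
  · right; right; right
    have : R' = 0 := Multiset.card_eq_zero.mp (by omega)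
    simpa using psu_primary hF le_rfl p g hfix (μ := 1) (by rw [← hRg, hRR, this]; simp) hcount
  right; right; left
  obtain rfl : d = 2 := by omega
  obtain ⟨z, rfl⟩ := Multiset.card_eq_one.mp (by omega : R'.card = 1)
  have hy2 : y ^ ((q + 1) * (q - 1)) = 1 := by
    have := (uf_iterate_eq_iff hy0).mp hfix
    rwa [ua_of_even (by omega) even_two, sq_sub_one'] at this
  have hc1 : (y ^ ((q - 1) * M)) ^ (q + 1) = 1 := by
    rw [← pow_mul, show (q - 1) * M * (q + 1) = (q + 1) * (q - 1) * M by ring, pow_mul, hy2,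
      one_pow]
  have horb := forall_orb_pow (q := q) (d := 2) rfl hc1
  have h3 : (y ^ ((q - 1) * M)) ^ 3 = 1 := by
    rw [← pow_mul, he, show (q - 1) * M * (D * e) = D * M * (q - 1) * e by ring, ← hM, pow_mul,
      hy2, one_pow]
  simpa using psu_dvd_of_evs hF le_rfl p g hc1 (by
    rw [← hRg, hRR]
    intro u hu
    rcases Multiset.mem_add.mp hu with hu | hu
    · exact horb u hu
    · rw [Multiset.mem_singleton.mp hu]
      have h1 : ((orb (uf q) 2 y).map (fun u => u ^ ((q - 1) * M))).prod =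
          (y ^ ((q - 1) * M)) ^ 2 := by
        rw [Multiset.map_congr rfl horb, Multiset.map_const', card_orb, Multiset.prod_replicate]
      rw [Multiset.prod_map_pow, Multiset.map_id'] at h1
      rw [hRR, Multiset.prod_add, Multiset.prod_singleton] at hprod
      apply mul_left_cancel₀ (pow_ne_zero 2 (pow_ne_zero ((q - 1) * M) hy0))
      rw [← pow_succ, h3, ← h1, ← mul_pow, hprod, one_pow]) hcount

/-- The set of element orders of PSU(3, q) for an odd prime power q = p^n: writing d = gcd(3, q + 1), a positive integer is the order of some element exactly when it divides one of q + 1, p(q + 1)/d, (q² − 1)/d, (q² − q + 1)/d. -/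
theorem result {F : Type*} [Field F] [Fintype F] (p : ℕ) [Fact p.Prime] [CharP F p] (hp : p ≠ 2) (q : ℕ) (hF : Fintype.card F = q ^ 2) :
    Set.range (orderOf : Cfsg.PSU 3 F q → ℕ) =
      {s : ℕ | s ∣ q + 1} ∪ {s : ℕ | s ∣ p * (q + 1) / Nat.gcd 3 (q + 1)} ∪
        {s : ℕ | s ∣ (q ^ 2 - 1) / Nat.gcd 3 (q + 1)} ∪ {s : ℕ | s ∣ (q ^ 2 - q + 1) / Nat.gcd 3 (q + 1)} := by
  have hp' : p.Prime := Fact.out
  obtain ⟨τ, hτ⟩ := exists_tau hF F
  have hq := two_le_of_sq hF
  have hpq := char_dvd_q hF p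
  have hdv := Nat.gcd_dvd_right 3 (q + 1)
  have e1 : p * (q + 1) / Nat.gcd 3 (q + 1) = p * ((q + 1) / Nat.gcd 3 (q + 1)) :=
    Nat.mul_div_assoc _ hdv
  have e2 : (q ^ 2 - 1) / Nat.gcd 3 (q + 1) = (q - 1) * ((q + 1) / Nat.gcd 3 (q + 1)) := by
    rw [← Nat.mul_div_assoc _ hdv, mul_comm, ← Nat.sq_sub_sq, one_pow]
  obtain ⟨ω, hω, hω1⟩ := exists_norm_one_order hF (dvd_refl (q + 1))
  have hω0 : ω ≠ 0 := by rintro rfl; simp at hω1
  have hn : ∀ k : ℕ, ω⁻¹ ^ k * τ (ω⁻¹ ^ k) = 1 := fun k => by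
    rw [mul_tau_eq_one_iff hτ, ← pow_mul, mul_comm, pow_mul, inv_pow, hω1, inv_one, one_pow]
  have hωτ := (mul_tau_eq_one_iff hτ ω).mpr hω1
  have hττ := tau_tau hF hτ
  ext s
  simp only [Set.mem_union, Set.mem_ofPred_eq]
  rw [e1, ← uA_three hq]
  constructor
  · rintro ⟨x, rfl⟩
    have := upper p hp q hF x
    rw [e2]
    tauto
  rintro (((h | h) | h) | h)
  · obtain ⟨w, hw⟩ := ((((formP_scalar hττ 1 (by simp) 1).sum (formP_scalar hττ ω hωτ 1)).sum
      (formP_scalar hττ _ (hn 1) 1)).congr (n' := 3) rfl (δ' := 1) (by simp [hω0])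
      (fun _ _ => Iff.rfl)).toPSU hF hτ le_rfl
    obtain ⟨c, ⟨h1, h2⟩, -⟩ := (hw _).mp dvd_rfl
    refine mem_range_orderOf_of_dvd ⟨w, rfl⟩ (h.trans ?_)
    rw [← hω, orderOf_dvd_iff_pow_eq_one, h2.resolve_left one_ne_zero,
      ← h1.resolve_left one_ne_zero, one_pow]
  · obtain ⟨w, hw⟩ := (((formP_u_jordan hττ (exists_tau_ne hF hτ) p ω hωτ 2 1 two_pos
      (by simpa using hp'.two_le) (by simp)).sum
      (formP_scalar hττ _ (hn 2) 1)).congr (n' := 3) rfl (δ' := 1) (by simp [hω0])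
      (fun _ _ => Iff.rfl)).toPSU hF hτ le_rfl
    obtain ⟨c, ⟨h1, h2⟩, h3⟩ := (hw _).mp dvd_rfl
    refine mem_range_orderOf_of_dvd ⟨w, rfl⟩ (h.trans ?_)
    refine Nat.Coprime.mul_dvd_of_dvd_of_dvd ?_ (by simpa using h2) ?_
    · refine hp'.coprime_iff_not_dvd.mpr fun h => ?_
      exact hp'.one_lt.ne' (Nat.dvd_one.mp ((Nat.dvd_add_right hpq).mp
        (h.trans (Nat.div_dvd_of_dvd hdv))))
    · refine dvd_div_of rfl (by omega) ?_
      have e := h3.resolve_left one_ne_zero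
      rw [← h1, inv_pow, inv_pow, ← pow_mul, inv_eq_iff_eq_inv,
        ← mul_eq_one_iff_eq_inv₀ (pow_ne_zero _ hω0), ← pow_add, ← orderOf_dvd_iff_pow_eq_one,
        hω] at e
      rwa [show orderOf w * 3 = 2 * orderOf w + orderOf w by ring]
  · obtain ⟨x, hx0, hx⟩ := exists_orderOf_coprime (F := F) (K := AlgebraicClosure F) p
      (t := ua q 2) (not_dvd_ua hp' hpq (by omega) two_pos)
    have hfix : (uf q)^[2] x = x := by rw [uf_iterate_eq_iff hx0, ← hx, pow_orderOf_eq_one]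
    obtain ⟨δ, hδ, h1⟩ := formP_u_orb hF hτ hx0 hfix
    have hT : uT q 2 = q - 1 := by
      apply Nat.eq_of_mul_eq_mul_right (by omega : 0 < q + 1)
      rw [uT_mul, ua_of_even (by omega) even_two, mul_comm, ← Nat.sq_sub_sq, one_pow]
    have hδ' : algebraMap F _ δ⁻¹ = x ^ (q - 1) := by
      rw [map_inv₀, hδ, prod_orb_uf q 2 hx0, ← zpow_neg, ← zpow_natCast]
      congr 1
      rw [Nat.cast_sub (by omega)]
      simp [Finset.sum_range_succ]; ring
    have hua : ua q 2 = (q - 1) * (q + 1) := by rw [← uT_mul, hT]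
    have hδ0 : δ ≠ 0 := by
      rintro rfl
      simp at hδ'
      exact pow_ne_zero _ hx0 hδ'.symm
    obtain ⟨w, hw⟩ := ((h1.sum (formP_scalar hττ δ⁻¹ (by
      rw [mul_tau_eq_one_iff hτ]
      apply (algebraMap F (AlgebraicClosure F)).injective
      rw [map_pow, hδ', ← pow_mul, ← hua, ← hx, pow_orderOf_eq_one, map_one]) 1)).congr
      (n' := 3) rfl (δ' := 1) (by simp [hδ0]) (fun _ _ => Iff.rfl)).toPSU hF hτ le_rfl
    obtain ⟨c, h2, h3⟩ := (hw _).mp dvd_rfl
    refine mem_range_orderOf_of_dvd ⟨w, rfl⟩ (h.trans ?_)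
    obtain ⟨m, hm⟩ : ∃ m, m = orderOf w := ⟨_, rfl⟩
    rw [← hm] at h2 h3 ⊢
    have a1 := norm_one_of_const (orb_map hfix) (orb_uf_ne_zero hx0) (self_mem_orb two_pos x) h2
    have a2 := h2 x (self_mem_orb two_pos x)
    have a3 : x ^ ((q - 1) * m) = x ^ m := by
      rw [pow_mul, ← hδ', ← map_pow, h3.resolve_left one_ne_zero, a2]
    have a4 : x ^ (m * (q + 1)) = 1 := by rw [pow_mul, a2, a1]
    have a5 : x ^ (m * 3) = 1 := by
      rw [← a4]
      have : m * (q + 1) = (q - 1) * m + m * 2 := by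
        obtain ⟨q', rfl⟩ : ∃ q', q = q' + 1 := ⟨q - 1, by omega⟩
        simp; ring
      rw [this, pow_add, a3, ← pow_add]; congr 1; ring
    rw [← orderOf_dvd_iff_pow_eq_one, hx, ua_of_even (by omega) even_two] at a4 a5
    have a6 := Nat.dvd_gcd a5 a4
    rw [Nat.gcd_mul_left] at a6
    obtain ⟨e, he⟩ : Nat.gcd 3 (q + 1) ∣ q ^ 2 - 1 := by
      rw [sq_sub_one']; exact hdv.mul_right _
    have hg : 0 < Nat.gcd 3 (q + 1) := Nat.gcd_pos_of_pos_left _ (by omega)
    rw [he, Nat.mul_div_cancel_left _ hg]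
    rwa [he, mul_comm m, Nat.mul_dvd_mul_iff_left hg] at a6
  · exact mem_range_orderOf_of_dvd (uA_mem hF le_rfl) h

end Cfsg.Agent.S2366
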