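import Cfsg.Statements.S2367
import Mathlib.Tactic

set_option autoImplicit false
open Cfsg

namespace Cfsg.Agent.S2367

theorem spor (N k p : ℕ) (hN : N ≠ 0) (h1 : N ∣ (Nat.factorial 71) ^ 46) (h2 : 2 ^ k ∣ N)
    (h3 : ∀ q ∈ List.range 72, q ≠ 2 → (∀ d ∈ List.range q, 2 ≤ d → ¬ d ∣ q) → q ^ 3 ∣ N →
      ¬ q ^ 4 ∣ N → q ^ 3 < 2 ^ k)
    (hp : p.Prime) (hodd : p ≠ 2) (h : N.factorization p = 3) :
    p ^ 3 < 2 ^ N.factorization 2 := by
  have a1 : p ^ 3 ∣ N := (hp.pow_dvd_iff_le_factorization hN).2 (by omega)
  have a2 : ¬ p ^ 4 ∣ N := fun h' => by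
    have := (hp.pow_dvd_iff_le_factorization hN).1 h'
    omega
  have a3 : p ∣ Nat.factorial 71 :=
    hp.dvd_of_dvd_pow ((dvd_pow_self p (by norm_num : (3 : ℕ) ≠ 0)).trans (a1.trans h1))
  have a4 : p ≤ 71 := (hp.dvd_factorial).1 a3
  have a5 : k ≤ N.factorization 2 := (Nat.prime_two.pow_dvd_iff_le_factorization hN).1 h2
  refine lt_of_lt_of_le (h3 p (List.mem_range.2 (by omega)) hodd ?_ a1 a2)
    (Nat.pow_le_pow_right (by norm_num) a5)
  intro d hd hd2 hdp
  rcases (Nat.dvd_prime hp).1 hdp with h' | h'
  · omega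
  · have := List.mem_range.1 hd
    omega

theorem cube_lt (p : ℕ) (hp : 3 ≤ p) : p ^ 3 < 2 ^ (2 * p - 1) := by
  induction p, hp using Nat.le_induction with
  | base => norm_num
  | succ n hn ih =>
    have : 2 * (n + 1) - 1 = (2 * n - 1) + 2 := by omega
    rw [this, pow_add]
    have h2 : (n + 1) ^ 3 ≤ 4 * n ^ 3 := by nlinarith [Nat.pow_le_pow_left hn 2, Nat.mul_le_mul_right (n ^ 2) hn]
    omega

theorem alt (n p : ℕ) (hn : 5 ≤ n) (hp : p.Prime) (hodd : p ≠ 2)
    (h : (n.factorial / 2).factorization p = 3) :
    p ^ 3 < 2 ^ (n.factorial / 2).factorization 2 := by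
  have hp3 : 3 ≤ p := by
    have := hp.two_le
    omega
  have h2 : 2 ∣ n.factorial := Nat.dvd_factorial (by norm_num) (by omega)
  rw [Nat.factorization_div h2] at h ⊢
  rw [Finsupp.tsub_apply] at h ⊢
  rw [Nat.prime_two.factorization, Finsupp.single_eq_same]
  rw [Nat.prime_two.factorization, Finsupp.single_eq_of_ne hodd, tsub_zero] at h
  have hn3 : 3 * p ≤ n := by
    by_contra hlt
    push Not at hlt
    have hlog : Nat.log p n < 2 := by
      apply Nat.log_lt_of_lt_pow (by omega)
      nlinarith
    rw [Nat.factorization_factorial hp hlog] at h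
    simp only [Nat.Ico_succ_singleton, Finset.sum_singleton, pow_one] at h
    have : n / p < 3 := (Nat.div_lt_iff_lt_mul hp.pos).2 hlt
    omega
  have hlog : Nat.log 2 n < Nat.log 2 n + 3 := by omega
  rw [Nat.factorization_factorial Nat.prime_two hlog]
  have hsub : ({1, 2} : Finset ℕ) ⊆ Finset.Ico 1 (Nat.log 2 n + 3) := by
    intro x hx
    simp only [Finset.mem_insert, Finset.mem_singleton] at hx
    rw [Finset.mem_Ico]
    omega
  have hle := Finset.sum_le_sum_of_subset (f := fun i => n / 2 ^ i) hsub
  rw [Finset.sum_pair (by norm_num)] at hle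
  refine lt_of_lt_of_le (cube_lt p hp3) (Nat.pow_le_pow_right (by norm_num) ?_)
  omega


/-- Let G be an alternating group of degree at least 5 or a simple group with the order of one of the 26 sporadic groups, and let p be an odd prime such that p³ is the exact power of p dividing the order of G. Then p³ is less than the 2-part of the order of G. -/
theorem result {G : Type*} [Group G] [Finite G] (hG : Cfsg.IsAlternating G ∨ Cfsg.IsSporadic G)
    (p : ℕ) (hp : p.Prime) (hodd : p ≠ 2) (h3 : (Nat.card G).factorization p = 3) :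
    p ^ 3 < 2 ^ (Nat.card G).factorization 2 := by
  rcases hG with ⟨n, hn, ⟨e⟩⟩ | hG
  · haveI : Nontrivial (Fin n) := Fin.nontrivial_iff_two_le.2 (by omega)
    have hc : Nat.card G = n.factorial / 2 := by
      rw [Nat.card_congr e.toEquiv, nat_card_alternatingGroup]
      simp
    rw [hc] at h3 ⊢
    exact alt n p hn hp hodd h3
  · rcases hG with ⟨-, h⟩ | ⟨-, h⟩ | ⟨-, h⟩ | ⟨-, h⟩ | ⟨-, h⟩ | ⟨-, h⟩ | ⟨-, h⟩ | ⟨-, h⟩ | ⟨-, h⟩ |
      ⟨-, h⟩ | ⟨-, h⟩ | ⟨-, h⟩ | ⟨-, h⟩ | ⟨-, h⟩ | ⟨-, h⟩ | ⟨-, h⟩ | ⟨-, h⟩ | ⟨-, h⟩ | ⟨-, h⟩ |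
      ⟨-, h⟩ | ⟨-, h⟩ | ⟨-, h⟩ | ⟨-, h⟩ | ⟨-, h⟩ | ⟨-, h⟩ | ⟨-, h⟩ <;> rw [h] at h3 ⊢
    · exact spor _ 4 p (by decide +kernel) (by decide +kernel) (by decide +kernel) (by decide +kernel) hp hodd h3
    · exact spor _ 6 p (by decide +kernel) (by decide +kernel) (by decide +kernel) (by decide +kernel) hp hodd h3
    · exact spor _ 7 p (by decide +kernel) (by decide +kernel) (by decide +kernel) (by decide +kernel) hp hodd h3
    · exact spor _ 7 p (by decide +kernel) (by decide +kernel) (by decide +kernel) (by decide +kernel) hp hodd h3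
    · exact spor _ 10 p (by decide +kernel) (by decide +kernel) (by decide +kernel) (by decide +kernel) hp hodd h3
    · exact spor _ 3 p (by decide +kernel) (by decide +kernel) (by decide +kernel) (by decide +kernel) hp hodd h3
    · exact spor _ 7 p (by decide +kernel) (by decide +kernel) (by decide +kernel) (by decide +kernel) hp hodd h3
    · exact spor _ 7 p (by decide +kernel) (by decide +kernel) (by decide +kernel) (by decide +kernel) hp hodd h3
    · exact spor _ 21 p (by decide +kernel) (by decide +kernel) (by decide +kernel) (by decide +kernel) hp hodd h3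
    · exact spor _ 21 p (by decide +kernel) (by decide +kernel) (by decide +kernel) (by decide +kernel) hp hodd h3
    · exact spor _ 18 p (by decide +kernel) (by decide +kernel) (by decide +kernel) (by decide +kernel) hp hodd h3
    · exact spor _ 10 p (by decide +kernel) (by decide +kernel) (by decide +kernel) (by decide +kernel) hp hodd h3
    · exact spor _ 17 p (by decide +kernel) (by decide +kernel) (by decide +kernel) (by decide +kernel) hp hodd h3
    · exact spor _ 18 p (by decide +kernel) (by decide +kernel) (by decide +kernel) (by decide +kernel) hp hodd h3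
    · exact spor _ 21 p (by decide +kernel) (by decide +kernel) (by decide +kernel) (by decide +kernel) hp hodd h3
    · exact spor _ 9 p (by decide +kernel) (by decide +kernel) (by decide +kernel) (by decide +kernel) hp hodd h3
    · exact spor _ 7 p (by decide +kernel) (by decide +kernel) (by decide +kernel) (by decide +kernel) hp hodd h3
    · exact spor _ 10 p (by decide +kernel) (by decide +kernel) (by decide +kernel) (by decide +kernel) hp hodd h3
    · exact spor _ 14 p (by decide +kernel) (by decide +kernel) (by decide +kernel) (by decide +kernel) hp hodd h3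
    · exact spor _ 13 p (by decide +kernel) (by decide +kernel) (by decide +kernel) (by decide +kernel) hp hodd h3
    · exact spor _ 9 p (by decide +kernel) (by decide +kernel) (by decide +kernel) (by decide +kernel) hp hodd h3
    · exact spor _ 14 p (by decide +kernel) (by decide +kernel) (by decide +kernel) (by decide +kernel) hp hodd h3
    · exact spor _ 8 p (by decide +kernel) (by decide +kernel) (by decide +kernel) (by decide +kernel) hp hodd h3
    · exact spor _ 15 p (by decide +kernel) (by decide +kernel) (by decide +kernel) (by decide +kernel) hp hodd h3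
    · exact spor _ 41 p (by decide +kernel) (by decide +kernel) (by decide +kernel) (by decide +kernel) hp hodd h3
    · exact spor _ 46 p (by decide +kernel) (by decide +kernel) (by decide +kernel) (by decide +kernel) hp hodd h3

end Cfsg.Agent.S2367
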