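import Cfsg.Statements.S2368
import Cfsg.Agent.GLn.Blocks

set_option autoImplicit false
open Cfsg

namespace Cfsg.Agent.S2368

open Cfsg.Agent.GLn Polynomial

/-- Let F be a finite field of characteristic p and m ≥ 1. Every element of GL(m, F) of p-power order has order less than p·m, and GL(m, F) has an element of p-power order at least m; so the largest order of a p-element of GL(m, F) is the least power of p that is at least m. -/
theorem result {F : Type*} [Field F] [Fintype F] (p : ℕ) [Fact p.Prime] [CharP F p] (m : ℕ) (hm : 1 ≤ m) :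
    (∀ g : Matrix.GeneralLinearGroup (Fin m) F, (∃ j : ℕ, orderOf g = p ^ j) → orderOf g < p * m) ∧
      ∃ g : Matrix.GeneralLinearGroup (Fin m) F, (∃ j : ℕ, orderOf g = p ^ j) ∧ m ≤ orderOf g := by
  have hp : p.Prime := Fact.out
  constructor
  · rintro g ⟨j, hj⟩
    rw [gl_orderOf_eq] at hj ⊢
    have h1 : (g : Matrix (Fin m) (Fin m) F) ^ p ^ j = 1 := by
      rw [← hj]; exact pow_orderOf_eq_one _
    rw [pow_char_pow_eq_one_iff p] at h1
    have := orderOf_dvd_of_unipotent p ⟨_, h1⟩
    rw [Fintype.card_fin] at this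
    refine (Nat.le_of_dvd (pow_pos hp.pos _) this).trans_lt ?_
    rcases hm.eq_or_lt with rfl | hm1
    · simpa using hp.one_lt
    · have h2 := Nat.pow_pred_clog_lt_self hp.one_lt hm1
      have h3 := Nat.clog_pos hp.one_lt hm1
      calc p ^ Nat.clog p m = p * p ^ (Nat.clog p m).pred := by
            rw [← pow_succ']; congr 1; exact (Nat.succ_pred_eq_of_pos h3).symm
        _ < p * m := Nat.mul_lt_mul_of_pos_left h2 hp.pos
  · have hdet : (1 + shiftN F m).det ≠ 0 := by
      rw [det_one_add_of_isNilpotent (isNilpotent_shiftN m)]; exact one_ne_zero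
    refine ⟨Matrix.GeneralLinearGroup.mkOfDetNeZero _ hdet, ?_⟩
    have : orderOf (Matrix.GeneralLinearGroup.mkOfDetNeZero _ hdet) = p ^ Nat.clog p m := by
      rw [gl_orderOf_eq, ← orderOf_jordan (F := F) p m]; rfl
    rw [this]
    exact ⟨⟨_, rfl⟩, Nat.le_pow_clog hp.one_lt _⟩

end Cfsg.Agent.S2368
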