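import Cfsg.Statements.S2369
import Cfsg.Agent.Tw.CentTF4
import Cfsg.Agent.Tw.Eqv

set_option autoImplicit false
open Cfsg

namespace Cfsg.Agent.S2369

open Cfsg.Lie Cfsg.Agent.Chev Cfsg.Agent.Tw

/-- Let q = 2^(2m+1) with m ≥ 1 and let a, b be commuting elements of the large Ree group ²F₄(q) with a an involution. Then every prime divisor of the order of b divides q(q⁴ − 1). -/
theorem result {K : Type*} [Field K] [Fintype K] (m : ℕ) (hm : 1 ≤ m) (hK : Fintype.card K = 2 ^ (2 * m + 1))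
    (a b : ↥(Cfsg.Lie.twistedF4 K (2 ^ m))) (ha : orderOf a = 2) (hab : Commute a b) :
    (orderOf b).primeFactors ⊆ (2 ^ (2 * m + 1) * ((2 ^ (2 * m + 1)) ^ 4 - 1)).primeFactors := by
  have h : Nat.card K = 2 ^ (2 * m + 1) := by rw [Nat.card_eq_fintype_card, hK]
  have : CharP K 2 := charP_of_card_eq_prime_pow hK
  obtain ⟨φ, -, h3, hg⟩ := goodTF4 h
  have hf := fitTF4 hg
  obtain ⟨a, rfl⟩ := (eqF4 K (2 ^ m)).surjective a
  obtain ⟨b, rfl⟩ := (eqF4 K (2 ^ m)).surjective b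
  replace ha := (MulEquiv.orderOf_eq (eqF4 K (2 ^ m)) a).symm.trans ha
  replace hab : a * b = b * a := (eqF4 K (2 ^ m)).injective (by rw [map_mul, map_mul]; exact hab)
  rw [MulEquiv.orderOf_eq, ← h]
  obtain ⟨i, g, h1, e⟩ := invTF4 hf a.2 (by
      have := pow_orderOf_eq_one a; rw [ha, pow_two] at this; exact congrArg Subtype.val this)
    (fun e => by rw [show a = 1 from Subtype.ext e] at ha; simp at ha)
  have h2 := mul_mem (mul_mem h1 b.2) (inv_mem h1)
  obtain ⟨j, hj⟩ := centTF4 hg i (e ▸ mul_mem (mul_mem h1 a.2) (inv_mem h1)) h2 (by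
    have : (a : chevF4.group K) * b = b * a := congrArg Subtype.val hab
    rw [← e]; simp [mul_assoc, ← this]; simp [← mul_assoc, ← this])
  have h4 := Subgroup.orderOf_dvd_natCard _ (Subgroup.mem_inf.2 ⟨hj, h2⟩)
  rw [hg.card_P_orb, ← MulAut.conj_apply, MulEquiv.orderOf_eq, Subgroup.orderOf_coe] at h4
  have h5 : 1 < Nat.card K := Finite.one_lt_card
  have h6 : Nat.card ((stbF4 φ).Xp (gen (certF4.sys K) (f4Words K (2 ^ m))) j) = Nat.card K ∨
      Nat.card ((stbF4 φ).Xp (gen (certF4.sys K) (f4Words K (2 ^ m))) j) = Nat.card K ^ 2 := by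
    rw [Stb.Xp, orbF4]
    fin_cases j
    exacts [Or.inl (cardF4_0 hg h3), Or.inr (cardF4_1 hg h3), Or.inr (cardF4_1 hg h3), Or.inl (cardF4_0 hg h3)]
  intro r hr
  have h7 := Nat.prime_of_mem_primeFactors hr
  refine Nat.mem_primeFactors.2 ⟨h7, ?_, mul_ne_zero (by omega) (Nat.sub_ne_zero_of_lt (Nat.one_lt_pow (by omega) h5))⟩
  obtain ⟨q, hq⟩ : ∃ q, Nat.card K = q + 1 := ⟨Nat.card K - 1, by omega⟩
  have h8 : (q + 1) ^ 4 - 1 = q * (1 + (q + 1)) * (1 + (q + 1) ^ 2) := Nat.sub_eq_of_eq_add (by ring)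
  rcases (h7.dvd_mul).1 ((Nat.dvd_of_mem_primeFactors hr).trans h4) with h9 | h9
  · rcases hg.prime_dvd_B (certF4.sys_φ_inj K) 2 h7 h9 with rfl | h9
    · exact (h ▸ dvd_pow_self 2 (by omega)).mul_right _
    · rw [hq, h8] at *; exact ((h9.mul_right _).mul_right _).mul_left _
  · rcases h6 with h6 | h6 <;> rw [h6, hq] at h9 <;> rw [hq, h8]
    exacts [((h9.mul_left _).mul_right _).mul_left _, (h9.mul_left _).mul_left _]

end Cfsg.Agent.S2369
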