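import Cfsg.Statements.S2370
import Cfsg.Agent.Tw.IsogF4
import Cfsg.Agent.Sz.Model

set_option autoImplicit false
open Cfsg

namespace Cfsg.Agent.S2370

/-- Let q = 2^(2m+1) with m ≥ 1. Every element of 2-power order of the large Ree group ²F₄(q) has order at most 32. -/
theorem result {K : Type*} [Field K] [Fintype K] (m : ℕ) (hm : 1 ≤ m) (hK : Fintype.card K = 2 ^ (2 * m + 1))
    (x : ↥(Cfsg.Lie.twistedF4 K (2 ^ m))) (hx : ∃ j : ℕ, orderOf x = 2 ^ j) : orderOf x ≤ 32 := by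
  haveI : CharP K 2 := Sz.charP_of_card (Nat.card_eq_fintype_card.trans hK)
  obtain ⟨j, hj⟩ := hx
  have h0 : x.1 ^ 2 ^ j = 1 := congrArg Subtype.val (orderOf_dvd_iff_pow_eq_one.mp hj.dvd)
  have h1 : x.1 ^ 32 = 1 := congrArg Subtype.val (Tw.isogF4.pow_eq_one (k := 5) (by norm_num)
    ⟨x.1, Tw.genSubgroup_le Chev.certF4 _ x.2⟩ (j := j) (Subtype.ext h0))
  exact orderOf_le_of_pow_eq_one (by norm_num) (Subtype.ext h1)

end Cfsg.Agent.S2370
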