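import Cfsg.Statements.S2372
import Cfsg.Agent.Lang.Tabs

set_option autoImplicit false
open Cfsg

namespace Cfsg.Agent.S2372

open Cfsg.Agent.Lang Cfsg.Agent.Chev Cfsg.Agent.RGD


/-- The group F₄(q) contains a cyclic subgroup of order q⁴ + 1 which is its own centralizer. -/
theorem result {F : Type*} [Field F] [Fintype F] (q : ℕ) (hF : Fintype.card F = q) :
    ∃ H : Subgroup ↥(Cfsg.Lie.chevF4.group F), IsCyclic ↥H ∧ Nat.card ↥H = q ^ 4 + 1 ∧
      Subgroup.centralizer (H : Set ↥(Cfsg.Lie.chevF4.group F)) = H := by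
  rw [← Nat.card_eq_fintype_card] at hF
  obtain ⟨H, h1, h2, h3⟩ := tabF4.cyclic_torus (F := F) (scinj_of_cdet _ genC_F4 _ rfl) cycF4 Finite.one_lt_card
  refine ⟨H, h1, ?_, h3⟩
  rw [card_cenT_of_cdet certF4 rfl, mul_one, hF] at h2
  zify
  rw [h2]; simp only [ev]; ring

end Cfsg.Agent.S2372
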