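import Cfsg.Statements.S2374
import Cfsg.Agent.Lang.Tabs

set_option autoImplicit false
open Cfsg

namespace Cfsg.Agent.S2374

open Cfsg.Agent.Lang Cfsg.Agent.Chev Cfsg.Agent.RGD


/-- The group E₇(q) (the simple Chevalley group of type E₇) contains a cyclic subgroup of order (q⁴ − q² + 1)(q³ + 1)/gcd(2, q − 1) which is its own centralizer. -/
theorem result {F : Type*} [Field F] [Fintype F] (q : ℕ) (hF : Fintype.card F = q) :
    ∃ H : Subgroup ↥(Cfsg.Lie.chevE7.group F), IsCyclic ↥H ∧ Nat.card ↥H = (q ^ 4 - q ^ 2 + 1) * (q ^ 3 + 1) / Nat.gcd 2 (q - 1) ∧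
      Subgroup.centralizer (H : Set ↥(Cfsg.Lie.chevE7.group F)) = H := by
  have hq : 1 ≤ q := hF ▸ Fintype.card_pos
  obtain ⟨H, h1, h2, h3⟩ := tabE7.cyclic_torus (F := F) (scinj_E7 _) cycE7 Finite.one_lt_card
  refine ⟨H, h1, ?_, h3⟩
  rw [Nat.card_congr cenE7.toEquiv, Cover.card_rootsOfUnity_field, Nat.card_eq_fintype_card (α := F), hF] at h2
  refine Nat.eq_div_of_mul_eq_left (Nat.gcd_pos_of_pos_left _ (by norm_num)).ne' ?_
  zify [Nat.pow_le_pow_right hq (show 2 ≤ 4 by norm_num)] at h2 ⊢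
  rw [h2]; simp only [ev]; ring

end Cfsg.Agent.S2374
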