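import Cfsg.Statements.S2375
import Cfsg.Agent.Lang.Tabs

set_option autoImplicit false
open Cfsg

namespace Cfsg.Agent.S2375

open Cfsg.Agent.Lang Cfsg.Agent.Chev Cfsg.Agent.RGD


/-- The group E₈(q) contains a cyclic subgroup of order q⁸ + q⁷ − q⁵ − q⁴ − q³ + q + 1 which is its own centralizer. -/
theorem result {F : Type*} [Field F] [Fintype F] (q : ℕ) (hF : Fintype.card F = q) :
    ∃ H : Subgroup ↥(Cfsg.Lie.chevE8.group F), IsCyclic ↥H ∧ Nat.card ↥H = q ^ 8 + q ^ 7 - q ^ 5 - q ^ 4 - q ^ 3 + q + 1 ∧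
      Subgroup.centralizer (H : Set ↥(Cfsg.Lie.chevE8.group F)) = H := by
  rw [← Nat.card_eq_fintype_card] at hF
  have hq : 2 ≤ q := hF ▸ Finite.one_lt_card
  obtain ⟨H, h1, h2, h3⟩ := tabE8.cyclic_torus (F := F) (scinj_of_cdet _ genC_E8 _ rfl) cycE8 Finite.one_lt_card
  refine ⟨H, h1, ?_, h3⟩
  rw [card_cenT_of_cdet certE8 rfl, mul_one, hF] at h2
  have h4 : (Nat.card H : ℤ) + (q ^ 5 + q ^ 4 + q ^ 3) = q ^ 8 + q ^ 7 + q + 1 := by rw [h2]; simp only [ev]; ring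
  have h5 : q ^ 5 + q ^ 4 + q ^ 3 ≤ q ^ 8 + q ^ 7 := by
    have a1 : q ^ 3 ≤ q ^ 4 := Nat.pow_le_pow_right (by omega) (by norm_num)
    have a2 : q ^ 5 ≤ q ^ 7 := Nat.pow_le_pow_right (by omega) (by norm_num)
    have a3 : q ^ 4 * 2 ≤ q ^ 5 := by rw [pow_succ q 4]; exact Nat.mul_le_mul_left _ hq
    have a4 : q ^ 5 ≤ q ^ 8 := Nat.pow_le_pow_right (by omega) (by norm_num)
    omega
  have h6 : Nat.card H + (q ^ 5 + q ^ 4 + q ^ 3) = q ^ 8 + q ^ 7 + q + 1 := by exact_mod_cast h4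
  omega

end Cfsg.Agent.S2375
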