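import Cfsg.Statements.S2376
import Cfsg.Agent.Tw.TD4

set_option autoImplicit false
open Cfsg

namespace Cfsg.Agent.S2376

open Cfsg.Lie Cfsg.Agent.Chev Cfsg.Agent.Tw

/-- The group ³D₄(q) contains a cyclic subgroup of order (q³ − 1)(q + 1) which is its own centralizer. -/
theorem result {K : Type*} [Field K] [Fintype K] (q : ℕ) (hq : IsPrimePow q) (hK : Fintype.card K = q ^ 3) :
    ∃ H : Subgroup ↥(Cfsg.Lie.twistedD4 K q), IsCyclic ↥H ∧ Nat.card ↥H = (q ^ 3 - 1) * (q + 1) ∧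
      Subgroup.centralizer (H : Set ↥(Cfsg.Lie.twistedD4 K q)) = H := by
  exact exists_cyclic_D4 K (Nat.card_eq_fintype_card.trans hK)

end Cfsg.Agent.S2376
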