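import Cfsg.Statements.S2381
import Cfsg.Agent.GLn.SpUni
import Cfsg.Agent.GLn.SylowHomo
import Cfsg.Agent.Polar.Count
import Cfsg.Agent.HForm.FormP

set_option autoImplicit false
open Cfsg

namespace Cfsg.Agent.S2381

open Cfsg.Agent.GLn Matrix Finset

variable {F : Type*} [Field F]

/-- embeddability in a symplectic group -/
def EmbSp (F : Type*) [Field F] (H : Type*) [Group H] (n : ℕ) : Prop :=
  ∃ ψ : H →* symplecticGroup (Fin n) F, Function.Injective ψ

theorem embSp_prod (a b : ℕ) :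
    EmbSp F (symplecticGroup (Fin a) F × symplecticGroup (Fin b) F) (a + b) := by
  let e := reindexAlgEquiv F F (jjEquiv a b)
  refine ⟨{ toFun := fun x => ⟨e (fromBlocks x.1.1 0 0 x.2.1), ?_⟩
            map_one' := Subtype.ext (by simp)
            map_mul' := fun x y => Subtype.ext ?_ }, fun x y h => ?_⟩
  · rw [SymplecticGroup.mem_iff', ← jj_reindex]
    change e (fromBlocks x.1.1 0 0 x.2.1)ᵀ * e _ * _ = e _
    rw [← map_mul, ← map_mul]
    congr 1
    simp [fromBlocks_transpose, fromBlocks_multiply, SymplecticGroup.mem_iff'.1 x.1.2,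
      SymplecticGroup.mem_iff'.1 x.2.2]
  · change e _ = e _ * e _
    rw [← map_mul]; simp [fromBlocks_multiply]
  · have := e.injective (congrArg Subtype.val h)
    rw [fromBlocks_inj] at this
    exact Prod.ext (Subtype.ext this.1) (Subtype.ext this.2.2.2)

theorem EmbSp.comp {H K : Type*} [Group H] [Group K] {n : ℕ} (h : EmbSp F K n) (φ : H →* K)
    (hφ : Function.Injective φ) : EmbSp F H n := by
  obtain ⟨ψ, hψ⟩ := h
  exact ⟨ψ.comp φ, hψ.comp hφ⟩

theorem EmbSp.prod {H K : Type*} [Group H] [Group K] {a b : ℕ} (h : EmbSp F H a)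
    (h' : EmbSp F K b) : EmbSp F (H × K) (a + b) := by
  obtain ⟨ψ, hψ⟩ := h
  obtain ⟨φ, hφ⟩ := h'
  exact (embSp_prod a b).comp (ψ.prodMap φ) (hψ.prodMap hφ)

theorem EmbSp.mono {H : Type*} [Group H] {a n : ℕ} (h : EmbSp F H a) (hn : a ≤ n) :
    EmbSp F H n := by
  obtain ⟨b, rfl⟩ := Nat.exists_eq_add_of_le hn
  exact (h.prod (K := Unit) ⟨1, fun _ _ _ => rfl⟩).comp (MonoidHom.inl _ _)
    fun _ _ e => congrArg Prod.fst e

theorem EmbSp.pi {H : Type*} [Group H] {a : ℕ} (h : EmbSp F H a) (k : ℕ) :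
    EmbSp F (Fin k → H) (a * k) := by
  induction k with
  | zero => exact ⟨1, fun _ _ _ => Subsingleton.elim _ _⟩
  | succ k ih =>
    refine (ih.prod h).comp ((MonoidHom.pi fun i => Pi.evalMonoidHom (fun _ => H) i.succ).prod
      (Pi.evalMonoidHom (fun _ => H) 0)) fun x y e => ?_
    funext i
    exact Fin.cases (congrArg Prod.snd e) (fun i => congrFun (congrArg Prod.fst e) i) i

theorem embSp_zmod [Fintype F] {d t : ℕ} (hd : 0 < d)
    (h : t ∣ Fintype.card F ^ d - 1 ∨ t ∣ Fintype.card F ^ d + 1) :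
    EmbSp F (Multiplicative (ZMod t)) d := by
  obtain ⟨x, hx0, hx, hPM⟩ := HForm.exists_torus_elt (F := F) (K := AlgebraicClosure F) hd h
  obtain ⟨δ, h⟩ := HForm.formP_sp_torus hd x hx0 hPM
  obtain ⟨g, hg⟩ := h.toSp
  refine exists_zmod_hom g ?_
  rw [← hx, ← orderOf_submonoid, orderOf_eq_orderOf_iff]
  intro k
  have := hg k 1
  simpa using this

theorem factorization_two_mul {q r i : ℕ} (hr : r.Prime) (hr2 : r ≠ 2) (hq : 1 < q) (hi : 0 < i)
    (hir : i < r) : (q ^ (2 * i) - 1).factorization r = if orderOf (q : ZMod r) ∣ 2 * i then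
      (q ^ orderOf (q : ZMod r) - 1).factorization r else 0 := by
  split_ifs with h
  · obtain ⟨k, hk⟩ := h
    set d := orderOf (q : ZMod r)
    have hd : 0 < d := Nat.pos_of_ne_zero (by rintro h; rw [h] at hk; omega)
    have h1 : 1 < q ^ d := Nat.one_lt_pow hd.ne' hq
    have h2 : ¬ r ∣ ∑ j ∈ range k, (q ^ d) ^ j := by
      have h3 : r ∣ q ^ d - 1 := (dvd_pow_sub_one_iff q r d (by omega)).mpr dvd_rfl
      rw [((geom_modEq (q ^ d) k h1.le).of_dvd h3).dvd_iff dvd_rfl]
      intro h4
      rcases (Nat.Prime.dvd_mul hr).1 (hk ▸ h4.mul_left d) with h5 | h5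
      · exact hr2 ((Nat.prime_dvd_prime_iff_eq hr Nat.prime_two).1 h5)
      · exact Nat.not_dvd_of_pos_of_lt hi hir h5
    rw [hk, pow_mul, ← pred_mul_geom _ _ h1.le, Nat.factorization_mul (by omega)
      (by rintro h; simp [h] at h2), Finsupp.add_apply, Nat.factorization_eq_zero_of_not_dvd h2,
      add_zero]
  · exact Nat.factorization_eq_zero_of_not_dvd (by rwa [dvd_pow_sub_one_iff q r _ (by omega)])


/-- Sylow subgroups of `Sp_{2n}(q)` for large primes. Let `F` be a field with `q` elements and `r` an odd prime with `r > n` and `r ∤ q` (so `r` does not divide the order `2^n n!` of the Weyl group). Let `d` be the multiplicative order of `q` modulo `r`, `a` the number of `i` with `1 ≤ i ≤ n` and `d ∣ 2i` (the degrees being `2, 4, …, 2n`), and `m` the `r`-part of the value at `q` of the `d`-th cyclotomic polynomial. Then every Sylow `r`-subgroup of the symplectic group `Sp_{2n}(q)` is a direct product of `a` cyclic groups of order `m`. -/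
theorem result {F : Type*} [Field F] [Fintype F] {q : ℕ} (hq : Fintype.card F = q) (n : ℕ)
    (r : ℕ) [Fact r.Prime] (hr2 : r ≠ 2) (hrn : n < r) (hrq : ¬ r ∣ q) (P : Sylow r ↥(Matrix.symplecticGroup (Fin n) F)) :
    Nonempty (↥(P : Subgroup ↥(Matrix.symplecticGroup (Fin n) F)) ≃*
      (Fin ((Finset.Icc 1 n).filter (fun i => orderOf (q : ZMod r) ∣ 2 * i)).card →
        Multiplicative (ZMod (r ^ padicValNat r ((Polynomial.cyclotomic (orderOf (q : ZMod r)) ℤ).eval (q : ℤ)).natAbs)))) := by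
  subst hq
  obtain ⟨p, hp⟩ := CharP.exists F
  have : Fact p.Prime := ⟨CharP.char_is_prime F p⟩
  have hr : r.Prime := Fact.out
  have hd := orderOf_card_pos (F := F) p hr (by rintro rfl; exact hrq (char_dvd_card r))
  have hq : 1 < Fintype.card F := Fintype.one_lt_card
  rw [padicValNat_cyclotomic hq hd]
  set q := Fintype.card F with hqq
  set d := orderOf (q : ZMod r) with hdd
  set e := (q ^ d - 1).factorization r with he
  suffices h : EmbSp F (Fin #{i ∈ Icc 1 n | d ∣ 2 * i} → Multiplicative (ZMod (r ^ e))) n by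
    obtain ⟨ψ, hψ⟩ := h
    refine sylow_equiv_of_injective ψ hψ ?_ P
    have h0 : ∀ i ∈ Icc 1 n, q ^ (2 * i) - 1 ≠ 0 := fun i hi => by
      have := Nat.one_lt_pow (n := 2 * i) (by simp at hi; omega) hq; omega
    rw [Polar.card_symplecticGroup, Nat.factorization_mul (by positivity) (prod_ne_zero_iff.mpr h0),
      Finsupp.add_apply, Nat.factorization_eq_zero_of_not_dvd (mt hr.dvd_of_dvd_pow hrq), zero_add,
      Nat.factorization_prod h0, Finsupp.finsetSum_apply,
      sum_congr rfl fun i hi => factorization_two_mul hr hr2 hq (by simp at hi; omega)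
        (by simp at hi; omega), ← sum_filter, sum_const, smul_eq_mul, mul_comm, pow_mul,
      Nat.card_fun]
    simp [e, d]
  have hm : r ^ e ∣ q ^ d - 1 := Nat.ordProj_dvd _ r
  have hI : Icc 1 n = Ioc 0 n := by ext; simp; omega
  rcases Nat.even_or_odd' d with ⟨η, hη | hη⟩
  · have hη0 : 0 < η := by omega
    have : #{i ∈ Icc 1 n | d ∣ 2 * i} = n / η := by
      rw [← Nat.Ioc_filter_dvd_card_eq_div, hI, hη]
      simp only [Nat.mul_dvd_mul_iff_left two_pos]
    rw [this]
    refine ((embSp_zmod hη0 (Or.inr ?_)).pi _).mono (Nat.mul_div_le n η)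
    have e1 : q ^ d - 1 = (q ^ η + 1) * (q ^ η - 1) := by
      rw [hη, mul_comm 2, pow_mul, ← Nat.sq_sub_sq, one_pow]
    rw [e1] at hm
    refine Nat.Coprime.dvd_of_dvd_mul_right (Nat.Coprime.pow_left _ ?_) hm
    rw [hr.coprime_iff_not_dvd, dvd_pow_sub_one_iff q r _ (by omega)]
    intro h
    have := Nat.le_of_dvd hη0 h
    omega
  · have : #{i ∈ Icc 1 n | d ∣ 2 * i} = n / d := by
      rw [← Nat.Ioc_filter_dvd_card_eq_div, hI]
      congr 1
      refine filter_congr fun i _ => ?_
      exact Nat.Coprime.dvd_mul_left (Odd.coprime_two_right ⟨η, hη⟩)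
    rw [this]
    exact ((embSp_zmod hd (Or.inl hm)).pi _).mono (Nat.mul_div_le n d)

end Cfsg.Agent.S2381
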