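import Cfsg.Statements.S2391
import Cfsg.Agent.GLn.Card

set_option autoImplicit false
open Cfsg

namespace Cfsg.Agent.S2391

open Cfsg.Agent.GLn

section
variable {F : Type*} [Field F] {n : ℕ} (U : Subgroup (Matrix.SpecialLinearGroup (Fin n) F))

/-- The ascending series of fixed points. -/
def ser : ℕ → Submodule F (Fin n → F)
  | 0 => ⊥
  | i + 1 => ⨅ u : U, (ser i).comap (Matrix.mulVecLin u.1.1 - LinearMap.id)

theorem mem_ser_succ (i : ℕ) (v : Fin n → F) :
    v ∈ ser U (i + 1) ↔ ∀ u ∈ U, (u : Matrix (Fin n) (Fin n) F).mulVec v - v ∈ ser U i := by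
  simp [ser]

theorem ser_normalizer {g : Matrix.SpecialLinearGroup (Fin n) F}
    (hg : g ∈ Subgroup.normalizer (U : Set (Matrix.SpecialLinearGroup (Fin n) F))) (i : ℕ) :
    ∀ v ∈ ser U i, (g : Matrix (Fin n) (Fin n) F).mulVec v ∈ ser U i := by
  induction i with
  | zero => intro v hv; rw [ser, Submodule.mem_bot] at hv ⊢; rw [hv, Matrix.mulVec_zero]
  | succ i ih =>
    intro v hv
    rw [mem_ser_succ] at hv ⊢
    intro u hu
    have h1 : g⁻¹ * u * g ∈ U := (Subgroup.mem_normalizer_iff''.mp hg u).mp hu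
    have h2 := ih _ (hv _ h1)
    rw [Matrix.mulVec_sub, Matrix.mulVec_mulVec, ← Matrix.SpecialLinearGroup.coe_mul,
      show g * (g⁻¹ * u * g) = u * g by group, Matrix.SpecialLinearGroup.coe_mul,
      ← Matrix.mulVec_mulVec] at h2
    exact h2

theorem ser_le_succ (i : ℕ) : ser U i ≤ ser U (i + 1) := fun v hv =>
  (mem_ser_succ U i v).mpr fun _ hu =>
    sub_mem (ser_normalizer U (Subgroup.le_normalizer hu) i v hv) hv

theorem ser_lt_succ [Fintype F] (p : ℕ) [Fact p.Prime] [CharP F p] (hU : IsPGroup p U) (i : ℕ)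
    (h : ser U i ≠ ⊤) : ser U i < ser U (i + 1) := by
  let act : MulAction U ((Fin n → F) ⧸ ser U i) :=
    { smul := fun u => Submodule.mapQ _ _ (Matrix.mulVecLin u.1.1)
        (ser_normalizer U (Subgroup.le_normalizer u.2) i)
      one_smul := fun x => by
        obtain ⟨v, rfl⟩ := Submodule.Quotient.mk_surjective _ x
        exact congrArg Submodule.Quotient.mk (Matrix.one_mulVec v)
      mul_smul := fun a b x => by
        obtain ⟨v, rfl⟩ := Submodule.Quotient.mk_surjective _ x
        exact congrArg Submodule.Quotient.mk (Matrix.mulVec_mulVec v a.1.1 b.1.1).symm }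
  have : Nontrivial ((Fin n → F) ⧸ ser U i) := Submodule.Quotient.nontrivial_iff.mpr h
  have : Finite ((Fin n → F) ⧸ ser U i) := Quotient.finite _
  have hd : p ∣ Nat.card ((Fin n → F) ⧸ ser U i) := by
    rw [Module.natCard_eq_pow_finrank (K := F), Nat.card_eq_fintype_card]
    exact (char_dvd_card p).trans (dvd_pow_self _ Module.finrank_pos.ne')
  obtain ⟨b, hb, hb0⟩ := hU.exists_fixed_point_of_prime_dvd_card_of_fixed_point _ hd (a := 0)
    fun u => map_zero (Submodule.mapQ _ _ (Matrix.mulVecLin u.1.1)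
        (ser_normalizer U (Subgroup.le_normalizer u.2) i))
  obtain ⟨v, rfl⟩ := Submodule.Quotient.mk_surjective _ b
  refine lt_of_le_of_ne (ser_le_succ U i) fun he => hb0 ?_
  symm
  rw [Submodule.Quotient.mk_eq_zero, he, mem_ser_succ]
  intro u hu
  exact (Submodule.Quotient.eq _).mp (hb ⟨u, hu⟩)

end

/-- The Borel–Tits property of `SL_n(q)` in flag form: for a field `F` of characteristic `p` with finitely many elements and a non-trivial `p`-subgroup `U` of `SL_n(F)`, there is a flag `0 = V₀ < V₁ < ⋯ < V_{k+1} = F^n` with at least one proper non-zero member such that every element of the normaliser of `U` maps each `V_i` onto itself and every element of `U` acts trivially on each quotient `V_{i+1}/V_i` (so the normaliser lies in the parabolic subgroup of the flag and `U` in its unipotent radical). -/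
theorem result {F : Type*} [Field F] [Fintype F] (p : ℕ) [Fact p.Prime] [CharP F p] (n : ℕ)
    (U : Subgroup (Matrix.SpecialLinearGroup (Fin n) F)) (hU : IsPGroup p ↥U) (hne : U ≠ ⊥) :
    ∃ (k : ℕ) (V : Fin (k + 2) → Submodule F (Fin n → F)), 1 ≤ k ∧ StrictMono V ∧ V 0 = ⊥ ∧ V (Fin.last (k + 1)) = ⊤ ∧
      (∀ g ∈ Subgroup.normalizer (U : Set (Matrix.SpecialLinearGroup (Fin n) F)), ∀ i, (V i).map (Matrix.mulVecLin (g : Matrix (Fin n) (Fin n) F)) = V i) ∧
      (∀ u ∈ U, ∀ i : Fin (k + 1), ∀ v ∈ V i.succ, (u : Matrix (Fin n) (Fin n) F).mulVec v - v ∈ V (Fin.castSucc i)) := by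
  classical
  have hex : ∃ m, ser U m = ⊤ := by
    by_contra! h
    exact not_strictMono_of_wellFoundedGT (ser U)
      (strictMono_nat_of_lt_succ fun i => ser_lt_succ U p hU i (h i))
  have h1 : ser U 1 ≠ ⊤ := fun h => hne (by
    rw [eq_bot_iff]
    intro u hu
    rw [Subgroup.mem_bot]
    apply Subtype.ext
    apply Matrix.toLin'.injective
    refine LinearMap.ext fun v => ?_
    have := (mem_ser_succ U 0 v).mp (h ▸ Submodule.mem_top) u hu
    rw [ser, Submodule.mem_bot, sub_eq_zero] at this
    simpa using this)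
  have h0 : ser U 0 ≠ ⊤ := fun h => h1 (top_le_iff.mp (h ▸ ser_le_succ U 0))
  have hm := Nat.find_spec hex
  have hmin := fun m => Nat.find_min hex (m := m)
  have h2 : 2 ≤ Nat.find hex := by
    by_contra h
    have : Nat.find hex = 0 ∨ Nat.find hex = 1 := by omega
    rcases this with h | h <;> rw [h] at hm <;> contradiction
  obtain ⟨k, hk⟩ : ∃ k, Nat.find hex = k + 1 := ⟨Nat.find hex - 1, by omega⟩
  rw [hk] at hm hmin h2
  refine ⟨k, fun i => ser U i, by omega, ?_, rfl, hm, fun g hg i => ?_, fun u hu i v hv => ?_⟩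
  · exact Fin.strictMono_iff_lt_succ.mpr fun i => ser_lt_succ U p hU i (hmin i i.2)
  · apply le_antisymm
    · rintro _ ⟨v, hv, rfl⟩
      exact ser_normalizer U hg i v hv
    · intro v hv
      refine ⟨_, ser_normalizer U (inv_mem hg) i v hv, ?_⟩
      rw [Matrix.mulVecLin_apply, Matrix.mulVec_mulVec, ← Matrix.SpecialLinearGroup.coe_mul,
        mul_inv_cancel, Matrix.SpecialLinearGroup.coe_one, Matrix.one_mulVec]
  · exact (mem_ser_succ U i v).mp hv u hu

end Cfsg.Agent.S2391
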