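import Cfsg.Statements.S2392
import Cfsg.Agent.Forms.MinDegSp

set_option autoImplicit false
open scoped MatrixGroups
open Cfsg

namespace Cfsg.Agent.S2392

open Cfsg.Agent.Forms Module Finset

theorem trans_of_step {F V : Type*} [Field F] [AddCommGroup V] [Module F V] [FiniteDimensional F V]
    (H : Submodule F V) (h2 : 2 ≤ finrank F H) (R : V → V → Prop)
    (htr : ∀ x y z, R x y → R y z → R x z)
    (key : ∀ v ∈ H, ∀ a ∈ H, v ∉ Submodule.span F {a - v} → R v a) :
    ∀ v ∈ H, ∀ a ∈ H, v ≠ 0 → a ≠ 0 → R v a := by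
  have key2 : ∀ v a : V, v ≠ 0 → a ∉ Submodule.span F {v} →
      v ∉ Submodule.span F {a - v} ∧ a ∉ Submodule.span F {v - a} := by
    intro v a hv h
    constructor
    · intro h1
      obtain ⟨c, hc⟩ := Submodule.mem_span_singleton.1 h1
      have hc0 : c ≠ 0 := by rintro rfl; exact hv (by rw [← hc, zero_smul])
      refine h (Submodule.mem_span_singleton.2 ⟨c⁻¹ + 1, ?_⟩)
      rw [add_smul, one_smul]
      conv_lhs => enter [1]; rw [← hc, inv_smul_smul₀ hc0]
      abel
    · intro h1
      obtain ⟨c, hc⟩ := Submodule.mem_span_singleton.1 h1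
      by_cases hc0 : c + 1 = 0
      · rw [eq_neg_of_add_eq_zero_left hc0, neg_one_smul, neg_sub, sub_eq_self] at hc
        exact hv hc
      · refine h (Submodule.mem_span_singleton.2 ⟨(c + 1)⁻¹ * c, ?_⟩)
        rw [mul_smul, inv_smul_eq_iff₀ hc0, add_smul, one_smul]
        conv_rhs => enter [2]; rw [← hc]
        module
  intro v hv a ha hv0 ha0
  by_cases h : a ∈ Submodule.span F {v}
  · obtain ⟨w, hw, hw'⟩ := exists_mem_notMem_span h2 v
    exact htr _ _ _ (key v hv w hw (key2 v w hv0 hw').1) (key w hw a ha (key2 a w ha0 fun h' =>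
      hw' (Submodule.span_le.2 (Set.singleton_subset_iff.2 h) h')).2)
  · exact key v hv a ha (key2 v a hv0 h).1

variable {F : Type*} [Field F] {n : ℕ}

theorem exists_tv (η : Dual F (Fin n → F)) {a : Fin n → F} (h : η a = 0) :
    ∃ g : Matrix.SpecialLinearGroup (Fin n) F, ∀ x, sllin g x = x + η x • a := by
  obtain ⟨g, hg⟩ := exists_sllin_eq (f := LinearMap.transvection η a)
    (by rw [LinearMap.transvection.det, h, add_zero])
  exact ⟨g, fun x => by rw [hg, LinearMap.transvection.apply]⟩

theorem bound [Fintype F] (φ : Dual F (Fin n → F)) (h2 : 2 ≤ finrank F (LinearMap.ker φ))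
    {K M : Type*} [Field K] [IsAlgClosed K] [AddCommGroup M] [Module K M] [FiniteDimensional K M]
    (ρ : Matrix.SpecialLinearGroup (Fin n) F →* End K M) {p : ℕ} (hpF : (p : F) = 0)
    (hpK : (p : K) ≠ 0) {g : Matrix.SpecialLinearGroup (Fin n) F} {a : LinearMap.ker φ}
    (hg : ∀ x, sllin g x = x + φ x • a) (h : ρ g ≠ 1) :
    Nat.card (LinearMap.ker φ) - 1 ≤ finrank K M := by
  classical
  have ext' : ∀ g h : Matrix.SpecialLinearGroup (Fin n) F, (∀ x, sllin g x = sllin h x) → g = h :=
    fun g h e => sllin_injective (LinearMap.ext e)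
  choose T hT using fun w : LinearMap.ker φ => exists_tv φ w.2
  have hT1 : ∀ w w', T (w + w') = T w * T w' := fun w w' => ext' _ _ fun x => by
    rw [sllin_mul_apply, hT, hT, hT, map_add, map_smul, w'.2, Submodule.coe_add]
    module
  have hT0 : T 0 = 1 := ext' _ _ fun x => by rw [hT, sllin_one]; simp
  have hc : ∀ w w' x, ρ (T w) (ρ (T w') x) = ρ (T w') (ρ (T w) x) := fun w w' x => by
    rw [← End.mul_apply, ← End.mul_apply, ← map_mul, ← map_mul, ← hT1, ← hT1, add_comm]
  have hpow : ∀ (m : ℕ) w, T w ^ m = T ((m : F) • w) := by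
    intro m w
    induction m with
    | zero => rw [pow_zero, Nat.cast_zero, zero_smul, hT0]
    | succ m ih => rw [pow_succ, ih, ← hT1, Nat.cast_succ, add_smul, one_smul]
  obtain ⟨χ, v, hv0, hv, hχ⟩ := exists_weight_ne_one (fun w => ρ (T w)) hc (i₀ := a) hpK
    (by rw [← map_pow, hpow, hpF, zero_smul, hT0, map_one])
    (by rwa [show T a = g from ext' _ _ fun x => by rw [hT, hg]])
  replace hv := mem_wsp.1 hv
  have hs1 : ∀ x y, χ (x + y) = χ x * χ y := fun x y => smul_left_injective K hv0 (by
    simp only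
    rw [← hv, hT1, map_mul, End.mul_apply, hv, map_smul, hv, smul_smul, mul_comm])
  have hs0 : χ 0 = 1 := smul_left_injective K hv0 (by
    simp only
    rw [← hv, hT0, map_one, End.one_apply, one_smul])
  have haW : a ∉ charKer (F := F) χ hs1 hs0 := fun h => hχ (by simpa using h 1)
  have hinj : ∀ {t t' : F}, (∀ s : F, χ (s • t • a) = χ (s • t' • a)) → t = t' := fun h =>
    eq_of_char_mul_eq (ψ := fun s : F => χ (s • a)) (fun s t => by rw [add_smul, hs1])
      (by rw [zero_smul, hs0]) ⟨1, by rwa [one_smul]⟩ fun s => by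
        simpa only [smul_smul, mul_comm s] using h s
  have := Fintype.ofFinite (LinearMap.ker φ)
  let St := {g : Matrix.SpecialLinearGroup (Fin n) F // ∀ x, φ (sllin g x) = φ x}
  have : Fintype St := Fintype.ofFinite _
  let γ : St → LinearMap.ker φ → LinearMap.ker φ := fun g x => ⟨sllin g.1 x.1, (g.2 x).trans x.2⟩
  have hγ : ∀ g, Function.Bijective (γ g) := fun g => Finite.injective_iff_bijective.1 fun x y h =>
    Subtype.ext (sllin_inj _ (congrArg Subtype.val h))
  have hb := orbit_bound (fun x (s : F) => χ (s • x)) _ haW (exists_sub_mem_charKer χ hs1 hs0 haW)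
    (k := 1) (fun x hx => by
      refine card_le_one.2 fun t ht t' ht' => hinj fun s => ?_
      simp only [mem_filter, mem_univ, true_and] at ht ht'
      have := congrFun (ht.trans ht'.symm) s
      simpa only [smul_add, hs1, hx s, one_mul] using this)
    (fun x hx t ht => hinj fun s => by
      have := congrFun ht s
      simp only [smul_add, hs1, hx s, one_mul] at this
      rw [this, zero_smul, smul_zero, hs0])
    ((univ.image fun g : St => χ ∘ γ g).image fun χ x (s : F) => χ (s • x))
    (by
      intro Ψ hΨ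
      simp only [mem_image, mem_univ, true_and, exists_exists_eq_and] at hΨ
      obtain ⟨g, rfl⟩ := hΨ
      refine ⟨Equiv.ofBijective _ (hγ g), funext fun x => funext fun s => congrArg χ ?_⟩
      exact Subtype.ext (map_smul (sllin g.1) s x.1))
    (by
      intro v hv
      obtain ⟨g, hg⟩ := trans_of_step (LinearMap.ker φ) h2 (fun v a => ∃ g : St, sllin g.1 v = a)
        (by
          rintro x y z ⟨g, rfl⟩ ⟨g', rfl⟩
          exact ⟨⟨g' * g, fun x => by rw [sllin_mul_apply, g'.2, g.2]⟩, sllin_mul_apply _ _ _⟩)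
        (by
          intro v hv a ha h
          obtain ⟨η, hη, hη'⟩ := Submodule.exists_dual_map_eq_bot_of_notMem h inferInstance
          have h1 : η (a - v) = 0 := by
            rw [← Submodule.mem_bot F, ← hη']
            exact Submodule.mem_map_of_mem (Submodule.mem_span_singleton_self _)
          obtain ⟨g, hg⟩ := exists_tv ((η v)⁻¹ • η) (a := a - v) (by simp only [LinearMap.smul_apply, h1, smul_zero])
          refine ⟨⟨g, fun x => ?_⟩, ?_⟩
          · rw [hg, map_add, map_smul, show φ (a - v) = 0 from Submodule.sub_mem _ ha hv, smul_zero,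
              add_zero]
          · rw [hg, LinearMap.smul_apply, smul_eq_mul, inv_mul_cancel₀ hη, one_smul, add_sub_cancel])
        v v.2 a a.2 (fun h => hv (Subtype.ext h)) (fun h => haW (by
          rw [show a = 0 from Subtype.ext h]; exact Submodule.zero_mem _))
      refine ⟨Equiv.ofBijective _ (hγ g), Subtype.ext hg, fun η hη => ?_⟩
      obtain ⟨η', hη'⟩ := LinearMap.exists_extend η
      have hη'' : ∀ x : LinearMap.ker φ, η' x = η x := fun x => LinearMap.congr_fun hη' x
      obtain ⟨e, he⟩ := exists_tv η' (a := a) (by rw [hη'', hη])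
      simp only [mem_image, mem_univ, true_and, exists_exists_eq_and]
      refine ⟨⟨e * g, fun x => ?_⟩, funext fun x => funext fun s => congrArg χ (Subtype.ext ?_)⟩
      · rw [sllin_mul_apply, he, map_add, map_smul, a.2, smul_zero, add_zero, g.2]
      · change sllin (e * g.1) (s • x.1) = s • (sllin g.1 x.1 + η (γ g x) • a.1)
        rw [map_smul, sllin_mul_apply, he, ← hη''])
  have h1 := card_le_of_wsp (fun w => ρ (T w)) hc ⊤ (univ.image fun g : St => χ ∘ γ g) (by
    intro χ' hχ'
    obtain ⟨g, -, rfl⟩ := mem_image.1 hχ'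
    refine ⟨ρ g.1⁻¹ v, trivial, fun h => hv0 ?_, mem_wsp.2 fun w => ?_⟩
    · have := congrArg (ρ g.1) h
      rwa [← End.mul_apply, ← map_mul, mul_inv_cancel, map_one, map_zero] at this
    · have e : T w * g.1⁻¹ = g.1⁻¹ * T (γ g w) := ext' _ _ fun x => by
        obtain ⟨x, rfl⟩ := sllin_surj g.1 x
        rw [sllin_mul_apply, sllin_mul_apply, hT, hT, sllin_inv_apply, map_add, map_smul,
          sllin_inv_apply, sllin_inv_apply, g.2]
      rw [← End.mul_apply, ← map_mul, e, map_mul, End.mul_apply, hv, map_smul]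
      rfl)
  rw [finrank_top] at h1
  rw [Nat.card_eq_fintype_card]
  exact hb.trans ((one_mul _).le.trans (card_image_le.trans h1))

/-- A lower bound for representations in cross characteristic: for `n ≥ 3` and a field `F` with `q` elements, every homomorphism from `SL_n(F)` to `GL_d(K)`, `K` a field of characteristic different from that of `F`, whose kernel is central has `d ≥ q^(n-1) - 1`. -/
theorem result {F : Type*} [Field F] [Fintype F] {q : ℕ} (hq : Fintype.card F = q) (n : ℕ) (hn : 3 ≤ n)
    {K : Type*} [Field K] (hK : ringChar K ≠ ringChar F) {d : ℕ}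
    (ρ : Matrix.SpecialLinearGroup (Fin n) F →* GL (Fin d) K) (hker : ρ.ker ≤ Subgroup.center (Matrix.SpecialLinearGroup (Fin n) F)) :
    q ^ (n - 1) - 1 ≤ d := by
  let i : Fin n := ⟨0, by omega⟩
  let j : Fin n := ⟨1, by omega⟩
  have hij : i ≠ j := by simp [i, j]
  let φ : Dual F (Fin n → F) := LinearMap.proj i
  have h1 := finrank_inf_ker_add_one ⊤ φ fun h => by
    have : φ (Pi.single i 1) = 0 := h trivial
    simp [φ] at this
  rw [top_inf_eq, finrank_top, finrank_fin_fun] at h1
  have h2 : φ (Pi.single j 1) = 0 := by simp [φ, hij]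
  obtain ⟨g, hg⟩ := exists_tv φ h2
  obtain ⟨g', hg'⟩ := exists_tv (LinearMap.proj j : Dual F (Fin n → F)) (a := Pi.single i 1)
    (by simp [hij.symm])
  have h3 : extRep ρ g ≠ 1 := by
    intro h
    have h2 := Subgroup.mem_center_iff.1 (hker (extRep_eq_one h)) g'
    have h3 := congrFun (congrArg (fun k => sllin k (Pi.single i 1)) h2) i
    simp [sllin_mul_apply, hg, hg', φ, hij, hij.symm] at h3
  have h4 := bound φ (by omega) (extRep ρ) (CharP.cast_eq_zero F (ringChar F))
    (cast_ringChar_ne_zero hK) (a := ⟨_, h2⟩) hg h3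
  rwa [finrank_fin_fun, natCard_eq_pow_finrank (K := F), Nat.card_eq_fintype_card, hq,
    show finrank F (LinearMap.ker φ) = n - 1 by omega] at h4

end Cfsg.Agent.S2392
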