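import Cfsg.Statements.S2393
import Cfsg.Agent.Polar.RepBound
import Cfsg.Agent.HForm.Bridge

set_option autoImplicit false

open Cfsg

namespace Cfsg.Agent.S2393

open Cfsg.Agent.Polar

/-- A lower bound for representations in cross characteristic: for `n ≥ 2` and a field `F` with `q` elements, `q` odd, every homomorphism from the symplectic group `Sp_{2n}(F)` to `GL_d(K)`, `K` a field of characteristic different from that of `F`, whose kernel is central has `d ≥ q^(n-1)(q-1)/2`. -/
theorem result {F : Type*} [Field F] [Fintype F] {q : ℕ} (hq : Fintype.card F = q) (hodd : Odd q) (n : ℕ) (hn : 2 ≤ n)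
    {K : Type*} [Field K] (hK : ringChar K ≠ ringChar F) {d : ℕ}
    (ρ : ↥(Matrix.symplecticGroup (Fin n) F) →* GL (Fin d) K) (hker : ρ.ker ≤ Subgroup.center ↥(Matrix.symplecticGroup (Fin n) F)) :
    q ^ (n - 1) * (q - 1) / 2 ≤ d := by
  let L := AlgebraicClosure K
  have h2 : (2 : F) ≠ 0 := by
    intro h
    have h1 : ringChar F = 2 := by
      have := (ringChar.spec F 2).1 (by simpa using h)
      exact (Nat.prime_dvd_prime_iff_eq (CharP.char_is_prime F _) Nat.prime_two).1 this
    have := FiniteField.even_card_of_char_two h1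
    rw [hq] at this
    rw [Nat.odd_iff] at hodd
    omega
  have hL : (ringChar F : L) ≠ 0 := by
    intro h
    have h1 : (ringChar F : K) = 0 := by
      apply (algebraMap K L).injective
      rw [map_natCast, h, map_zero]
    rw [ringChar.spec] at h1
    rcases (Nat.dvd_prime (CharP.char_is_prime F _)).1 h1 with h3 | h3
    · exact CharP.ringChar_ne_one h3
    · exact hK h3
  let φ : GL (Fin d) K →* Module.End L (Fin d → L) :=
    (Matrix.toLinAlgEquiv' (R := L) (n := Fin d)).toMonoidHom.comp
      ((algebraMap K L).mapMatrix.toMonoidHom.comp (Units.coeHom _))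
  have hφ : Function.Injective φ := fun a b hab =>
    Units.ext (Matrix.map_injective (algebraMap K L).injective
      ((Matrix.toLinAlgEquiv' (R := L) (n := Fin d)).injective hab))
  obtain ⟨g, hg⟩ : ∃ g, ρ g ≠ 1 := by
    by_contra hc
    push Not at hc
    have hcomm : ∀ a b : (spStd F n).Iso, a * b = b * a := fun a b => by
      obtain ⟨a, rfl⟩ := (spEquiv F n).surjective a
      obtain ⟨b, rfl⟩ := (spEquiv F n).surjective b
      rw [← map_mul, ← map_mul, Subgroup.mem_center_iff.1 (hker (hc b)) a]
    have : Nontrivial (Fin n ⊕ Fin n → F) :=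
      Module.nontrivial_of_finrank_pos (R := F) (by rw [finrank_spStd]; omega)
    obtain ⟨e, he⟩ := exists_ne (0 : Fin n ⊕ Fin n → F)
    obtain ⟨f, hf⟩ := (spStd_nd (F := F) n).exists_hyp (PQ.sp_sing e) he
    have h1 := PQ.EOk.lam hf.left (c := 1) trivial
    have h3 := h1.conj_eich ((spStd F n).eich f 0 1)
    rw [hcomm ((spStd F n).eich f 0 1), mul_inv_cancel_right, smul_zero,
      (PQ.EOk.lam hf.right (c := 1) trivial).eich_smul] at h3
    have h4 := congrArg (fun g => (spStd F n).B (g • e) e) h3
    simp only [h1.eich_smul_e, PQ.sp_B_self] at h4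
    rw [(PQ.EOk.lam (PQ.sp_sing _) (c := 1) trivial).eich_smul] at h4
    simp [hf.pair, hf.pair', PQ.sp_B_self] at h4
  have h := PQ.sp_rep_bound (K := L) (spStd_nd n) h2 (finrank_spStd n) hL
    (φ.comp (ρ.comp (spEquivEG n).symm.toMonoidHom)) ⟨spEquivEG n g, by
      simpa using fun h => hg (hφ (by rw [h, map_one]))⟩
  rw [Module.finrank_fin_fun, Nat.card_eq_fintype_card, hq] at h
  refine Nat.div_le_of_le_mul (le_trans ?_ h)
  obtain ⟨m, rfl⟩ : ∃ m, n = m + 1 := ⟨n - 1, by omega⟩
  rw [Nat.add_sub_cancel, Nat.mul_sub, mul_one, ← pow_succ]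
  exact Nat.sub_le_sub_left (Nat.one_le_pow _ _ hodd.pos) _

end Cfsg.Agent.S2393
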