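import Cfsg.Statements.S2394
import Cfsg.Agent.Forms.SLPow

set_option autoImplicit false
open scoped MatrixGroups
open Cfsg

namespace Cfsg.Agent.S2394

open Cfsg.Agent.Forms Module

theorem exists_dihedral (F : Type*) [Field F] [Fintype F] :
    ∃ (a b : SL(2, F)) (m : ℕ), b * a * b⁻¹ = a⁻¹ ∧ a * a ≠ 1 ∧ (m : F) ≠ 0 ∧ a ^ m = 1 := by
  suffices ∃ (A B : Matrix (Fin 2) (Fin 2) F) (m : ℕ), A.det = 1 ∧ B.det = 1 ∧ A * (B * A) = B ∧
      A * A ≠ 1 ∧ (m : F) ≠ 0 ∧ A ^ m = 1 by
    obtain ⟨A, B, m, hA, hB, h1, h2, h3, h4⟩ := this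
    obtain ⟨a, rfl⟩ : ∃ a : SL(2, F), a = A := ⟨⟨A, hA⟩, rfl⟩
    obtain ⟨b, rfl⟩ : ∃ b : SL(2, F), b = B := ⟨⟨B, hB⟩, rfl⟩
    refine ⟨a, b, m, ?_, fun h => h2 (congrArg Subtype.val h), h3, Subtype.ext h4⟩
    rw [mul_inv_eq_iff_eq_mul, eq_inv_mul_iff_mul_eq]
    exact Subtype.ext h1
  by_cases h2 : (2 : F) = 0
  · refine ⟨!![0, 1; -1, -1], !![0, 1; -1, 0], 3, by simp, by simp, ?_, fun h => ?_, ?_, ?_⟩
    · ext i j
      fin_cases i <;> fin_cases j <;> simp
      all_goals first | linear_combination h2 | linear_combination -h2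
    · simpa using congrFun (congrFun h 0) 1
    · rw [show ((3 : ℕ) : F) = 1 by push_cast; linear_combination h2]
      exact one_ne_zero
    · simp [pow_succ, Matrix.one_fin_two]
  · obtain ⟨x, y, hxy⟩ : ∃ x y : F, x ^ 2 + y ^ 2 = -1 := by
      have := ringChar.charP F
      have := Fact.mk (CharP.char_is_prime F (ringChar F))
      obtain ⟨x, y, h⟩ := CharP.sq_add_sq F (ringChar F) (-1)
      exact ⟨x, y, by simpa using h⟩
    refine ⟨!![0, 1; -1, 0], !![x, y; y, -x], 4, by simp, ?_, by simp, fun h => h2 ?_, ?_, ?_⟩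
    · rw [Matrix.det_fin_two_of]
      linear_combination -hxy
    · have : (-1 : F) = 1 := by simpa using congrFun (congrFun h 0) 0
      linear_combination -this
    · rw [show ((4 : ℕ) : F) = 2 * 2 by norm_num]
      exact mul_ne_zero h2 h2
    · simp [pow_succ, Matrix.one_fin_two]

/-- The smallest degree of a faithful representation of the symplectic group `Sp_{2n}(q)` over its own field `F_q` is `2n`: every injective homomorphism from `Sp_{2n}(F)` to `GL_d(F)`, `F` the field with `q` elements, has `d ≥ 2n`. -/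
theorem result {F : Type*} [Field F] [Fintype F] (n : ℕ) {d : ℕ}
    (ρ : ↥(Matrix.symplecticGroup (Fin n) F) →* GL (Fin d) F) (hρ : Function.Injective ρ) : 2 * n ≤ d := by
  obtain ⟨a, b, m, hab, ha, hm, ham⟩ := exists_dihedral F
  have h1 : ∀ g, extRep ρ (slPow (Fin n) F g) = 1 → g = 1 := fun g hg => by
    rw [← map_eq_one_iff _ slPow_injective, ← map_eq_one_iff ρ hρ]
    exact extRep_eq_one hg
  have := two_mul_le_finrank ((extRep ρ).comp (slPow (Fin n) F)) h1 hab ha (m := m)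
    (by rwa [← map_natCast (algebraMap F (AlgebraicClosure F)), map_ne_zero]) ham
  rwa [finrank_fin_fun] at this

end Cfsg.Agent.S2394
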