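import Cfsg.Statements.S2399
import Cfsg.Agent.RGD.Univ

set_option autoImplicit false
open scoped MatrixGroups
open Cfsg

namespace Cfsg.Agent.S2399

/-- Projective representations in the natural characteristic lift: for each of the types G₂, B₂, D₄, F₄, E₆, E₇, E₈ over any field `K` (for types B₂ and G₂ the field must have more than two elements — the cases where the Chevalley group is not simple are set aside), every homomorphism from the Chevalley group to `PGL_n(L) = GL_n(L)/Z`, `L` a field of the same characteristic as `K`, lifts uniquely to a homomorphism from the group Δ presented by (R1), (R2) to `GL_n(L)`, compatibly with the projection Δ → Chevalley group sending x̄_r(t) to x_r(t). -/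
theorem result {K : Type*} [Field K] (D : Cfsg.Lie.ChevalleyDatum) (hD : D ∈ [Cfsg.Lie.chevG2, Cfsg.Lie.chevB2, Cfsg.Lie.chevD4, Cfsg.Lie.chevF4, Cfsg.Lie.chevE6, Cfsg.Lie.chevE7, Cfsg.Lie.chevE8]) (hK : D ∈ [Cfsg.Lie.chevB2, Cfsg.Lie.chevG2] → ∃ x : K, x ≠ 0 ∧ x ≠ 1)
    (θ : D.SteinbergCover K →* ↥(D.group K))
    (hθ : ∀ (r : ℕ) (t : K), r < D.nroots → ((θ (D.scGen K r t) : GL D.Idx K) : Matrix D.Idx D.Idx K) = D.x K r t)
    {L : Type*} [Field L] (hL : ringChar L = ringChar K) {n : ℕ}
    (φ : ↥(D.group K) →* GL (Fin n) L ⧸ Subgroup.center (GL (Fin n) L)) :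
    ∃! ψ : D.SteinbergCover K →* GL (Fin n) L, (QuotientGroup.mk' (Subgroup.center (GL (Fin n) L))).comp ψ = φ.comp θ := by
  classical
  obtain ⟨C⟩ := Chev.cert_of_mem hD
  have hp := (Stein.scSys D K).perfect hD hK Stein.scSys_closure
  have hπ := QuotientGroup.mk'_surjective (Subgroup.center (GL (Fin n) L))
  have hc := (QuotientGroup.ker_mk' (Subgroup.center (GL (Fin n) L))).le
  have h1 := Cover.pbFst_surjective _ (φ.comp θ) hπ
  have h2 := Cover.pbFst_ker_le _ (φ.comp θ) hc
  obtain ⟨s, hs⟩ : ∃ s, (Cover.pbFst _ (φ.comp θ)).comp s = MonoidHom.id _ := by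
    by_cases hF : ∃ F : Finset K, 4 < F.card
    · obtain ⟨F, hF⟩ := hF
      exact RGD.sc_split_big hD hF h1 h2
    haveI : Finite K := by
      by_contra h
      rw [not_finite_iff_infinite] at h
      obtain ⟨F, hF'⟩ := Infinite.exists_subset_card_eq K 5
      exact hF ⟨F, by omega⟩
    haveI := Fact.mk (CharP.char_is_prime K (ringChar K))
    haveI : CharP L (ringChar K) := hL ▸ ringChar.charP L
    refine RGD.sc_split_tf C (RGD.genC_of_mem hD) hp (p := ringChar K) h1 h2 fun c hc' h => ?_
    have h3 := (Cover.pbKerEquiv _ (φ.comp θ) ⟨c, hc'⟩).2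
    obtain ⟨a, ha⟩ := Matrix.GeneralLinearGroup.mem_center_iff_val_mem_range_scalar.1 (hc h3)
    have h4 : Cover.pbSnd _ (φ.comp θ) c ^ ringChar K = 1 := by rw [← map_pow, h, map_one]
    refine Cover.pb_ext _ _ (hc'.trans (map_one _).symm) (Units.ext ?_)
    have h5 := congrArg Units.val h4
    change _ = (Cover.pbSnd _ (φ.comp θ) c).val at ha
    rw [Units.val_pow_eq_pow_val, ← ha, ← map_pow] at h5
    rw [← ha, map_one]
    ext i j
    have h6 : a ^ ringChar K = 1 := by simpa using congrFun (congrFun h5 i) i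
    have h7 : (a - 1) ^ ringChar K = 0 := by rw [sub_pow_char, h6, one_pow, sub_self]
    rw [sub_eq_zero.1 (pow_eq_zero_iff (Fact.out : (ringChar K).Prime).ne_zero |>.1 h7), map_one,
      Units.val_one]
  obtain ⟨τ, hτ⟩ := RGD.exists_lift_of_split _ _ hs
  exact ⟨τ, hτ, fun τ' h => RGD.lift_unique hp hc (h.trans hτ.symm)⟩

end Cfsg.Agent.S2399
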