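import Cfsg.Statements.S2401
import Cfsg.Agent.RGD.TypeA

set_option autoImplicit false
open Cfsg

namespace Cfsg.Agent.S2401

open Cfsg.Agent.RGD Subgroup in
open scoped commutatorElement in
theorem aux {K : Type*} [Field K] [Finite K] (m : ℕ) (hm : 2 ≤ m)
    (R : Set (FreeGroup (ARoot (m + 1) × K)))
    (hR : ∀ g ∈ R, FreeGroup.lift (fun p : ARoot (m + 1) × K => (slFam K (m + 1)).x p.1 p.2) g = 1)
    (h1 : ∀ a t u, (PresentedGroup.of (a, t + u) : PresentedGroup R) =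
      PresentedGroup.of (a, t) * PresentedGroup.of (a, u))
    (h2 : ∀ (a b : ARoot (m + 1)) (t u : K), a.1.1 ≠ b.1.2 → a.1.2 ≠ b.1.1 →
      ⁅(PresentedGroup.of (a, t) : PresentedGroup R), (PresentedGroup.of (b, u) : PresentedGroup R)⁆ = 1)
    (h3 : ∀ (a b : ARoot (m + 1)) (h : a.1.1 ≠ b.1.2) (t u : K), a.1.2 = b.1.1 →
      ⁅(PresentedGroup.of (a, t) : PresentedGroup R), (PresentedGroup.of (b, u) : PresentedGroup R)⁆ =
        PresentedGroup.of (⟨(a.1.1, b.1.2), h⟩, t * u)) :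
    ∃ e : PresentedGroup R ≃* Matrix.SpecialLinearGroup (Fin (m + 1)) K,
      ∀ a t, e (PresentedGroup.of (a, t)) = (slFam K (m + 1)).x a t := by
  let F : Fam (ARoot (m + 1)) K (PresentedGroup R) := ⟨fun a t => PresentedGroup.of (a, t), h1⟩
  let θ := PresentedGroup.toGroup hR
  have hθ : ∀ r t, θ (F.x r t) = (slFam K (m + 1)).x r t := fun r t => PresentedGroup.toGroup.of hR
  have hc : (typeA m).CommRel F.X := by
    intro r s _ h5
    refine F.comm_X_le fun t u => ?_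
    have h6 : ¬ (s.1.1 = r.1.2 ∧ s.1.2 = r.1.1) := fun e => h5 (Subtype.ext (Prod.ext e.1 e.2))
    by_cases e1 : r.1.2 = s.1.1
    · have h4 : r.1.1 ≠ s.1.2 := fun e => h6 ⟨e1.symm, e.symm⟩
      rw [show ⁅F.x r t, F.x s u⁆ = _ from h3 r s h4 t u e1]
      exact le_US (U := F.X) (r := ⟨_, h4⟩) (Or.inl ⟨e1, rfl⟩) (F.x_mem _ _)
    by_cases e2 : s.1.2 = r.1.1
    · have h4 : s.1.1 ≠ r.1.2 := Ne.symm e1
      rw [← commutatorElement_inv, show ⁅F.x s u, F.x r t⁆ = _ from h3 s r h4 u t e2]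
      exact Subgroup.inv_mem _ (le_US (U := F.X) (r := ⟨_, h4⟩) (Or.inr ⟨e2, rfl⟩) (F.x_mem _ _))
    · rw [show ⁅F.x r t, F.x s u⁆ = _ from h2 r s t u (Ne.symm e2) e1]
      exact one_mem _
  have ht : US F.X Set.univ = ⊤ := by
    rw [eq_top_iff, ← PresentedGroup.closure_range_of, closure_le]
    rintro _ ⟨⟨a, t⟩, rfl⟩
    exact le_US (Set.mem_univ a) (F.x_mem a t)
  have hk := (slFam_isChev hm).inf_ker (slFam_tau_inj m) hθ hc
  rw [ht, top_inf_eq] at hk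
  haveI : Nontrivial (Fin (m + 1)) := Fin.nontrivial_iff_two_le.2 (by omega)
  have hs : Function.Surjective θ := by
    rw [← MonoidHom.range_eq_top, MonoidHom.range_eq_map, ← ht,
      ((slFam K (m + 1)).over_of hθ (slFam_isChev0 m).inj).map_US, slFam_top]
  exact ⟨MulEquiv.ofBijective θ ⟨(MonoidHom.ker_eq_bot_iff θ).1 hk, hs⟩, hθ⟩


/-- The Steinberg presentation of `SL_n` over a finite field for `n ≥ 3`: the group generated by symbols `x_ij(t)` (`i ≠ j`, `t` in the field) subject to `x_ij(t) x_ij(u) = x_ij(t + u)` and, for `i ≠ l`, `x_ij(t) x_kl(u) x_ij(t)⁻¹ x_kl(u)⁻¹ = x_il(tu)` if `j = k` and `= 1` if `j ≠ k`, is isomorphic to `SL_n` by an isomorphism sending `x_ij(t)` to the elementary matrix `1 + t E_ij`. -/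
theorem result {K : Type*} [Field K] [Finite K] (n : ℕ) (hn : 3 ≤ n) :
    ∃ e : PresentedGroup
        ({g : FreeGroup ({ij : Fin n × Fin n // ij.1 ≠ ij.2} × K) | ∃ (a : {ij : Fin n × Fin n // ij.1 ≠ ij.2}) (t u : K),
            g = FreeGroup.of (a, t) * FreeGroup.of (a, u) * (FreeGroup.of (a, t + u))⁻¹} ∪
          {g | ∃ (a b : {ij : Fin n × Fin n // ij.1 ≠ ij.2}) (t u : K), a.1.1 ≠ b.1.2 ∧ a.1.2 ≠ b.1.1 ∧
            g = FreeGroup.of (a, t) * FreeGroup.of (b, u) * (FreeGroup.of (a, t))⁻¹ * (FreeGroup.of (b, u))⁻¹} ∪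
          {g | ∃ (a b : {ij : Fin n × Fin n // ij.1 ≠ ij.2}) (h : a.1.1 ≠ b.1.2) (t u : K), a.1.2 = b.1.1 ∧
            g = FreeGroup.of (a, t) * FreeGroup.of (b, u) * (FreeGroup.of (a, t))⁻¹ * (FreeGroup.of (b, u))⁻¹ *
              (FreeGroup.of (⟨(a.1.1, b.1.2), h⟩, t * u))⁻¹}) ≃* Matrix.SpecialLinearGroup (Fin n) K,
      ∀ (a : {ij : Fin n × Fin n // ij.1 ≠ ij.2}) (t : K), ((e (PresentedGroup.of (a, t)) : Matrix (Fin n) (Fin n) K)) = Matrix.transvection a.1.1 a.1.2 t := by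
  obtain ⟨m, rfl⟩ : ∃ m, n = m + 1 := ⟨n - 1, by omega⟩
  refine (aux m (by omega) _ ?_ ?_ ?_ ?_).imp fun e he a t => by rw [he]; rfl
  · rintro _ ((⟨a, t, u, rfl⟩ | ⟨a, b, t, u, h1, h2, rfl⟩) | ⟨⟨⟨a, b⟩, h0⟩, ⟨⟨c, d⟩, h1⟩, h, t, u, h2, rfl⟩)
    · simp only [map_mul, map_inv, FreeGroup.lift_apply_of, RGD.Fam.x_add, mul_inv_cancel]
    · simp only [map_mul, map_inv, FreeGroup.lift_apply_of]
      exact RGD.slFam_commute a b h2 h1.symm t u
    · simp only [map_mul, map_inv, FreeGroup.lift_apply_of, mul_inv_eq_one]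
      obtain rfl : b = c := h2
      exact RGD.slFam_comm (a := a) (b := b) (c := d) h0 h1 h t u
  · intro a t u
    symm
    rw [← mul_inv_eq_one]
    exact PresentedGroup.one_of_mem (Or.inl (Or.inl ⟨a, t, u, rfl⟩))
  · intro a b t u h1 h2
    exact PresentedGroup.one_of_mem (Or.inl (Or.inr ⟨a, b, t, u, h1, h2, rfl⟩))
  · intro a b h t u h2
    rw [← mul_inv_eq_one]
    exact PresentedGroup.one_of_mem (Or.inr ⟨a, b, h, t, u, h2, rfl⟩)

end Cfsg.Agent.S2401
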