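import Cfsg.Statements.S2406
import Cfsg.Agent.GenE.Tw
import Cfsg.Agent.Chev.ReflE6

set_option autoImplicit false
open Cfsg

namespace Cfsg.Agent.S2406

open Cfsg.Lie Cfsg.Agent.Chev Cfsg.Agent.Tw Cfsg.Agent.GenE

theorem main {F : Type*} [Field F] [Finite F] {q : ℕ} (h : Nat.card F = q ^ 2) :
    ∃ a b : gen (certE6.sys F) (e6Words F q), Subgroup.closure ({a, b} : Set _) = ⊤ := by
  obtain ⟨φ, hφ⟩ := exists_frob F h
  have h3 := frob2 hφ h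
  have hK := goodE6 hφ h3
  have hq := one_lt_of_card h
  obtain ⟨ζ, z1, z2⟩ := exists_gen' F
  have z3 : ζ ≠ 1 := fun e => ne_one_of_gen z2 (by
    rw [h]; exact lt_of_lt_of_le (by norm_num) (Nat.pow_le_pow_left hq 2)) (by rw [e]; rfl)
  have hM := hnE6_0 hK h3 ζ (mu φ ζ) rfl
  have hH := mul_mem ((certE6.sys F).h_mem (certE6.sp ⟨0, by decide⟩) ζ)
    ((certE6.sys F).h_mem (certE6.sp ⟨5, by decide⟩) (mu φ ζ))
  have c4 : ∀ r, (certE6.sys F).chi ((certE6.sys F).h (certE6.sp ⟨0, by decide⟩) ζ *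
      (certE6.sys F).h (certE6.sp ⟨5, by decide⟩) (mu φ ζ)) r = ζ ^ caE6 0 r * mu φ ζ ^ caE6 5 r := fun r => by
    rw [Sys.chi_mul (Sys.h_mem _ _ _) (Sys.h_mem _ _ _), Sys.chi_h, Sys.chi_h, Cert.A_sp, Cert.A_sp, cartanE6, cartanE6]
  have y0 := fun x => (Y_eq (K := gen (certE6.sys F) (e6Words F q)) (orbE6 (φ := φ) ⟨0, by decide⟩) ▸ xpE6_0 hK h3 (x := x) :
    x ∈ Y _ _ [36, 56] ↔ _)
  have y1 := fun x => (Y_eq (K := gen (certE6.sys F) (e6Words F q)) (orbE6 (φ := φ) ⟨1, by decide⟩) ▸ xpE6_1 hK (x := x) :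
    x ∈ Y _ _ [46] ↔ _)
  have y2 := fun x => (Y_eq (K := gen (certE6.sys F) (e6Words F q)) (orbE6 (φ := φ) ⟨2, by decide⟩) ▸ xpE6_2 hK h3 (x := x) :
    x ∈ Y _ _ [37, 42] ↔ _)
  have y3 := fun x => (Y_eq (K := gen (certE6.sys F) (e6Words F q)) (orbE6 (φ := φ) ⟨3, by decide⟩) ▸ xpE6_3 hK (x := x) :
    x ∈ Y _ _ [39] ↔ _)
  have x0 : ∃ x ∈ Y (certE6.sys F) (gen (certE6.sys F) (e6Words F q)) [36, 56],
      (certE6.sys F).cd (certE6.sp ⟨0, by decide⟩) x ≠ 0 := ⟨_, (y0 _).2 ⟨1, rfl⟩, by rw [cdE6_0]; exact one_ne_zero⟩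
  have x1 : ∃ x ∈ Y (certE6.sys F) (gen (certE6.sys F) (e6Words F q)) [46],
      (certE6.sys F).cd (certE6.sp ⟨1, by decide⟩) x ≠ 0 :=
    ⟨_, (y1 _).2 ⟨1, map_one _, rfl⟩, by rw [cdE6_1]; exact one_ne_zero⟩
  have x2 : ∃ x ∈ Y (certE6.sys F) (gen (certE6.sys F) (e6Words F q)) [37, 42],
      (certE6.sys F).cd (certE6.sp ⟨2, by decide⟩) x ≠ 0 := ⟨_, (y2 _).2 ⟨1, rfl⟩, by rw [cdE6_2]; exact one_ne_zero⟩
  have x3 : ∃ x ∈ Y (certE6.sys F) (gen (certE6.sys F) (e6Words F q)) [39],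
      (certE6.sys F).cd (certE6.sp ⟨3, by decide⟩) x ≠ 0 :=
    ⟨_, (y3 _).2 ⟨1, map_one _, rfl⟩, by rw [cdE6_3]; exact one_ne_zero⟩
  have w0 := w0_eq (T := stbE6 φ) ssE6 (π := symE6.nodes) rfl ⟨0, by decide⟩ [0, 5] (by decide +kernel)
  have w1 := w0_eq (T := stbE6 φ) ssE6 (π := symE6.nodes) rfl ⟨1, by decide⟩ [1] (by decide +kernel)
  have w2 := w0_eq (T := stbE6 φ) ssE6 (π := symE6.nodes) rfl ⟨2, by decide⟩ [2, 4] (by decide +kernel)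
  have w3 := w0_eq (T := stbE6 φ) ssE6 (π := symE6.nodes) rfl ⟨3, by decide⟩ [3] (by decide +kernel)
  refine gen_T ssE6 (certE6.sys_φ_inj F) (m := 4) (cls := fun k => [[36, 56], [46], [37, 42], [39]].getD k [])
    (cw := fun k => [[0, 5], [1], [2, 4], [3]].getD k []) (lw := [3, 1, 2, 4, 0, 5])
    ((ov_K hK w3).append ((ov_K hK w1).append ((ov_K hK w2).append (ov_K hK w0))))
    (fun M k hk => ?_) (tg := [[36, 56], [46], [37, 42], [39], [35, 15], [25], [34, 29], [32]])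
    (fun M hM => (gen_le _).2 fun w hw => ?_)
    (l := [37, 42]) (l' := [46]) (i := ⟨2, by decide⟩) (j := ⟨1, by decide⟩) (E := (⊤ : Subfield F)) (E' := fixF φ)
    (Cl.of_inj (by decide) (fun _ _ => trivial) fun x hx e => ?_) (by decide) (fun x hx => ?_) (fun x hx e => ?_) x1 x2
    hH hM ⟨49, by decide⟩ ⟨60, by decide⟩ [5, 0, 4, 2, 1, 3]
    [(0, [36, 56], [[37, 42]], [1]), (0, [35, 15], [[37, 42]], [0, 0, 0, 0, 0]), (2, [36, 56], [], []),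
      (0, [39], [[46]], [0, 0, 0, 2, 0]), (0, [25], [[46]], [0, 2, 0, 0]), (0, [34, 29], [[35, 15]], [0]),
      (0, [32], [[46]], [0, 0, 2, 1])] ?_ ?_ ?_ ?_ ?_ (by decide +kernel)
  · interval_cases k
    exacts [hun_tw hK (orbE6 ⟨0, by decide⟩) x0 w0, hun_tw hK (orbE6 ⟨1, by decide⟩) x1 w1,
      hun_tw hK (orbE6 ⟨2, by decide⟩) x2 w2, hun_tw hK (orbE6 ⟨3, by decide⟩) x3 w3]
  · refine wd_mem_of hM hw ?_
    rcases hw with ⟨t, -, r, hr, rfl⟩ | ⟨t, r, hr, rfl⟩ <;>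
      (simp only [List.map]; revert r; decide)
  · obtain ⟨t, rfl⟩ := (y2 x).1 hx
    rw [cdE6_2] at e
    simp [e, wd_cons, wd_nil, xi_zero]
  · obtain ⟨t, ht, rfl⟩ := (y1 x).1 hx
    rw [cdE6_1]; exact ht
  · obtain ⟨t, ht, rfl⟩ := (y1 x).1 hx
    rw [cdE6_1] at e
    simp [e, wd_cons, wd_nil, xi_zero]
  · rw [c4]
    change ζ ^ (0 : ℤ) * mu φ ζ ^ (0 : ℤ) = 1
    simp
  · rw [c4]
    change ζ ^ (-1 : ℤ) * mu φ ζ ^ (0 : ℤ) ≠ 1
    simpa using z3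
  · rw [c4]
    change ζ ^ (0 : ℤ) * mu φ ζ ^ (1 : ℤ) ≠ 1
    intro e
    exact z3 (Units.ext (by simpa [mu] using congrArg Units.val e))
  · rw [c4]
    change SpE _ ((ζ ^ (-1 : ℤ) * mu φ ζ ^ (0 : ℤ) : Fˣ) : F)
    refine spE_of_pow fun t _ ht => ?_
    obtain ⟨k, hk⟩ := z2 t⁻¹ (inv_ne_zero ht)
    exact ⟨k, by simp [← hk]⟩
  · rw [c4]
    change SpE _ ((ζ ^ (1 : ℤ) * mu φ ζ ^ (1 : ℤ) : Fˣ) : F)
    have : ((ζ ^ (1 : ℤ) * mu φ ζ ^ (1 : ℤ) : Fˣ) : F) = (ζ : F) ^ (q + 1) := by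
      simp [mu, hφ]; ring
    rw [this]
    refine spE_of_pow (fix_pow hφ h ?_ z1 z2)
    obtain ⟨k, rfl⟩ : ∃ k, q = k + 1 := ⟨q - 1, by omega⟩
    rw [Nat.add_sub_cancel]; symm; rw [Nat.sub_eq_iff_eq_add (Nat.one_le_pow _ _ (by omega))]; ring


/-- The twisted group ²E₆(q) (realised inside E₆ over the field with `q²` elements) is generated by two of its elements. -/
theorem result {K : Type*} [Field K] [Fintype K] {q : ℕ} (hq : IsPrimePow q) (hK : Fintype.card K = q ^ 2) :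
    ∃ a b : ↥(Cfsg.Lie.twistedE6 K q), Subgroup.closure ({a, b} : Set ↥(Cfsg.Lie.twistedE6 K q)) = ⊤ := by
  exact two_gen_equiv (genEquiv certE6 _) (main (by rw [Nat.card_eq_fintype_card, hK]))

end Cfsg.Agent.S2406
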