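import Cfsg.Statements.S2407
import Cfsg.Agent.GenE.Tw

set_option autoImplicit false
open Cfsg

namespace Cfsg.Agent.S2407

open Cfsg.Lie Cfsg.Agent.Chev Cfsg.Agent.Tw Cfsg.Agent.GenE

theorem exists_root {F : Type*} [Field F] [Finite F] {φ : F ≃+* F} (h3 : ∀ t, φ (φ (φ t)) = t) (v : F) :
    ∃ s, s * φ (φ s) / φ s = v := by
  refine (Finite.injective_iff_surjective (f := fun s : F => s * φ (φ s) / φ s)).1
    (fun a b (e : a * φ (φ a) / φ a = b * φ (φ b) / φ b) => ?_) v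
  by_cases hb : b = 0
  · by_contra ha
    rw [hb] at ha e
    simp [ha] at e
  have ha : a ≠ 0 := by
    rintro rfl
    simp only [zero_mul, zero_div] at e
    exact div_ne_zero (mul_ne_zero hb (by simpa using hb)) (by simpa using hb) e.symm
  have h1 : a / b * φ (φ (a / b)) = φ (a / b) := by
    have : φ a ≠ 0 := by simpa using ha
    have : φ b ≠ 0 := by simpa using hb
    have : φ (φ b) ≠ 0 := by simpa using hb
    simp only [map_div₀]
    field_simp at e ⊢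
    linear_combination e
  have h0 : a / b ≠ 0 := div_ne_zero ha hb
  rw [← div_eq_one_iff_eq hb]
  generalize a / b = u at *
  have h2 := congrArg φ h1
  rw [map_mul, h3] at h2
  have h4 : φ u ≠ 0 := by simpa using h0
  have h5 : u * u = 1 := mul_left_cancel₀ h4 (by linear_combination h1 + u * h2)
  rcases mul_self_eq_one_iff.1 h5 with h | h
  · exact h
  · rw [h] at h1 ⊢
    simpa using h1.symm

theorem main {F : Type*} [Field F] [Finite F] {q : ℕ} (h : Nat.card F = q ^ 3) :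
    ∃ a b : gen (certD4.sys F) (d4Words F q), Subgroup.closure ({a, b} : Set _) = ⊤ := by
  obtain ⟨φ, hφ⟩ := exists_frob F h
  have h3 := frob3 hφ h
  have hK := goodD4 hφ h3
  have hq := one_lt_of_card h
  obtain ⟨ζ, z1, z2⟩ := exists_gen' F
  have z3 : ζ ≠ 1 := fun e => ne_one_of_gen z2 (by
    rw [h]; exact lt_of_lt_of_le (by norm_num) (Nat.pow_le_pow_left hq 3)) (by rw [e]; rfl)
  obtain ⟨s0, hs⟩ := exists_root h3 (ζ : F)
  have hs0 : s0 ≠ 0 := by rintro rfl; exact ζ.ne_zero (by simpa using hs.symm)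
  obtain ⟨s, rfl⟩ : ∃ s : Fˣ, (s : F) = s0 := ⟨Units.mk0 _ hs0, rfl⟩
  let t : Nd chevD4 → Fˣ := ![s * mu φ (mu φ s), s * mu φ s * mu φ (mu φ s), mu φ s * s, mu φ (mu φ s) * mu φ s]
  have ht : (stbD4 φ).st t = t := funext fun i => Units.ext (by
    fin_cases i
    · change φ (φ (φ s) * φ s) = s * φ (φ s); simp [h3]
    · change φ (s * φ s * φ (φ s)) = s * φ s * φ (φ s); simp only [map_mul, h3]; ring
    · change φ (s * φ (φ s)) = φ s * s; simp [h3]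
    · change φ (φ s * s) = φ (φ s) * φ s; simp)
  have hH := (certD4.sys F).hh_mem t
  have hM := hhD4_mem hK h3 ht
  have a1 : φ s ≠ 0 := by simp
  have a2 : φ (φ s) ≠ 0 := by simp
  have c0 : (certD4.sys F).chi ((certD4.sys F).hh t) (certD4.sp ⟨0, by decide⟩) = ζ := by
    rw [Sys.chi_hh]; simp only [Cert.A_sp]
    refine (carD4_0 t).trans (Units.ext ?_)
    rw [← hs]; simp [t, mu]; field_simp
  have c1 : (certD4.sys F).chi ((certD4.sys F).hh t) (certD4.sp ⟨1, by decide⟩) = 1 := by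
    rw [Sys.chi_hh]; simp only [Cert.A_sp]
    refine (carD4_1 t).trans (Units.ext ?_)
    simp [t, mu]; field_simp
  have c2 : (certD4.sys F).chi ((certD4.sys F).hh t) (certD4.sp ⟨2, by decide⟩) = mu φ ζ :=
    (chi_π hK hH hM ⟨0, by decide⟩).trans (by rw [c0]; rfl)
  have c3 : (certD4.sys F).chi ((certD4.sys F).hh t) (certD4.sp ⟨3, by decide⟩) = mu φ (mu φ ζ) :=
    (chi_π hK hH hM ⟨2, by decide⟩).trans (by rw [c2]; rfl)
  have c4 : ∀ r, (certD4.sys F).chi ((certD4.sys F).hh t) r =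
      ζ ^ rcD4 r 0 * mu φ ζ ^ rcD4 r 2 * mu φ (mu φ ζ) ^ rcD4 r 3 := fun r => by
    have : ∀ i, (certD4.sys F).chi ((certD4.sys F).hh t) (certD4.sp i) =
        (![ζ, 1, mu φ ζ, mu φ (mu φ ζ)] : Fin 4 → Fˣ) i := fun i => by
      fin_cases i
      exacts [c0, c1, c2, c3]
    rw [chi_eq_chr hH]
    simp only [this, certD4_rc]
    refine (Fin.prod_univ_four _).trans ?_
    change ζ ^ rcD4 r 0 * 1 ^ rcD4 r 1 * mu φ ζ ^ rcD4 r 2 * mu φ (mu φ ζ) ^ rcD4 r 3 = _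
    rw [one_zpow, mul_one]
  have y0 := fun x => (Y_eq (K := gen (certD4.sys F) (d4Words F q)) (orbD4 (φ := φ) ⟨0, by decide⟩) ▸ xpD4_0 hK h3 (x := x) :
    x ∈ Y _ _ [12, 13, 18] ↔ _)
  have y1 := fun x => (Y_eq (K := gen (certD4.sys F) (d4Words F q)) (orbD4 (φ := φ) ⟨1, by decide⟩) ▸ xpD4_1 hK (x := x) :
    x ∈ Y _ _ [14] ↔ _)
  have x0 : ∃ x ∈ Y (certD4.sys F) (gen (certD4.sys F) (d4Words F q)) [12, 13, 18],
      (certD4.sys F).cd (certD4.sp ⟨0, by decide⟩) x ≠ 0 := ⟨_, (y0 _).2 ⟨1, rfl⟩, by rw [cdD4_0]; exact one_ne_zero⟩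
  have x1 : ∃ x ∈ Y (certD4.sys F) (gen (certD4.sys F) (d4Words F q)) [14],
      (certD4.sys F).cd (certD4.sp ⟨1, by decide⟩) x ≠ 0 :=
    ⟨_, (y1 _).2 ⟨1, map_one _, rfl⟩, by rw [cdD4_1]; exact one_ne_zero⟩
  have w0 := w0_eq (T := stbD4 φ) ssD4 (π := triD4.nodes) rfl ⟨0, by decide⟩ [0, 2, 3] (by decide +kernel)
  have w1 := w0_eq (T := stbD4 φ) ssD4 (π := triD4.nodes) rfl ⟨1, by decide⟩ [1] (by decide +kernel)
  refine gen_T ssD4 (certD4.sys_φ_inj F) (m := 2) (cls := fun k => [[12, 13, 18], [14]].getD k [])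
    (cw := fun k => [[0, 2, 3], [1]].getD k []) (lw := [0, 2, 3, 1]) ((ov_K hK w0).append (ov_K hK w1))
    (fun M k hk => ?_) (tg := [[12, 13, 18], [14], [11, 10, 5], [9]]) (fun M hM => (gen_le _).2 fun w hw => ?_)
    (l := [12, 13, 18]) (l' := [14]) (i := ⟨0, by decide⟩) (j := ⟨1, by decide⟩) (E := (⊤ : Subfield F)) (E' := fixF φ)
    (Cl.of_inj (by decide) (fun _ _ => trivial) fun x hx e => ?_) (by decide) (fun x hx => ?_) (fun x hx e => ?_) x1 x0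
    hH hM ⟨4, by decide⟩ ⟨23, by decide⟩ [1, 3, 2, 0]
    [(0, [11, 10, 5], [[12, 13, 18]], [0, 0, 0]), (0, [9], [[14]], [0, 0, 0])] c1 (c0 ▸ z3) ?_
    (c0 ▸ spE_of_pow fun t _ ht => z2 t ht) ?_ (by decide +kernel)
  · interval_cases k
    exacts [hun_tw hK (orbD4 ⟨0, by decide⟩) x0 w0, hun_tw hK (orbD4 ⟨1, by decide⟩) x1 w1]
  · refine wd_mem_of hM hw ?_
    rcases hw with ⟨t, -, r, hr, rfl⟩ | ⟨t, r, hr, rfl⟩ <;>
      (simp only [List.map]; revert r; decide)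
  · obtain ⟨t, rfl⟩ := (y0 x).1 hx
    rw [cdD4_0] at e
    simp [e, wd_cons, wd_nil, xi_zero]
  · obtain ⟨t, ht, rfl⟩ := (y1 x).1 hx
    rw [cdD4_1]; exact ht
  · obtain ⟨t, ht, rfl⟩ := (y1 x).1 hx
    rw [cdD4_1] at e
    simp [e, wd_cons, wd_nil, xi_zero]
  · rw [c4]
    change ζ ^ (-1 : ℤ) * mu φ ζ ^ (0 : ℤ) * mu φ (mu φ ζ) ^ (0 : ℤ) ≠ 1
    simpa using z3
  · rw [c4]
    change SpE _ ((ζ ^ (1 : ℤ) * mu φ ζ ^ (1 : ℤ) * mu φ (mu φ ζ) ^ (1 : ℤ) : Fˣ) : F)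
    have : ((ζ ^ (1 : ℤ) * mu φ ζ ^ (1 : ℤ) * mu φ (mu φ ζ) ^ (1 : ℤ) : Fˣ) : F) = (ζ : F) ^ (q ^ 2 + q + 1) := by
      simp [mu, hφ]; ring
    rw [this]
    refine spE_of_pow (fix_pow hφ h ?_ z1 z2)
    obtain ⟨k, rfl⟩ : ∃ k, q = k + 1 := ⟨q - 1, by omega⟩
    rw [Nat.add_sub_cancel]; symm; rw [Nat.sub_eq_iff_eq_add (Nat.one_le_pow _ _ (by omega))]; ring


/-- The twisted group ³D₄(q) (realised inside D₄ over the field with `q³` elements) is generated by two of its elements. -/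
theorem result {K : Type*} [Field K] [Fintype K] {q : ℕ} (hq : IsPrimePow q) (hK : Fintype.card K = q ^ 3) :
    ∃ a b : ↥(Cfsg.Lie.twistedD4 K q), Subgroup.closure ({a, b} : Set ↥(Cfsg.Lie.twistedD4 K q)) = ⊤ := by
  exact two_gen_equiv (genEquiv certD4 _) (main (by rw [Nat.card_eq_fintype_card, hK]))

end Cfsg.Agent.S2407
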