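import Cfsg.Statements.S2408
import Cfsg.Agent.GenE.Tw

set_option autoImplicit false
open Cfsg

namespace Cfsg.Agent.S2408

open Cfsg.Lie Cfsg.Agent.Chev Cfsg.Agent.Tw Cfsg.Agent.GenE

theorem main {F : Type*} [Field F] [Finite F] [CharP F 2] {m : ℕ} (hm : 1 ≤ m) (h : Nat.card F = 2 ^ (2 * m + 1)) :
    ∃ a b : gen (certF4.sys F) (f4Words F (2 ^ m)), Subgroup.closure ({a, b} : Set _) = ⊤ := by
  obtain ⟨φ, hφ⟩ : ∃ φ : F ≃+* F, ∀ t, φ t = t ^ 2 ^ m := ⟨iterateFrobeniusEquiv F 2 m, fun _ => rfl⟩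
  have h3 := frobp hφ h
  have hK := goodF4 hφ h3
  obtain ⟨ζ, z1, z2⟩ := exists_gen' F
  have z3 : ζ ≠ 1 := fun e => ne_one_of_gen z2 (h ▸ lt_self_pow₀ (by norm_num) (by omega)) (by rw [e]; rfl)
  let a : Fˣ := ζ ^ 3 * mu φ ζ ^ 4
  let t : Nd chevF4 → Fˣ := ![mu φ a, mu φ (a ^ 2), a ^ 2, a]
  have hH := (certF4.sys F).hh_mem t
  have hM : (certF4.sys F).hh t ∈ gen (certF4.sys F) (f4Words F (2 ^ m)) :=
    fixF4 hK ((Stb.σ_hh (certF4.sys_φ_inj F) eF4 _).trans (congrArg _ (stF4 h3)))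
  have a1 : φ ζ ≠ 0 := by simp
  have a2 : φ (φ ζ) ≠ 0 := by simp
  have c2 : (certF4.sys F).chi ((certF4.sys F).hh t) (certF4.sp ⟨2, by decide⟩) = ζ := by
    rw [Sys.chi_hh]; simp only [Cert.A_sp]
    refine (carF4_2 t).trans (Units.ext ?_)
    have := h3 ζ
    simp [t, a, mu]; field_simp
    generalize φ (φ ζ) = y at *
    rw [← this]; ring
  have c3 : (certF4.sys F).chi ((certF4.sys F).hh t) (certF4.sp ⟨3, by decide⟩) = 1 := by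
    rw [Sys.chi_hh]; simp only [Cert.A_sp]
    exact (carF4_3 t).trans (mul_inv_cancel _)
  have c1 : (certF4.sys F).chi ((certF4.sys F).hh t) (certF4.sp ⟨1, by decide⟩) = mu φ ζ :=
    (chi_π hK hH hM ⟨2, by decide⟩).trans (by rw [c2]; exact Units.ext ((fF4 _ _).trans (pow_one _)))
  have c0 : (certF4.sys F).chi ((certF4.sys F).hh t) (certF4.sp ⟨0, by decide⟩) = 1 :=
    (chi_π hK hH hM ⟨3, by decide⟩).trans (by rw [c3, map_one])
  have c4 : ∀ r, (certF4.sys F).chi ((certF4.sys F).hh t) r = mu φ ζ ^ rcF4 r 1 * ζ ^ rcF4 r 2 := fun r => by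
    have : ∀ i, (certF4.sys F).chi ((certF4.sys F).hh t) (certF4.sp i) =
        (![1, mu φ ζ, ζ, 1] : Fin 4 → Fˣ) i := fun i => by
      fin_cases i
      exacts [c0, c1, c2, c3]
    rw [chi_eq_chr hH]
    simp only [this, certF4_rc]
    refine (Fin.prod_univ_four _).trans ?_
    change 1 ^ rcF4 r 0 * mu φ ζ ^ rcF4 r 1 * ζ ^ rcF4 r 2 * 1 ^ rcF4 r 3 = _
    rw [one_zpow, one_zpow, mul_one, one_mul]
  have y0 := fun x => (Y_eq (K := gen (certF4.sys F) (f4Words F (2 ^ m))) (orbF4 (φ := φ) ⟨3, by decide⟩) ▸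
    xpF4_3 hK h3 (x := x) : x ∈ Y _ _ [24, 33] ↔ _)
  have y1 := fun x => (Y_eq (K := gen (certF4.sys F) (f4Words F (2 ^ m))) (orbF4 (φ := φ) ⟨2, by decide⟩) ▸
    xpF4_2 hK h3 (x := x) : x ∈ Y _ _ [25, 27, 28, 30] ↔ _)
  have x0 : ∃ x ∈ Y (certF4.sys F) (gen (certF4.sys F) (f4Words F (2 ^ m))) [24, 33],
      (certF4.sys F).cd (certF4.sp ⟨3, by decide⟩) x ≠ 0 := ⟨_, (y0 _).2 ⟨1, rfl⟩, by rw [cdF4_3]; exact one_ne_zero⟩
  have x1 : ∃ x ∈ Y (certF4.sys F) (gen (certF4.sys F) (f4Words F (2 ^ m))) [25, 27, 28, 30],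
      (certF4.sys F).cd (certF4.sp ⟨2, by decide⟩) x ≠ 0 :=
    ⟨_, (y1 _).2 ⟨1, 0, rfl⟩, by rw [cdF4_2]; exact one_ne_zero⟩
  have w0 := w0_eq (T := stbF4 φ) ssF4 (π := Fin.revPerm) rfl ⟨3, by decide⟩ [0, 3] (by decide +kernel)
  have w1 := w0_eq (T := stbF4 φ) ssF4 (π := Fin.revPerm) rfl ⟨2, by decide⟩ [1, 2, 1, 2] (by decide +kernel)
  refine gen_T ssF4 (certF4.sys_φ_inj F) (m := 2) (cls := fun k => [[24, 33], [25, 27, 28, 30]].getD k [])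
    (cw := fun k => [[0, 3], [1, 2, 1, 2]].getD k []) (lw := [1, 2, 1, 2, 0, 3]) ((ov_K hK w1).append (ov_K hK w0))
    (fun M k hk => ?_) (tg := [[24, 33], [25, 27, 28, 30], [23, 14], [22, 20, 19, 17]])
    (fun M hM => (gen_le _).2 fun w hw => ?_)
    (l := [25, 27, 28, 30]) (l' := [24, 33]) (i := ⟨2, by decide⟩) (j := ⟨3, by decide⟩) (E := (⊤ : Subfield F))
    (E' := (⊤ : Subfield F)) ⟨by decide, fun _ _ => trivial, fun M hM x hx => ?_⟩ (by decide) (fun _ _ => trivial)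
    (fun x hx e => ?_) x0 x1 hH hM ⟨21, by decide⟩ ⟨43, by decide⟩ [3, 0, 2, 1, 2, 1]
    [(0, [23, 14], [[24, 33]], [0, 0, 0, 0]), (0, [22, 20, 19, 17], [[25, 27, 28, 30]], [0, 0, 0, 0])] c3 (c2 ▸ z3) ?_
    (c2 ▸ spE_of_pow fun t _ ht => z2 t ht) ?_ (by decide +kernel)
  · interval_cases k
    exacts [hun_tw hK (orbF4 ⟨3, by decide⟩) x0 w0, hun_tw hK (orbF4 ⟨2, by decide⟩) x1 w1]
  · refine wd_mem_of hM hw ?_
    rcases hw with ⟨t, rfl | rfl⟩ | ⟨t, u, rfl | rfl⟩ <;>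
      (simp only [f4PairWord, b2ClassWord, List.map]; decide)
  · have k1 : ∀ t, ∃ v, XF φ t v ∈ M := fun t => by
      obtain ⟨y, hy, hyM, e⟩ := hM _ ((y1 _).2 ⟨t, 0, rfl⟩)
      obtain ⟨t', v, rfl⟩ := (y1 y).1 hy
      rw [cdF4_2, cdF4_2] at e
      exact ⟨v, e ▸ hyM⟩
    have k2 : ∀ v, XF φ 0 v ∈ M := fun v => by
      obtain ⟨t, rfl⟩ := exists_mul_frob h3 v
      obtain ⟨v', e⟩ := k1 t
      exact XF_sq h3 t v' ▸ mul_mem e e
    obtain ⟨t, v, rfl⟩ := (y1 x).1 hx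
    obtain ⟨v', e⟩ := k1 t
    have := mul_mem e (k2 (v - v'))
    rwa [XF_mul h3, add_zero, zero_mul, add_zero, add_sub_cancel] at this
  · obtain ⟨t, rfl⟩ := (y0 x).1 hx
    rw [cdF4_3] at e
    simp [e, wd_cons, wd_nil, xi_zero]
  · rw [c4]
    change mu φ ζ ^ (0 : ℤ) * ζ ^ (-1 : ℤ) ≠ 1
    simpa using z3
  · rw [c4]
    change SpE _ ((mu φ ζ ^ (2 : ℤ) * ζ ^ (2 : ℤ) : Fˣ) : F)
    refine spE_of_pow fun t _ ht => ?_
    obtain ⟨s, rfl⟩ := surjective_frobenius F 2 t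
    obtain ⟨u, rfl⟩ := exists_mul_frob h3 s
    obtain ⟨k, rfl⟩ := z2 u (by rintro rfl; simp at ht)
    exact ⟨k, by simp [frobenius_def, mu, zpow_ofNat]; ring⟩


/-- The large Ree group ²F₄(2^(2m+1)) with `m ≥ 1` is generated by two of its elements. -/
theorem result {K : Type*} [Field K] [Fintype K] {m : ℕ} (hm : 1 ≤ m) (hK : Fintype.card K = 2 ^ (2 * m + 1)) :
    ∃ a b : ↥(Cfsg.Lie.twistedF4 K (2 ^ m)), Subgroup.closure ({a, b} : Set ↥(Cfsg.Lie.twistedF4 K (2 ^ m))) = ⊤ := by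
  have := charP_of_card_eq_prime_pow hK
  exact two_gen_equiv (genEquiv certF4 _) (main hm (by rw [Nat.card_eq_fintype_card, hK]))

end Cfsg.Agent.S2408
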