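import Cfsg.Statements.S2416
import Cfsg.Agent.Chev.Gen
import Cfsg.Agent.Chev.Data

set_option autoImplicit false
open scoped MatrixGroups
open Cfsg Cfsg.Agent.Chev

namespace Cfsg.Agent.S2416

/-- A Chevalley group of type G₂, B₂, D₄, F₄, E₆, E₇ or E₈ over a finite field lies in (indeed equals) the subgroup generated by its monomial subgroup `N` and a single fundamental root subgroup `X_p`, where `p` is a short fundamental root if there are two root lengths (any fundamental root otherwise), provided the characteristic is not 2 for types B₂, F₄ and not 3 for type G₂ (and the field has more than two elements for B₂, G₂). -/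
theorem result {K : Type*} [Field K] [Finite K] (D : Cfsg.Lie.ChevalleyDatum) (hD : D ∈ [Cfsg.Lie.chevG2, Cfsg.Lie.chevB2, Cfsg.Lie.chevD4, Cfsg.Lie.chevF4, Cfsg.Lie.chevE6, Cfsg.Lie.chevE7, Cfsg.Lie.chevE8])
    (hK : D ∈ [Cfsg.Lie.chevB2, Cfsg.Lie.chevG2] → ∃ x : K, x ≠ 0 ∧ x ≠ 1)
    (h2 : D ∈ [Cfsg.Lie.chevB2, Cfsg.Lie.chevF4] → ringChar K ≠ 2) (h3 : D = Cfsg.Lie.chevG2 → ringChar K ≠ 3)
    (i : ℕ) (hi : i < D.rank) (hshort : D.isLong (D.simple i) = false) :
    D.group K ≤ D.monomialSubgroup K ⊔ D.rootSubgroup K (D.simple i) := by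
  have h0 : ∃ C : Cert D, ∀ r s, C.len r < C.len s → (C.len s : K) ≠ 0 := by
    have a2 : ringChar K ≠ 2 → (2 : K) ≠ 0 := Ring.two_ne_zero
    have a3 : ringChar K ≠ 3 → (3 : K) ≠ 0 := fun h h3 => by
      have := (ringChar.spec K 3).1 (by exact_mod_cast h3)
      rcases (Nat.dvd_prime Nat.prime_three).1 this with h4 | h4
      · exact CharP.ringChar_ne_one h4
      · exact h h4
    have key : ∀ (C : Cert D) (m : ℤ), (∀ r, C.len r = 1 ∨ C.len r = m) → (m : K) ≠ 0 →
        ∀ r s, C.len r < C.len s → (C.len s : K) ≠ 0 := by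
      intro C m h1 h2 r s h
      have := C.len_pos r
      rw [(h1 s).resolve_left (by omega)]; exact h2
    simp only [List.mem_cons, List.not_mem_nil, or_false] at hD
    rcases hD with rfl | rfl | rfl | rfl | rfl | rfl | rfl
    · exact ⟨certG2, key _ 3 (by simp only [certG2_len]; decide +kernel) (by simpa using a3 (h3 rfl))⟩
    · exact ⟨certB2, key _ 2 (by simp only [certB2_len]; decide +kernel) (by simpa using a2 (h2 (by simp)))⟩
    · exact ⟨certD4, key _ 1 (by simp only [certD4_len]; decide +kernel) (by simp)⟩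
    · exact ⟨certF4, key _ 2 (by simp only [certF4_len]; decide +kernel) (by simpa using a2 (h2 (by simp)))⟩
    · exact ⟨certE6, key _ 1 (by simp only [certE6_len]; decide +kernel) (by simp)⟩
    · exact ⟨certE7, key _ 1 (by simp only [certE7_len]; decide +kernel) (by simp)⟩
    · exact ⟨certE8, key _ 1 (by simp only [certE8_len]; decide +kernel) (by simp)⟩
  obtain ⟨C, hC⟩ := h0
  apply Cert.group_le_map
  exact (C.sys K).eq_top_of_short (C.N_le_monomial le_sup_left) ((C.isLong_eq_false_iff (C.sp ⟨i, hi⟩)).1 hshort)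
    (fun t => Subgroup.mem_sup_right (C.x_mem_rootSubgroup (C.sp ⟨i, hi⟩) t)) (hC _)

end Cfsg.Agent.S2416
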