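import Cfsg.Statements.S2418
import Cfsg.Agent.Chev.CoxFacts
import Cfsg.Agent.Chev.ReflG2
import Cfsg.Agent.Chev.ReflB2
import Cfsg.Agent.Chev.ReflD4
import Cfsg.Agent.Chev.ReflF4
import Cfsg.Agent.Chev.ReflE6
import Cfsg.Agent.Chev.ReflE7
import Cfsg.Agent.Chev.ReflE8

set_option autoImplicit false
open Cfsg Cfsg.Agent.Chev

namespace Cfsg.Agent.S2418

/-- For the Coxeter groups of types B₂, G₂, D₄, F₄, E₇, E₈ the centre has order 2 (the element acting as −1 on the root system) and is generated by a power of the Coxeter element `s₁ s₂ ⋯ s_l`; the Coxeter group of type E₆ has trivial centre. -/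
theorem result (c : (Σ n : ℕ, CoxeterMatrix (Fin n)) × ℕ)
    (hc : c ∈ [(⟨2, CoxeterMatrix.B 2⟩, 2), (⟨2, CoxeterMatrix.G₂⟩, 2), (⟨4, Cfsg.Lie.coxeterD4⟩, 2), (⟨4, CoxeterMatrix.F₄⟩, 2),
      (⟨6, CoxeterMatrix.E₆⟩, 1), (⟨7, CoxeterMatrix.E₇⟩, 2), (⟨8, CoxeterMatrix.E₈⟩, 2)]) :
    Nat.card (Subgroup.center c.1.2.Group) = c.2 ∧
      Subgroup.center c.1.2.Group ≤ Subgroup.zpowers ((List.finRange c.1.1).map c.1.2.simple).prod := by
  simp only [List.mem_cons, List.not_mem_nil, or_false] at hc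
  rcases hc with rfl | rfl | rfl | rfl | rfl | rfl | rfl
  · obtain ⟨e, he⟩ := coxB2 certB2
    have h := Cert.center_two (C := certB2) he 2 (Cert.wd_eq_rev ssB2 (by decide +kernel))
    exact h
  · obtain ⟨e, he⟩ := coxG2 certG2
    have h := Cert.center_two (C := certG2) he 3 (Cert.wd_eq_rev ssG2 (by decide +kernel))
    exact h
  · obtain ⟨e, he⟩ := coxD4 certD4
    have h := Cert.center_two (C := certD4) he 3 (Cert.wd_eq_rev ssD4 (by decide +kernel))
    exact h
  · obtain ⟨e, he⟩ := coxF4 certF4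
    have h := Cert.center_two (C := certF4) he 6 (Cert.wd_eq_rev ssF4 (by decide +kernel))
    exact h
  · obtain ⟨e, he⟩ := coxE6 certE6
    refine Cert.center_one (C := certE6) he (Cert.rev_notMem_W (l := Cert.toNd _ [0, 1, 2, 0, 3, 1, 2, 0, 3, 2, 4, 3, 1, 2, 0, 3, 2, 4, 3, 1, 5, 4, 3, 1, 2, 0, 3, 2, 4, 3, 1, 5, 4, 3, 2, 0]) (i := ⟨0, by decide⟩) (fun j => ?_) ?_) _
    · rw [Cert.pos_iff_val, Cert.wd_table ssE6]
      revert j
      decide +kernel
    · rw [Ne, Fin.ext_iff, Cert.wd_table ssE6]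
      decide +kernel
  · obtain ⟨e, he⟩ := coxE7 certE7
    have h := Cert.center_two (C := certE7) he 9 (Cert.wd_eq_rev ssE7 (by decide +kernel))
    exact h
  · obtain ⟨e, he⟩ := coxE8 certE8
    have h := Cert.center_two (C := certE8) he 15 (Cert.wd_eq_rev ssE8 (by decide +kernel))
    exact h

end Cfsg.Agent.S2418
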