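import Cfsg.Statements.S2421
import Cfsg.Agent.GLn.ParabCard

set_option autoImplicit false
open scoped MatrixGroups
open Cfsg

namespace Cfsg.Agent.S2421

open Cfsg.Agent.GLn

/-- Irreducible characters of `GL_n(q)` indexed by partitions: for `ν` a partition of `n` written with `n` non-decreasing parts `ν_0 ≤ ⋯ ≤ ν_{n−1}` (zeros allowed; positions counted from 0) and `λ_i = ν_i + i`, the alternating sum over permutations `κ` of `{0, …, n−1}` of `sign κ` times the permutation character on partial flags of type `λ − κ` (terms with a negative entry omitted) is an irreducible complex character of `GL_n(q)`. For `ν = (1, …, 1)` this is the Steinberg character. -/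
theorem result {F : Type*} [Field F] [Fintype F] {n : ℕ} (ν : Fin n → ℕ) (hmono : Monotone ν) (hsum : ∑ i, ν i = n) :
    Cfsg.IsIrrCharacter (GL (Fin n) F) (Cfsg.unipotentCharacterGL n F ν) := by
  classical
  have h2 := inner_unipotentCharacterGL (F := F) hmono hsum hmono hsum
  rw [if_pos rfl] at h2
  refine CharLib.isIrr_of_norm_one (isGen_unipotentCharacterGL ν) h2 ?_
  have h := unipotentCharacterGL_degree (F := F) hsum
  have hle : ∀ i : Fin n, ∀ j ∈ Finset.Ioi i,
      (∑ l ∈ Finset.range (ν i + i.val), Fintype.card F ^ l) ≤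
        ∑ l ∈ Finset.range (ν j + j.val), Fintype.card F ^ l := fun i j hj =>
    Finset.sum_le_sum_of_subset (Finset.range_mono
      (strictMono_add hmono (Finset.mem_Ioi.mp hj)).le)
  rw [Finset.prod_congr rfl fun i _ => Finset.prod_congr rfl fun j hj =>
    (Nat.cast_sub (hle i j hj)).symm, mul_assoc] at h
  norm_cast at h
  rw [← eq_div_iff (by
    have : 0 < Fintype.card F ^ (n * (n - 1) * (n - 2) / 6) *
      ∏ i : Fin n, qFact (Fintype.card F) (ν i + i.val) :=
      mul_pos (pow_pos Fintype.card_pos _) (Finset.prod_pos fun i _ => qFact_pos _ _)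
    exact_mod_cast this.ne')] at h
  rw [h, ← Complex.ofReal_natCast, ← Complex.ofReal_natCast, ← Complex.ofReal_div,
    Complex.ofReal_re]
  positivity

end Cfsg.Agent.S2421
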