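import Cfsg.Statements.S2425
import Cfsg.Agent.Hall.Mob

set_option autoImplicit false
open scoped MatrixGroups
open Cfsg

namespace Cfsg.Agent.S2425

universe u in
theorem exists_fam {F : Type u} [Field F] [Finite F] (p : ℕ) [Fact p.Prime] [CharP F p]
    {n : ℕ} (x : GL (Fin n) F) (hx : (orderOf x).Coprime p) :
    ∃ (ι : Type u) (_ : Fintype ι) (f : ι → Polynomial F), (∀ t, Irreducible (f t) ∧ (f t).Monic) ∧
      GLn.HasFam (x : Matrix (Fin n) (Fin n) F) f := by
  classical
  obtain ⟨M, hM⟩ := GLn.exists_hasED (x : Matrix (Fin n) (Fin n) F)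
  have h1 := (hM.coprime_iff p).1 hx
  refine ⟨_, inferInstance, _, fun t => ?_, hM.2⟩
  have h2 : t.1 ∈ M := Multiset.coe_mem (x := t)
  have := hM.1 _ h2
  change Irreducible (t.1.1 ^ t.1.2) ∧ (t.1.1 ^ t.1.2).Monic
  rw [h1 _ h2, pow_one]
  exact ⟨this.1, this.2.1⟩

/-- Values of the Steinberg character of `GL_n(q)` (the partition-indexed character for `ν = (1,…,1)`, of degree `q^(n(n−1)/2)`) at elements of order prime to the characteristic: if the characteristic polynomial of such an element is `∏ f^(m_f)` over distinct monic irreducible `f`, the value is `∏_f (−1)^((deg f − 1) m_f) q^(deg f · m_f (m_f − 1)/2)`. (At elements of order divisible by the characteristic the value is 0; that is not part of this statement.) -/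
theorem result {F : Type*} [Field F] [Fintype F] [DecidableEq F] {q : ℕ} (hq : Fintype.card F = q) (p : ℕ) [Fact p.Prime] [CharP F p]
    {n : ℕ} (x : GL (Fin n) F) (hx : (orderOf x).Coprime p) :
    Cfsg.unipotentCharacterGL n F (fun _ => 1) x =
      ∏ f ∈ (UniqueFactorizationMonoid.normalizedFactors (x : Matrix (Fin n) (Fin n) F).charpoly).toFinset,
        (-1 : ℂ) ^ ((f.natDegree - 1) * (UniqueFactorizationMonoid.normalizedFactors (x : Matrix (Fin n) (Fin n) F).charpoly).count f) *
          (q : ℂ) ^ (f.natDegree * (UniqueFactorizationMonoid.normalizedFactors (x : Matrix (Fin n) (Fin n) F).charpoly).count f *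
            ((UniqueFactorizationMonoid.normalizedFactors (x : Matrix (Fin n) (Fin n) F).charpoly).count f - 1) / 2) := by
  obtain ⟨ι, _, f, h2, h3⟩ := exists_fam p x hx
  have h4 := (Hall.mob_rootEnd _ f h2 _ _ h3).1
  have h5 : ∀ g ∈ Finset.univ.val.map f, Irreducible g ∧ g.Monic := fun g hg => by
    obtain ⟨t, -, rfl⟩ := Multiset.mem_map.1 hg
    exact h2 t
  have h6 : UniqueFactorizationMonoid.normalizedFactors (x : Matrix (Fin n) (Fin n) F).charpoly =
      Finset.univ.val.map f := by
    rw [h3.charpoly fun t => (h2 t).2, Finset.prod_eq_multiset_prod,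
      UniqueFactorizationMonoid.normalizedFactors_prod_eq _ fun g hg => (h5 g hg).1,
      Multiset.map_congr rfl fun g hg => (h5 g hg).2.normalize_eq_self, Multiset.map_id']
  have h7 : n = ((Finset.univ.val.map f).map Polynomial.natDegree).sum := by
    rw [Multiset.map_map]
    exact (Fintype.card_fin n).symm.trans (h3.card_eq fun t => (h2 t).2)
  rw [Hall.steinberg_eq, h6]
  rw [Hall.mob, show Hall.dim (Hall.cl _) = n from Hall.dim_gcl x] at h4
  rw [show Hall.gcl x = Hall.cl _ from rfl, h4]
  generalize Finset.univ.val.map f = L at h5 h7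
  rw [Finset.sum_multiset_map_count] at h7
  rw [h7, ← Finset.prod_pow_eq_pow_sum, Hall.val, Nat.card_eq_fintype_card, hq]
  refine Eq.trans (by convert (Finset.prod_mul_distrib (s := L.toFinset)).symm) (Finset.prod_congr rfl
    (f := fun g => (-1 : ℂ) ^ (L.count g • g.natDegree) * ((-1) ^ L.count g *
      (q : ℂ) ^ (g.natDegree * L.count g * (L.count g - 1) / 2))) fun g hg => ?_)
  obtain ⟨d, hd⟩ := Nat.exists_eq_add_of_le' (h5 g (Multiset.mem_toFinset.1 hg)).1.natDegree_pos
  rw [← mul_assoc, ← pow_add, hd, Nat.add_sub_cancel, smul_eq_mul,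
    show L.count g * (d + 1) + L.count g = d * L.count g + 2 * L.count g by ring, pow_add, pow_mul (-1 : ℂ) 2]
  simp

end Cfsg.Agent.S2425
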