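import Cfsg.Statements.S2427


set_option autoImplicit false
open Cfsg

namespace Cfsg.Agent.S2427

open scoped commutatorElement

abbrev G := Matrix.SpecialLinearGroup (Fin 2) (ZMod 3)

/-- explicit model -/
def mk4 (a b c d : ZMod 3) (h : a * d - b * c = 1) : G := ⟨!![a, b; c, d], by rw [Matrix.det_fin_two_of]; exact h⟩

abbrev T := ZMod 3 × ZMod 3 × ZMod 3 × ZMod 3

def ent (g : G) : T := (g.1 0 0, g.1 0 1, g.1 1 0, g.1 1 1)

def mulT (x y : T) : T :=
  (x.1 * y.1 + x.2.1 * y.2.2.1, x.1 * y.2.1 + x.2.1 * y.2.2.2,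
   x.2.2.1 * y.1 + x.2.2.2 * y.2.2.1, x.2.2.1 * y.2.1 + x.2.2.2 * y.2.2.2)

def invT (x : T) : T := (x.2.2.2, -x.2.1, -x.2.2.1, x.1)

def dT (x : T) : Prop := x.1 * x.2.2.2 - x.2.1 * x.2.2.1 = 1

instance : DecidablePred dT := fun x => by unfold dT; infer_instance

theorem ent_inj : Function.Injective ent := by
  intro g h e
  simp only [ent, Prod.mk.injEq] at e
  obtain ⟨h1, h2, h3, h4⟩ := e
  ext i j
  fin_cases i <;> fin_cases j <;> assumption

theorem ent_mul (g h : G) : ent (g * h) = mulT (ent g) (ent h) := by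
  simp [ent, mulT, Matrix.mul_apply, Fin.sum_univ_two]

theorem ent_inv (g : G) : ent g⁻¹ = invT (ent g) := by
  simp [ent, invT, Matrix.SpecialLinearGroup.SL2_inv_expl]

theorem ent_one : ent 1 = (1, 0, 0, 1) := by
  simp [ent]

theorem dT_ent (g : G) : dT (ent g) := by
  have := g.2
  rw [Matrix.det_fin_two] at this
  exact this

theorem exists_ent (x : T) (h : dT x) : ∃ g : G, ent g = x :=
  ⟨mk4 x.1 x.2.1 x.2.2.1 x.2.2.2 h, rfl⟩

def eqv : G ≃ {x : T // dT x} where
  toFun g := ⟨ent g, dT_ent g⟩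
  invFun x := mk4 x.1.1 x.1.2.1 x.1.2.2.1 x.1.2.2.2 x.2
  left_inv _ := ent_inj rfl
  right_inv _ := rfl

theorem card_G : Nat.card G = 24 := by
  rw [Nat.card_congr eqv, Nat.card_eq_fintype_card]; decide +kernel

def qT (x : T) : Prop := x.1 + x.2.2.2 = 0 ∨ x = (1, 0, 0, 1) ∨ x = (-1, 0, 0, -1)

instance : DecidablePred qT := fun x => by unfold qT; infer_instance

def zT (x : T) : Prop := x = (1, 0, 0, 1) ∨ x = (-1, 0, 0, -1)

instance : DecidablePred zT := fun x => by unfold zT; infer_instance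

theorem f1 : ∀ x y : T, dT x → dT y → qT x → qT y → qT (mulT x y) := by decide +kernel
theorem f2 : ∀ x : T, qT x → qT (invT x) := by decide +kernel
theorem f3 : ∀ x y : T, dT x → dT y → qT (mulT (mulT (mulT x y) (invT x)) (invT y)) := by
  decide +kernel
set_option synthInstance.maxSize 2000 in
theorem f4 : ∀ z : T, dT z → qT z → ∃ x y : T, dT x ∧ dT y ∧
    mulT (mulT (mulT x y) (invT x)) (invT y) = z := by decide +kernel
theorem f5 : ∀ z : T, dT z → (zT z ↔ ∀ x : T, dT x → mulT x z = mulT z x) := by decide +kernel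
set_option synthInstance.maxSize 2000 in
theorem f6 : ∀ g : T, dT g → ¬ qT g → ∃ u : T, dT u ∧ 
    qT (mulT g (mulT (mulT u (invT g)) (invT u))) ∧ ¬ zT (mulT g (mulT (mulT u (invT g)) (invT u))) := by
  decide +kernel
theorem f7 : ∀ g : T, dT g → ¬ qT g → ∀ k : T, dT k → qT k ∨ qT (mulT k g) ∨ qT (mulT k (invT g)) := by
  decide +kernel
set_option synthInstance.maxSize 2000 in
theorem f8 : ∀ g : T, dT g → qT g → ¬ zT g → ∀ k : T, dT k → qT k → ∃ u v : T, dT u ∧ dT v ∧
    mulT (mulT (mulT u g) (invT u)) (mulT (mulT v g) (invT v)) = k := by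
  decide +kernel

def Q : Subgroup G where
  carrier := {g | qT (ent g)}
  mul_mem' := fun {a b} ha hb => by
    show qT (ent (a * b))
    rw [ent_mul]; exact f1 _ _ (dT_ent a) (dT_ent b) ha hb
  one_mem' := by show qT (ent 1); rw [ent_one]; decide
  inv_mem' := fun {a} ha => by
    show qT (ent a⁻¹)
    rw [ent_inv]; exact f2 _ ha

theorem mem_Q {g : G} : g ∈ Q ↔ qT (ent g) := Iff.rfl

theorem comm_eq : commutator G = Q := by
  apply le_antisymm
  · rw [commutator_def, Subgroup.commutator_le]
    intro g _ h _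
    rw [mem_Q, commutatorElement_def, ent_mul, ent_mul, ent_mul, ent_inv, ent_inv]
    exact f3 _ _ (dT_ent g) (dT_ent h)
  · intro z hz
    obtain ⟨x, y, hx, hy, e⟩ := f4 _ (dT_ent z) hz
    obtain ⟨g, rfl⟩ := exists_ent x hx
    obtain ⟨h, rfl⟩ := exists_ent y hy
    have : z = ⁅g, h⁆ := by
      apply ent_inj
      rw [commutatorElement_def, ent_mul, ent_mul, ent_mul, ent_inv, ent_inv, e]
    rw [this]
    exact Subgroup.commutator_mem_commutator (Subgroup.mem_top _) (Subgroup.mem_top _)

theorem mem_Z {g : G} : g ∈ Subgroup.center G ↔ zT (ent g) := by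
  rw [Subgroup.mem_center_iff, f5 _ (dT_ent g)]
  constructor
  · intro h x hx
    obtain ⟨k, rfl⟩ := exists_ent x hx
    rw [← ent_mul, ← ent_mul, h]
  · intro h k
    apply ent_inj
    rw [ent_mul, ent_mul]
    exact h _ (dT_ent k)

theorem card_sub (S : Subgroup G) (p : T → Prop) [DecidablePred p] (h : ∀ g, g ∈ S ↔ p (ent g)) :
    Nat.card S = Fintype.card {x : T // dT x ∧ p x} := by
  rw [← Nat.card_eq_fintype_card]
  refine Nat.card_congr (Equiv.ofBijective (fun g => ⟨ent g.1, dT_ent _, (h _).1 g.2⟩) ⟨?_, ?_⟩)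
  · intro a b e
    exact Subtype.ext (ent_inj (congrArg Subtype.val e))
  · rintro ⟨x, hx, hp⟩
    obtain ⟨g, rfl⟩ := exists_ent x hx
    exact ⟨⟨g, (h g).2 hp⟩, rfl⟩

theorem card_Q : Nat.card Q = 8 := by
  rw [card_sub Q qT (fun _ => mem_Q)]; decide +kernel

theorem card_Z : Nat.card (Subgroup.center G) = 2 := by
  rw [card_sub _ zT (fun _ => mem_Z)]; decide +kernel

def aT (i : ZMod (2 * 2)) : T :=
  if i = 0 then (1, 0, 0, 1) else if i = 1 then (0, 1, -1, 0) else if i = 2 then (-1, 0, 0, -1)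
  else (0, -1, 1, 0)

def qu : QuaternionGroup 2 → T
  | QuaternionGroup.a i => aT i
  | QuaternionGroup.xa i => mulT (1, 1, 1, -1) (aT i)

theorem q1 : ∀ x, dT (qu x) ∧ qT (qu x) := by decide +kernel
theorem q2 : ∀ x y, qu (x * y) = mulT (qu x) (qu y) := by decide +kernel
theorem q3 : ∀ x y, qu x = qu y → x = y := by decide +kernel
theorem q4 : ∀ z : T, dT z → qT z → ∃ x, qu x = z := by decide +kernel

noncomputable def quH : QuaternionGroup 2 →* Q :=
  MonoidHom.mk' (fun x => ⟨eqv.symm ⟨qu x, (q1 x).1⟩, (q1 x).2⟩) (by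
    intro x y
    apply Subtype.ext
    apply ent_inj
    rw [Subgroup.coe_mul, ent_mul]
    exact q2 x y)

theorem quH_bij : Function.Bijective quH := by
  constructor
  · intro x y e
    exact q3 _ _ (congrArg (fun g : Q => ent g.1) e)
  · intro z
    obtain ⟨x, hx⟩ := q4 _ (dT_ent z.1) z.2
    exact ⟨x, Subtype.ext (ent_inj hx)⟩

theorem Q_le {N : Subgroup G} (hN : N.Normal) {g : G} (hg : g ∈ N) (h1 : qT (ent g))
    (h2 : ¬ zT (ent g)) : Q ≤ N := by
  intro k hk
  obtain ⟨u, v, hu, hv, e⟩ := f8 _ (dT_ent g) h1 h2 _ (dT_ent k) hk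
  obtain ⟨u, rfl⟩ := exists_ent u hu
  obtain ⟨v, rfl⟩ := exists_ent v hv
  have : k = (u * g * u⁻¹) * (v * g * v⁻¹) := by
    apply ent_inj
    simp only [ent_mul, ent_inv, e]
  rw [this]
  exact N.mul_mem (hN.conj_mem _ hg _) (hN.conj_mem _ hg _)


/-- The group SL₂ over the field with 3 elements has order 24 and centre of order 2; its commutator subgroup has order 8, is isomorphic to the quaternion group of order 8 and is complemented by every Sylow 3-subgroup (so the group is a semidirect product of a quaternion group of order 8 by a cyclic group of order 3); and its only normal subgroups besides the trivial subgroup and the whole group are the centre and the commutator subgroup. -/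
theorem result :
    Nat.card (Matrix.SpecialLinearGroup (Fin 2) (ZMod 3)) = 24 ∧
    Nat.card (Subgroup.center (Matrix.SpecialLinearGroup (Fin 2) (ZMod 3))) = 2 ∧
    Nat.card (commutator (Matrix.SpecialLinearGroup (Fin 2) (ZMod 3))) = 8 ∧
    Nonempty (commutator (Matrix.SpecialLinearGroup (Fin 2) (ZMod 3)) ≃* QuaternionGroup 2) ∧
    (∀ P : Sylow 3 (Matrix.SpecialLinearGroup (Fin 2) (ZMod 3)),
      Subgroup.IsComplement' (commutator (Matrix.SpecialLinearGroup (Fin 2) (ZMod 3)))
        (P : Subgroup (Matrix.SpecialLinearGroup (Fin 2) (ZMod 3)))) ∧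
    ∀ N : Subgroup (Matrix.SpecialLinearGroup (Fin 2) (ZMod 3)), N.Normal →
      N = ⊥ ∨ N = ⊤ ∨ N = Subgroup.center (Matrix.SpecialLinearGroup (Fin 2) (ZMod 3)) ∨
        N = commutator (Matrix.SpecialLinearGroup (Fin 2) (ZMod 3)) := by
  refine ⟨card_G, card_Z, by rw [comm_eq, card_Q], ?_, ?_, ?_⟩
  · rw [comm_eq]
    exact ⟨(MulEquiv.ofBijective quH quH_bij).symm⟩
  · intro P
    have : Fact (Nat.Prime 3) := ⟨by norm_num⟩
    have hP : Nat.card P = 3 := by
      rw [P.card_eq_multiplicity, card_G]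
      have : Nat.factorization 24 3 = 1 := by
        rw [Nat.factorization_def _ (by norm_num)]
        decide +kernel
      rw [this]; rfl
    rw [comm_eq]
    apply Subgroup.isComplement'_of_coprime
    · rw [card_Q, hP, card_G]
    · rw [card_Q, hP]; norm_num
  · intro N hN
    rw [comm_eq]
    by_cases h1 : ∃ g ∈ N, ¬ qT (ent g)
    · obtain ⟨g, hg, hq⟩ := h1
      right; left
      obtain ⟨u, hu, a1, a2⟩ := f6 _ (dT_ent g) hq
      obtain ⟨u, rfl⟩ := exists_ent u hu
      have hQ : Q ≤ N := by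
        refine Q_le hN (g := g * (u * g⁻¹ * u⁻¹)) (N.mul_mem hg (hN.conj_mem _ (N.inv_mem hg) _)) ?_ ?_
        · simpa only [ent_mul, ent_inv] using a1
        · simpa only [ent_mul, ent_inv] using a2
      rw [eq_top_iff]
      intro k _
      rcases f7 _ (dT_ent g) hq _ (dT_ent k) with h | h | h
      · exact hQ h
      · have : k * g ∈ N := hQ (by rw [mem_Q, ent_mul]; exact h)
        simpa using N.mul_mem this (N.inv_mem hg)
      · have : k * g⁻¹ ∈ N := hQ (by rw [mem_Q, ent_mul, ent_inv]; exact h)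
        simpa using N.mul_mem this hg
    · push Not at h1
      by_cases h2 : ∃ g ∈ N, ¬ zT (ent g)
      · obtain ⟨g, hg, hz⟩ := h2
        right; right; right
        exact le_antisymm (fun k hk => h1 k hk) (Q_le hN hg (h1 g hg) hz)
      · push Not at h2
        by_cases h3 : ∃ g ∈ N, g ≠ 1
        · obtain ⟨g, hg, hne⟩ := h3
          right; right; left
          apply le_antisymm (fun k hk => mem_Z.2 (h2 k hk))
          intro k hk
          rcases mem_Z.1 hk with h | h
          · have : k = 1 := ent_inj (by rw [ent_one, h])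
            rw [this]; exact N.one_mem
          · rcases h2 g hg with h' | h'
            · exact absurd (ent_inj (by rw [ent_one, h'])) hne
            · have : k = g := ent_inj (by rw [h, h'])
              rw [this]; exact hg
        · push Not at h3
          left
          rw [eq_bot_iff]
          intro k hk
          exact h3 k hk

end Cfsg.Agent.S2427
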