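import Cfsg.Statements.S2428
import Cfsg.Agent.SL2.Norm

set_option autoImplicit false
open Cfsg

namespace Cfsg.Agent.S2428

open Cfsg.Agent.SL2

/-- Let F be a finite field with q elements, q odd, and let d be a diagonal element of SL₂ over F whose diagonal entry a has a² ≠ 1 (such d exist exactly when q > 3). Then the centraliser of d is precisely the diagonal subgroup T; the normaliser of T has order 2(q − 1) and exactly (q + 5)/2 conjugacy classes; and every element of that normaliser outside T has square equal to −1. -/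
theorem result {F : Type*} [Field F] [Fintype F] (hodd : Odd (Fintype.card F))
    (d : Matrix.SpecialLinearGroup (Fin 2) F) (hd01 : (d : Matrix (Fin 2) (Fin 2) F) 0 1 = 0) (hd10 : (d : Matrix (Fin 2) (Fin 2) F) 1 0 = 0) (hda : (d : Matrix (Fin 2) (Fin 2) F) 0 0 ^ 2 ≠ 1) :
    (∀ g : Matrix.SpecialLinearGroup (Fin 2) F, g ∈ Subgroup.centralizer ({d} : Set (Matrix.SpecialLinearGroup (Fin 2) F)) ↔ ((g : Matrix (Fin 2) (Fin 2) F) 0 1 = 0 ∧ (g : Matrix (Fin 2) (Fin 2) F) 1 0 = 0)) ∧
    Nat.card (Subgroup.normalizer ((Subgroup.centralizer ({d} : Set (Matrix.SpecialLinearGroup (Fin 2) F))) : Set (Matrix.SpecialLinearGroup (Fin 2) F))) = 2 * (Fintype.card F - 1) ∧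
    Nat.card (ConjClasses (Subgroup.normalizer ((Subgroup.centralizer ({d} : Set (Matrix.SpecialLinearGroup (Fin 2) F))) : Set (Matrix.SpecialLinearGroup (Fin 2) F)))) = (Fintype.card F + 5) / 2 ∧
    ∀ g : Matrix.SpecialLinearGroup (Fin 2) F, g ∈ Subgroup.normalizer ((Subgroup.centralizer ({d} : Set (Matrix.SpecialLinearGroup (Fin 2) F))) : Set (Matrix.SpecialLinearGroup (Fin 2) F)) →
      g ∉ Subgroup.centralizer ({d} : Set (Matrix.SpecialLinearGroup (Fin 2) F)) → ((g * g) : Matrix (Fin 2) (Fin 2) F) = -1 := by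
  have h2 : (2 : F) ≠ 0 := two_ne_zero_of_odd hodd
  have hdet := sl_det d
  rw [hd01] at hdet
  have hne : d.1 0 0 ≠ d.1 1 1 := fun e => hda (by rw [sq]; nth_rewrite 2 [e]; linear_combination hdet)
  have hspl : Spl d.1.trace 1 := ⟨_, _, hne, by rw [Matrix.trace_fin_two], by linear_combination hdet⟩
  have hs := hspl.disc_one
  have hq : 1 < Fintype.card F := Fintype.one_lt_card
  refine ⟨fun g => ?_, ?_, ?_, fun g hg hg' => ?_⟩
  · rw [mem_cent_sl, m2_ext_iff]
    simp only [mul_ap, hd01, hd10]
    have hne' := sub_ne_zero.2 hne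
    constructor
    · rintro ⟨-, h1, h3, -⟩
      constructor
      · apply mul_right_cancel₀ hne'; linear_combination -h1
      · apply mul_right_cancel₀ hne'; linear_combination h3
    · rintro ⟨h1, h3⟩
      simp [h1, h3, mul_comm]
  · rw [card_ncen hs, card_cent_spl hspl]
  · have := card_conjClasses_ncen h2 hs
    rw [card_cent_spl hspl] at this
    change Nat.card (ConjClasses (NCen d)) = _
    omega
  · exact congrArg Subtype.val (sq_of_inverts hs (inverts_of_mem_ncen hs hg hg'))

end Cfsg.Agent.S2428
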