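import Cfsg.Statements.S2429
import Cfsg.Agent.SL2.More

set_option autoImplicit false
open Cfsg

namespace Cfsg.Agent.S2429

open Cfsg.Agent.SL2

/-- Let F be a finite field with q elements, q odd. Then SL₂ over F contains a cyclic subgroup T′ of order q + 1 (a non-split torus) with the following properties: T′ is its own centraliser, and indeed the centraliser of each element of T′ other than 1 and −1 is exactly T′; every element of SL₂ having no eigenvector in F² is conjugate to an element of T′; the normaliser of T′ has order 2(q + 1) and exactly (q + 7)/2 conjugacy classes; and every element of that normaliser outside T′ has square −1. -/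
theorem result {F : Type*} [Field F] [Fintype F] (hodd : Odd (Fintype.card F)) :
    ∃ T' : Subgroup (Matrix.SpecialLinearGroup (Fin 2) F), IsCyclic T' ∧ Nat.card T' = Fintype.card F + 1 ∧
      Subgroup.centralizer ((T' : Set (Matrix.SpecialLinearGroup (Fin 2) F))) = T' ∧
      (∀ g : Matrix.SpecialLinearGroup (Fin 2) F, g ∈ T' → (g : Matrix (Fin 2) (Fin 2) F) ≠ 1 → (g : Matrix (Fin 2) (Fin 2) F) ≠ -1 → Subgroup.centralizer ({g} : Set (Matrix.SpecialLinearGroup (Fin 2) F)) = T') ∧
      (∀ g : Matrix.SpecialLinearGroup (Fin 2) F, (∀ (c : F) (v : Fin 2 → F), v ≠ 0 → (g : Matrix (Fin 2) (Fin 2) F).mulVec v ≠ c • v) → ∃ h : Matrix.SpecialLinearGroup (Fin 2) F, h * g * h⁻¹ ∈ T') ∧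
      Nat.card (Subgroup.normalizer (T' : Set (Matrix.SpecialLinearGroup (Fin 2) F))) = 2 * (Fintype.card F + 1) ∧
      Nat.card (ConjClasses (Subgroup.normalizer (T' : Set (Matrix.SpecialLinearGroup (Fin 2) F)))) = (Fintype.card F + 7) / 2 ∧
      ∀ g : Matrix.SpecialLinearGroup (Fin 2) F, g ∈ Subgroup.normalizer (T' : Set (Matrix.SpecialLinearGroup (Fin 2) F)) → g ∉ T' → ((g * g) : Matrix (Fin 2) (Fin 2) F) = -1 := by
  have h2 : (2 : F) ≠ 0 := two_ne_zero_of_odd hodd
  obtain ⟨t, ht⟩ := exists_ell (F := F)
  have hell : Ell (cmp t).1.trace 1 := by rwa [trace_cmp]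
  have hs := hell.disc_one
  have hs' := sl_not_isScal_of_disc hs
  refine ⟨Cen (cmp t), isCyclic_cent_ell hell, card_cent_ell hell, ?_, fun g hg h1 h1' => ?_,
    fun g hg => ?_, ?_, ?_, fun g hg hg' => ?_⟩
  · apply le_antisymm
    · exact Subgroup.centralizer_le (Set.singleton_subset_iff.2 (self_mem_cent _))
    · intro g hg
      rw [Subgroup.mem_centralizer_iff]
      intro h hh
      exact cent_comm hs' hh hg
  · refine cent_eq_of_mem hs' (fun h => ?_) hg
    rcases sl_isScal_iff.1 h with e | e
    · exact h1 (congrArg Subtype.val e)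
    · exact h1' (congrArg Subtype.val e)
  · have hg' : Ell g.1.trace 1 := by
      have := ell_iff_no_eigenvector.2 hg
      rwa [g.2] at this
    obtain ⟨x, hx, htr⟩ := exists_mem_cen_ell_trace hell hg'
    obtain ⟨c, hc⟩ := isConj_iff.1 (sl_isConj_of_trace hg'.disc_one htr.symm)
    exact ⟨c, by rw [hc]; exact hx⟩
  · rw [card_ncen hs, card_cent_ell hell]
  · have := card_conjClasses_ncen h2 hs
    rw [card_cent_ell hell] at this
    change Nat.card (ConjClasses (NCen (cmp t))) = _
    omega
  · exact congrArg Subtype.val (sq_of_inverts hs (inverts_of_mem_ncen hs hg hg'))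

end Cfsg.Agent.S2429
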