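import Cfsg.Statements.S2433
import Cfsg.Agent.GL2Char.SLCount

set_option autoImplicit false
open Cfsg

namespace Cfsg.Agent.S2433

open Cfsg.Agent.CharLib Cfsg.Agent.GL2Char

/-- Let F be a finite field with q elements, q odd, α a multiplicative character of F, and R(α) the function on SL₂ induced from the linear character b ↦ α(b₁₁) of the upper triangular subgroup. Then R(α) takes the value α(a) + α(a⁻¹) at a diagonal element with entries a, a⁻¹, a² ≠ 1; the value 0 at every element with no eigenvector in F²; the value α(ε) at an upper triangular element with both diagonal entries ε and non-zero upper right entry; and the value (q + 1)α(ε) at the scalar element ε (ε = ±1). -/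
theorem result {F : Type*} [Field F] [Fintype F] [DecidableEq F] (hodd : Odd (Fintype.card F)) (α : MulChar F ℂ) (g : Matrix.SpecialLinearGroup (Fin 2) F) :
    ((g : Matrix (Fin 2) (Fin 2) F) 0 1 = 0 → (g : Matrix (Fin 2) (Fin 2) F) 1 0 = 0 → (g : Matrix (Fin 2) (Fin 2) F) 0 0 ^ 2 ≠ 1 →
      (Cfsg.indFun ((Cfsg.upperTriangularGL 2 F).comap Matrix.SpecialLinearGroup.toGL) (fun b => α (((b : Matrix.SpecialLinearGroup (Fin 2) F) : Matrix (Fin 2) (Fin 2) F) 0 0))) g = α ((g : Matrix (Fin 2) (Fin 2) F) 0 0) + α ((g : Matrix (Fin 2) (Fin 2) F) 1 1)) ∧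
    ((∀ (c : F) (v : Fin 2 → F), v ≠ 0 → (g : Matrix (Fin 2) (Fin 2) F).mulVec v ≠ c • v) → (Cfsg.indFun ((Cfsg.upperTriangularGL 2 F).comap Matrix.SpecialLinearGroup.toGL) (fun b => α (((b : Matrix.SpecialLinearGroup (Fin 2) F) : Matrix (Fin 2) (Fin 2) F) 0 0))) g = 0) ∧
    ((g : Matrix (Fin 2) (Fin 2) F) 1 0 = 0 → (g : Matrix (Fin 2) (Fin 2) F) 0 0 = (g : Matrix (Fin 2) (Fin 2) F) 1 1 → (g : Matrix (Fin 2) (Fin 2) F) 0 1 ≠ 0 →
      (Cfsg.indFun ((Cfsg.upperTriangularGL 2 F).comap Matrix.SpecialLinearGroup.toGL) (fun b => α (((b : Matrix.SpecialLinearGroup (Fin 2) F) : Matrix (Fin 2) (Fin 2) F) 0 0))) g = α ((g : Matrix (Fin 2) (Fin 2) F) 0 0)) ∧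
    ((g : Matrix (Fin 2) (Fin 2) F) 0 1 = 0 → (g : Matrix (Fin 2) (Fin 2) F) 1 0 = 0 → (g : Matrix (Fin 2) (Fin 2) F) 0 0 = (g : Matrix (Fin 2) (Fin 2) F) 1 1 →
      (Cfsg.indFun ((Cfsg.upperTriangularGL 2 F).comap Matrix.SpecialLinearGroup.toGL) (fun b => α (((b : Matrix.SpecialLinearGroup (Fin 2) F) : Matrix (Fin 2) (Fin 2) F) 0 0))) g = ((Fintype.card F : ℂ) + 1) * α ((g : Matrix (Fin 2) (Fin 2) F) 0 0)) := by
  obtain ⟨K, _, _, _, _, _⟩ := exists_quad F
  have hV := vals_psSL K α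
  refine ⟨fun _ h10 h => ?_, fun h => ?_, fun h10 h1 h01 => ?_, fun h01 h10 h1 => ?_⟩
  · exact hV.dg g _ _ (sl_diag h10 h) (diag_trace_det h10).1 (diag_trace_det h10).2
  · obtain ⟨z, hz, ht, hd⟩ := exists_ell_of_no_eigen K h
    exact hV.el g z hz ht hd
  · refine hV.un g (g.1 0 0) (fun h => h01 h.1) ?_ ?_
    · rw [(diag_trace_det h10).1, ← h1]
    · rw [(diag_trace_det h10).2, ← h1]
  · exact hV.sc g ⟨h01, h10, h1⟩

end Cfsg.Agent.S2433
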