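import Cfsg.Statements.S2434
import Cfsg.Agent.GL2Char.SLCount

set_option autoImplicit false
open Cfsg

namespace Cfsg.Agent.S2434

open Cfsg.Agent.CharLib Cfsg.Agent.GL2Char

/-- Let F be a finite field with q elements, q odd, and C a cyclic subgroup of order q + 1 of SL₂ over F (a non-split torus; it contains the centre). For every homomorphism θ from C to the non-zero complex numbers with θ² ≠ 1 there is an irreducible complex character χ of degree q − 1 such that χ(c) = −θ(c) − θ(c)⁻¹ for every non-central c in C, χ(zg) = θ(z)χ(g) for central z in C, χ vanishes at diagonal elements with entry a, a² ≠ 1, and χ takes the value −1 at every upper unitriangular element other than 1. Conversely every irreducible character of degree q − 1 has, for some such θ, the values −θ(c) − θ(c)⁻¹ at the non-central elements c of C (for q ≥ 5 these are exactly the cuspidal characters of degree q − 1). -/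
theorem result {F : Type*} [Field F] [Fintype F] (hodd : Odd (Fintype.card F))
    (C : Subgroup (Matrix.SpecialLinearGroup (Fin 2) F)) (hC : IsCyclic C) (hcard : Nat.card C = Fintype.card F + 1) :
    (∀ θ : C →* ℂˣ, (∃ c : C, θ c ^ 2 ≠ 1) →
      ∃ χ : Matrix.SpecialLinearGroup (Fin 2) F → ℂ, Cfsg.IsIrrCharacter (Matrix.SpecialLinearGroup (Fin 2) F) χ ∧ χ 1 = (Fintype.card F : ℂ) - 1 ∧
        (∀ c : C, (c : Matrix.SpecialLinearGroup (Fin 2) F) ∉ Subgroup.center (Matrix.SpecialLinearGroup (Fin 2) F) → χ c = -((θ c).val + (θ c)⁻¹.val)) ∧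
        (∀ c : C, (c : Matrix.SpecialLinearGroup (Fin 2) F) ∈ Subgroup.center (Matrix.SpecialLinearGroup (Fin 2) F) → ∀ g : Matrix.SpecialLinearGroup (Fin 2) F, χ ((c : Matrix.SpecialLinearGroup (Fin 2) F) * g) = (θ c).val * χ g) ∧
        (∀ g : Matrix.SpecialLinearGroup (Fin 2) F, (g : Matrix (Fin 2) (Fin 2) F) 0 1 = 0 → (g : Matrix (Fin 2) (Fin 2) F) 1 0 = 0 → (g : Matrix (Fin 2) (Fin 2) F) 0 0 ^ 2 ≠ 1 → χ g = 0) ∧
        (∀ g : Matrix.SpecialLinearGroup (Fin 2) F, (g : Matrix (Fin 2) (Fin 2) F) 1 0 = 0 → (g : Matrix (Fin 2) (Fin 2) F) 0 0 = 1 → (g : Matrix (Fin 2) (Fin 2) F) 1 1 = 1 → (g : Matrix (Fin 2) (Fin 2) F) 0 1 ≠ 0 → χ g = -1)) ∧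
    (∀ χ : Matrix.SpecialLinearGroup (Fin 2) F → ℂ, Cfsg.IsIrrCharacter (Matrix.SpecialLinearGroup (Fin 2) F) χ → χ 1 = (Fintype.card F : ℂ) - 1 →
      ∃ θ : C →* ℂˣ, (∃ c : C, θ c ^ 2 ≠ 1) ∧
        ∀ c : C, (c : Matrix.SpecialLinearGroup (Fin 2) F) ∉ Subgroup.center (Matrix.SpecialLinearGroup (Fin 2) F) → χ c = -((θ c).val + (θ c)⁻¹.val)) := by
  classical
  obtain ⟨K, _, _, _, _, _⟩ := exists_quad F
  obtain ⟨e, he⟩ := exists_torus_equiv K hodd C hC hcard
  have hell : ∀ w : mu F K, (e w : SL2 F) ∉ Subgroup.center (SL2 F) →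
      ((w : Kˣ) : K) ^ Fintype.card F ≠ (w : Kˣ) ∧
      ((e w : SL2 F) : Mat F).trace = Algebra.trace F K ((w : Kˣ) : K) ∧
      ((e w : SL2 F) : Mat F).det = Algebra.norm F ((w : Kˣ) : K) := by
    intro w hw
    refine ⟨fun h => hw ?_, (trace_eq_of_isConj (he w)).symm.trans (iota_trace _),
      (det_eq_of_isConj (he w)).symm.trans (iota_det _)⟩
    have h1 : IsSc (iotaGL F K w : Mat F) := (isSc_iota_iff _).mpr h
    rw [eq_of_isConj_of_isSc h1 (he w)] at h1
    exact Cfsg.Agent.SL2.sl_mem_center_iff.mpr h1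
  have hval : ∀ (θ : MulChar K ℂ) (w : mu F K), (e w : SL2 F) ∉ Subgroup.center (SL2 F) →
      cuspSL F θ (e w) = -((resMu F θ w : ℂ) + ((resMu F θ w)⁻¹ : ℂˣ)) := by
    intro θ w hw
    obtain ⟨h1, h2, h3⟩ := hell w hw
    rw [(vals_cuspSL θ).el _ _ h1 h2 h3, cusp_val_mu]
  have hsq : ∀ θ : MulChar K ℂ, resMu F θ ^ 2 ≠ 1 →
      ∃ c : C, ((resMu F θ).comp e.symm.toMonoidHom) c ^ 2 ≠ 1 := by
    intro θ h
    by_contra hc
    push Not at hc
    exact h (MonoidHom.ext fun w => by simpa using hc (e w))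
  constructor
  · rintro l ⟨c₀, hc₀⟩
    obtain ⟨θ, hθ⟩ := resMu_surjective (F := F) (K := K) (l.comp e.toMonoidHom)
    have h2 : resMu F θ ^ 2 ≠ 1 := by
      intro h
      apply hc₀
      have := DFunLike.congr_fun h (e.symm c₀)
      simpa [hθ] using this
    refine ⟨cuspSL F θ, isIrr_cuspSL h2, cuspSL_apply_one θ, fun c hc => ?_, fun c hc g => ?_,
      fun g _ h10 h => ?_, fun g h10 h00 h11 h01 => ?_⟩
    · obtain ⟨w, rfl⟩ := e.surjective c
      rw [hval θ w hc, hθ]
      rfl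
    · obtain ⟨w, rfl⟩ := e.surjective c
      have h3 := irr_central (isIrr_cuspSL h2) hc g
      have h4 : IsSc ((e w : SL2 F) : Mat F) := Cfsg.Agent.SL2.sl_mem_center_iff.mp hc
      have h5 : Matrix.SpecialLinearGroup.toGL (e w : SL2 F) = iotaGL F K w :=
        eq_of_isConj_of_isSc h4 (he w).symm
      have h6 : iota F K ((w : Kˣ) : K) = ((e w : SL2 F) : Mat F) := (congrArg Units.val h5).symm
      obtain ⟨a, ha⟩ := exists_of_frob_eq (F := F) ((isSc_iota_iff _).mp (h6 ▸ h4))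
      have h7 : l (e w) = θ ((w : Kˣ) : K) := by
        rw [← resMu_apply (F := F), hθ]; rfl
      rw [(vals_cuspSL θ).sc _ h4, cuspSL_apply_one, ← h6, ← ha, iota_algebraMap, mul_assoc] at h3
      rw [h7, ← ha]
      exact mul_left_cancel₀ (q_sub_one_ne (F := F)) h3
    · exact (vals_cuspSL θ).dg g _ _ (sl_diag h10 h) (diag_trace_det h10).1 (diag_trace_det h10).2
    · rw [(vals_cuspSL θ).un g 1 (fun h => h01 h.1) (by rw [(diag_trace_det h10).1, h00, h11])
        (by rw [(diag_trace_det h10).2, h00, h11]), map_one, map_one]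
  · intro χ hχ hd
    rcases sl_degree_q_sub_one K hχ hd with ⟨θ, h1, rfl⟩ | ⟨h2, -⟩ | ⟨h3, α, -, -, χ', h1⟩
    · refine ⟨(resMu F θ).comp e.symm.toMonoidHom, hsq θ h1, fun c hc => ?_⟩
      obtain ⟨w, rfl⟩ := e.surjective c
      rw [hval θ w hc]
      simp
    · rw [h2] at hodd; exact absurd hodd (by decide)
    · have : ∃ l : mu F K →* ℂˣ, ¬ l ^ 2 = 1 := by
        have : Finite (mu F K →* ℂˣ) := Finite.of_surjective _ resMu_surjective
        have h4 := card_subtype_not (fun l : mu F K →* ℂˣ => l ^ 2 = 1)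
        rw [card_hom_cyclic, card_hom_sq_eq_one, card_mu, h3] at h4
        obtain ⟨⟨l, hl⟩⟩ := (Nat.card_pos_iff.mp (lt_of_lt_of_eq (by norm_num) h4.symm)).1
        exact ⟨l, hl⟩
      obtain ⟨l, hl⟩ := this
      obtain ⟨θ, rfl⟩ := resMu_surjective (F := F) (K := K) l
      refine ⟨(resMu F θ).comp e.symm.toMonoidHom, hsq θ hl, fun c hc => ?_⟩
      obtain ⟨w, rfl⟩ := e.surjective c
      obtain ⟨h4, h5, h6⟩ := hell w hc
      have h7 := h1.two_mul (h1.semisimple (ell_disc h4 h5 h6))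
      rw [(vals_psSL K α).el _ _ h4 h5 h6] at h7
      have h8 := cusp_val_three h3 hl h4
      simp only [MonoidHom.comp_apply, MulEquiv.coe_toMonoidHom, MulEquiv.symm_apply_apply]
      rw [h8]
      simpa using h7

end Cfsg.Agent.S2434
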