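import Cfsg.Statements.S2435
import Cfsg.Agent.GL2Char.SLCount

set_option autoImplicit false
open Cfsg

namespace Cfsg.Agent.S2435

open Cfsg.Agent.CharLib Cfsg.Agent.GL2Char

/-- Let F be a finite field with q elements, q odd and q ≥ 5, and χ an irreducible complex character of SL₂ over F. If χ has degree (q + 1)/2, then at a diagonal element with entry a, a² ≠ 1, χ takes the value 1 when a is a square in F and −1 otherwise. If χ has degree (q − 1)/2, then at an element g with no eigenvector in F² (so g has order dividing q + 1), χ takes the value −1 when g raised to the power (q + 1)/2 is the identity and the value 1 otherwise. -/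
theorem result {F : Type*} [Field F] [Fintype F] (hodd : Odd (Fintype.card F)) (hq : 5 ≤ Fintype.card F)
    (χ : Matrix.SpecialLinearGroup (Fin 2) F → ℂ) (hχ : Cfsg.IsIrrCharacter (Matrix.SpecialLinearGroup (Fin 2) F) χ) (g : Matrix.SpecialLinearGroup (Fin 2) F) :
    (χ 1 = (((Fintype.card F + 1) / 2 : ℕ) : ℂ) → (g : Matrix (Fin 2) (Fin 2) F) 0 1 = 0 → (g : Matrix (Fin 2) (Fin 2) F) 1 0 = 0 → (g : Matrix (Fin 2) (Fin 2) F) 0 0 ^ 2 ≠ 1 →
      (IsSquare ((g : Matrix (Fin 2) (Fin 2) F) 0 0) → χ g = 1) ∧ (¬ IsSquare ((g : Matrix (Fin 2) (Fin 2) F) 0 0) → χ g = -1)) ∧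
    (χ 1 = (((Fintype.card F - 1) / 2 : ℕ) : ℂ) → (∀ (c : F) (v : Fin 2 → F), v ≠ 0 → (g : Matrix (Fin 2) (Fin 2) F).mulVec v ≠ c • v) →
      (((g ^ ((Fintype.card F + 1) / 2)) : Matrix (Fin 2) (Fin 2) F) = 1 → χ g = -1) ∧ (((g ^ ((Fintype.card F + 1) / 2)) : Matrix (Fin 2) (Fin 2) F) ≠ 1 → χ g = 1)) := by
  classical
  obtain ⟨K, _, _, _, _, _⟩ := exists_quad F
  have ha := cast_half_add hodd
  have hs := cast_half_sub hodd
  refine ⟨fun hd _ h10 h => ?_, fun hd h => ?_⟩
  · rcases sl_degree_half_add K hχ (by rw [hd, ha]) with ⟨α, a1, a2, χ', h1⟩ | ⟨h3, -⟩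
    · have h2 := h1.two_mul (h1.semisimple (sl_diag_disc h10 h))
      rw [(vals_psSL K α).dg g _ _ (sl_diag h10 h) (diag_trace_det h10).1
        (diag_trace_det h10).2] at h2
      have hdet := (diag_trace_det h10).2
      rw [SL2_det] at hdet
      have h0 : g.1 0 0 ≠ 0 := left_ne_zero_of_mul_eq_one hdet.symm
      have h11 : g.1 1 1 = (g.1 0 0)⁻¹ := eq_inv_of_mul_eq_one_right hdet.symm
      constructor
      · intro hsq
        rw [quad_apply_square a2 h0 hsq, h11, quad_apply_square a2 (inv_ne_zero h0) hsq.inv] at h2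
        linear_combination h2 / 2
      · intro hsq
        rw [quad_apply_nonsquare a1 a2 hsq, h11,
          quad_apply_nonsquare a1 a2 (by rwa [isSquare_inv])] at h2
        linear_combination h2 / 2
    · omega
  · rcases sl_degree_half_sub K hχ (by rw [hd, hs]) with ⟨θ, a1, a2, χ', h1⟩ | ⟨h3, -⟩
    · obtain ⟨z, hz, ht, hdet⟩ := exists_ell_of_no_eigen K h
      have h2 := h1.two_mul (h1.semisimple (ell_disc hz ht hdet))
      obtain ⟨w, rfl⟩ := exists_mu (hdet.symm.trans (SL2_det _))
      rw [(vals_cuspSL (F := F) θ).el g _ hz ht hdet, cusp_val_mu, Units.val_inv_eq_inv_val] at h2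
      have h3 := (cyclic_quad a1 a2).2 w
      rw [card_mu] at h3
      have h4 := ell_pow_eq_one_iff hz ht ((Fintype.card F + 1) / 2)
      constructor
      · intro h5
        rw [h3.1 (h4.mp h5)] at h2
        linear_combination h2 / 2
      · intro h5
        rw [h3.2 (h4.not.mp h5)] at h2
        norm_num at h2
        exact h2
    · omega

end Cfsg.Agent.S2435
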