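import Cfsg.Statements.S2438
import Cfsg.Agent.GL2Char.SLCount

set_option autoImplicit false
open Cfsg

namespace Cfsg.Agent.S2438

open Cfsg.Agent.CharLib Cfsg.Agent.GL2Char

/-- Let F be a finite field with q elements, q odd, q ≥ 5, U the upper unitriangular subgroup of SL₂ over F, and χ an irreducible complex character. The sum of the values of χ over U equals 2q, q, 0, q, 0 according as the degree of χ is q + 1, q, q − 1, (q + 1)/2, (q − 1)/2; so among these five degrees the sum vanishes exactly for the degrees q − 1 and (q − 1)/2, i.e. the irreducible characters of those two degrees are the ones whose restriction to U does not contain the trivial character (the cuspidal characters), while those of degree q + 1, q and (q + 1)/2 are not cuspidal. -/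
theorem result {F : Type*} [Field F] [Fintype F] [DecidableEq F] (hodd : Odd (Fintype.card F)) (hq : 5 ≤ Fintype.card F)
    (χ : Matrix.SpecialLinearGroup (Fin 2) F → ℂ) (hχ : Cfsg.IsIrrCharacter (Matrix.SpecialLinearGroup (Fin 2) F) χ) :
    (χ 1 = (Fintype.card F : ℂ) + 1 →
      (∑ g : Matrix.SpecialLinearGroup (Fin 2) F, if (g : Matrix (Fin 2) (Fin 2) F) 1 0 = 0 ∧ (g : Matrix (Fin 2) (Fin 2) F) 0 0 = 1 ∧ (g : Matrix (Fin 2) (Fin 2) F) 1 1 = 1 then χ g else 0) = 2 * (Fintype.card F : ℂ)) ∧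
    (χ 1 = (Fintype.card F : ℂ) →
      (∑ g : Matrix.SpecialLinearGroup (Fin 2) F, if (g : Matrix (Fin 2) (Fin 2) F) 1 0 = 0 ∧ (g : Matrix (Fin 2) (Fin 2) F) 0 0 = 1 ∧ (g : Matrix (Fin 2) (Fin 2) F) 1 1 = 1 then χ g else 0) = (Fintype.card F : ℂ)) ∧
    (χ 1 = (Fintype.card F : ℂ) - 1 →
      (∑ g : Matrix.SpecialLinearGroup (Fin 2) F, if (g : Matrix (Fin 2) (Fin 2) F) 1 0 = 0 ∧ (g : Matrix (Fin 2) (Fin 2) F) 0 0 = 1 ∧ (g : Matrix (Fin 2) (Fin 2) F) 1 1 = 1 then χ g else 0) = 0) ∧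
    (χ 1 = (((Fintype.card F + 1) / 2 : ℕ) : ℂ) →
      (∑ g : Matrix.SpecialLinearGroup (Fin 2) F, if (g : Matrix (Fin 2) (Fin 2) F) 1 0 = 0 ∧ (g : Matrix (Fin 2) (Fin 2) F) 0 0 = 1 ∧ (g : Matrix (Fin 2) (Fin 2) F) 1 1 = 1 then χ g else 0) = (Fintype.card F : ℂ)) ∧
    (χ 1 = (((Fintype.card F - 1) / 2 : ℕ) : ℂ) →
      (∑ g : Matrix.SpecialLinearGroup (Fin 2) F, if (g : Matrix (Fin 2) (Fin 2) F) 1 0 = 0 ∧ (g : Matrix (Fin 2) (Fin 2) F) 0 0 = 1 ∧ (g : Matrix (Fin 2) (Fin 2) F) 1 1 = 1 then χ g else 0) = 0) := by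
  obtain ⟨K, _, _, _, _, _⟩ := exists_quad F
  have ha := cast_half_add hodd
  have hs := cast_half_sub hodd
  rw [sum_ite_unip]
  have hp : ∀ α : MulChar F ℂ, ∑ b, psSL α (Cfsg.Agent.SL2.upT b) = 2 * (Fintype.card F : ℂ) := by
    intro α
    rw [(vals_psSL K α).sum_upT, map_one]; ring
  have hc : ∀ θ : MulChar K ℂ, ∑ b, cuspSL F θ (Cfsg.Agent.SL2.upT b) = 0 := by
    intro θ
    rw [(vals_cuspSL θ).sum_upT, map_one, map_one]; ring
  refine ⟨fun hd => ?_, fun hd => ?_, fun hd => ?_, fun hd => ?_, fun hd => ?_⟩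
  · obtain ⟨α, -, rfl⟩ := sl_degree_q_add_one hχ hd
    exact hp α
  · obtain rfl := sl_degree_q hχ hd
    rw [(vals_stSL F K).sum_upT]; ring
  · rcases sl_degree_q_sub_one K hχ hd with ⟨θ, -, rfl⟩ | ⟨h2, -⟩ | ⟨h2, -⟩
    · exact hc θ
    · omega
    · omega
  · rcases sl_degree_half_add K hχ (by rw [hd, ha]) with ⟨α, -, -, χ', h1⟩ | ⟨h3, -⟩
    · have := h1.sum_upT
      rw [hp] at this
      linear_combination this / 2
    · omega
  · rcases sl_degree_half_sub K hχ (by rw [hd, hs]) with ⟨θ, -, -, χ', h1⟩ | ⟨h3, -⟩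
    · have := h1.sum_upT
      rw [hc] at this
      linear_combination this / 2
    · omega

end Cfsg.Agent.S2438
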