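import Cfsg.Statements.S2439
import Cfsg.Agent.GL2Char.SLBlocks

set_option autoImplicit false
open Cfsg

namespace Cfsg.Agent.S2439

open Cfsg.Agent.CharLib Cfsg.Agent.GL2Char

/-- Let F be a finite field with q elements of odd characteristic p, and M a maximal ideal of the algebraic integers containing p. Then SL₂ over F has exactly three p-blocks relative to M: the irreducible character of degree q (the Steinberg character) alone; the other irreducible characters taking the same value at −1 as at 1 (the principal block); and the irreducible characters χ with χ(−1) = −χ(1). Every Sylow p-subgroup is a defect group of each of the last two blocks. -/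
theorem result {F : Type*} [Field F] [Fintype F] (p : ℕ) [Fact p.Prime] [CharP F p] (hp : p ≠ 2)
    (M : Ideal Cfsg.AlgInt) (hM : Cfsg.IsPModular p M) :
    (∀ B : Set (Cfsg.IrrCharacter (Matrix.SpecialLinearGroup (Fin 2) F)), Cfsg.IsPBlock M B ↔
      (B = {χ : Cfsg.IrrCharacter (Matrix.SpecialLinearGroup (Fin 2) F) | (χ : Matrix.SpecialLinearGroup (Fin 2) F → ℂ) 1 = (Fintype.card F : ℂ)} ∨
       B = {χ : Cfsg.IrrCharacter (Matrix.SpecialLinearGroup (Fin 2) F) | (χ : Matrix.SpecialLinearGroup (Fin 2) F → ℂ) (-1) = (χ : Matrix.SpecialLinearGroup (Fin 2) F → ℂ) 1 ∧ (χ : Matrix.SpecialLinearGroup (Fin 2) F → ℂ) 1 ≠ (Fintype.card F : ℂ)} ∨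
       B = {χ : Cfsg.IrrCharacter (Matrix.SpecialLinearGroup (Fin 2) F) | (χ : Matrix.SpecialLinearGroup (Fin 2) F → ℂ) (-1) = -(χ : Matrix.SpecialLinearGroup (Fin 2) F → ℂ) 1})) ∧
    Nat.card {B : Set (Cfsg.IrrCharacter (Matrix.SpecialLinearGroup (Fin 2) F)) // Cfsg.IsPBlock M B} = 3 ∧
    ∀ P : Sylow p (Matrix.SpecialLinearGroup (Fin 2) F),
      Cfsg.IsDefectGroup p M {χ : Cfsg.IrrCharacter (Matrix.SpecialLinearGroup (Fin 2) F) | (χ : Matrix.SpecialLinearGroup (Fin 2) F → ℂ) (-1) = (χ : Matrix.SpecialLinearGroup (Fin 2) F → ℂ) 1 ∧ (χ : Matrix.SpecialLinearGroup (Fin 2) F → ℂ) 1 ≠ (Fintype.card F : ℂ)} (P : Subgroup (Matrix.SpecialLinearGroup (Fin 2) F)) ∧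
      Cfsg.IsDefectGroup p M {χ : Cfsg.IrrCharacter (Matrix.SpecialLinearGroup (Fin 2) F) | (χ : Matrix.SpecialLinearGroup (Fin 2) F → ℂ) (-1) = -(χ : Matrix.SpecialLinearGroup (Fin 2) F → ℂ) 1} (P : Subgroup (Matrix.SpecialLinearGroup (Fin 2) F)) := by
  classical
  have hP := hM.2.1.isPrime
  have h2 := Cfsg.Agent.SL2.two_ne_zero_of_char (F := F) p hp
  have hq0 : (Fintype.card F : ℂ) ≠ 0 := Nat.cast_ne_zero.mpr Fintype.card_ne_zero
  have hq1 : (1 : ℂ) ≠ Fintype.card F := by exact_mod_cast Fintype.one_lt_card.ne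
  have hneg : ∀ χ : SL2 F → ℂ, IsIrrCharacter _ χ → χ (-1) = -χ 1 → χ 1 ≠ Fintype.card F := by
    intro χ hχ h1 h3
    rw [sl_degree_q hχ h3, stSL_neg_one, stSL_apply_one] at h1
    exact hq0 (by linear_combination h1 / 2)
  have hnn : ∀ χ : SL2 F → ℂ, IsIrrCharacter _ χ → χ (-1) = -χ 1 → χ (-1) ≠ χ 1 := by
    intro χ hχ h1 h3
    exact isIrr_one_ne_zero hχ (by linear_combination (h1 - h3) / 2)
  set B1 := {χ : IrrCharacter (SL2 F) | (χ : SL2 F → ℂ) 1 = Fintype.card F} with hB1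
  set B2 := {χ : IrrCharacter (SL2 F) | (χ : SL2 F → ℂ) (-1) = (χ : SL2 F → ℂ) 1 ∧
    (χ : SL2 F → ℂ) 1 ≠ Fintype.card F} with hB2
  set B3 := {χ : IrrCharacter (SL2 F) | (χ : SL2 F → ℂ) (-1) = -(χ : SL2 F → ℂ) 1} with hB3
  have e1 : blockOf M (stSL F) = B1 := by
    ext ψ
    constructor
    · intro h
      by_contra h1
      exact sl_not_sameBlock_st hM hp ψ.2 h1 (sameBlock_symm h)
    · intro h
      change SameBlock M _ _
      rw [sl_degree_q ψ.2 h]
      exact sameBlock_refl hP _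
  have e2 : ∀ χ : IrrCharacter (SL2 F), χ ∈ B2 → blockOf M (χ : SL2 F → ℂ) = B2 := by
    intro χ hχ
    ext ψ
    constructor
    · intro h
      refine ⟨(irr_neg_one ψ.2).resolve_right fun h1 =>
        sl_not_sameBlock_sign hM hp χ.2 ψ.2 hχ.1 h1 h, fun h1 => ?_⟩
      apply sl_not_sameBlock_st hM hp χ.2 hχ.2
      rw [← sl_degree_q ψ.2 h1]
      exact h
    · intro h
      refine sl_sameBlock hM χ.2 ψ.2 hχ.2 h.2 ?_
      rw [hχ.1, h.1, div_self (isIrr_one_ne_zero χ.2), div_self (isIrr_one_ne_zero ψ.2)]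
  have e3 : ∀ χ : IrrCharacter (SL2 F), χ ∈ B3 → blockOf M (χ : SL2 F → ℂ) = B3 := by
    intro χ hχ
    ext ψ
    constructor
    · intro h
      exact (irr_neg_one ψ.2).resolve_left fun h1 =>
        sl_not_sameBlock_sign hM hp ψ.2 χ.2 h1 hχ (sameBlock_symm h)
    · intro h
      refine sl_sameBlock hM χ.2 ψ.2 (hneg _ χ.2 hχ) (hneg _ ψ.2 h) ?_
      rw [show (χ : SL2 F → ℂ) (-1) = _ from hχ, show (ψ : SL2 F → ℂ) (-1) = _ from h, neg_div,
        neg_div, div_self (isIrr_one_ne_zero χ.2), div_self (isIrr_one_ne_zero ψ.2)]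
  obtain ⟨χ₀, h0, h0'⟩ := exists_irr_neg h2
  have m1 : (⟨stSL F, isIrr_stSL⟩ : IrrCharacter (SL2 F)) ∈ B1 := stSL_apply_one
  have m2 : (⟨fun _ => 1, isIrr_one⟩ : IrrCharacter (SL2 F)) ∈ B2 := ⟨rfl, hq1⟩
  have m3 : (⟨χ₀, h0⟩ : IrrCharacter (SL2 F)) ∈ B3 := h0'
  have hB : ∀ B : Set (IrrCharacter (SL2 F)), IsPBlock M B ↔ B = B1 ∨ B = B2 ∨ B = B3 := by
    intro B
    constructor
    · rintro ⟨χ, rfl⟩
      by_cases h1 : (χ : SL2 F → ℂ) 1 = Fintype.card F
      · left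
        rw [sl_degree_q χ.2 h1, e1]
      · rcases irr_neg_one χ.2 with h3 | h3
        · exact Or.inr (Or.inl (e2 χ ⟨h3, h1⟩))
        · exact Or.inr (Or.inr (e3 χ h3))
    · rintro (rfl | rfl | rfl)
      · exact ⟨⟨stSL F, isIrr_stSL⟩, e1.symm⟩
      · exact ⟨_, (e2 _ m2).symm⟩
      · exact ⟨_, (e3 _ m3).symm⟩
  have hqd : (p : ℤ) ∣ Fintype.card F := Int.natCast_dvd_natCast.mpr (char_dvd_q F p)
  have hpp : Prime (p : ℤ) := Nat.prime_iff_prime_int.mp hM.1
  have hp2 : ¬ (p : ℤ) ∣ 2 := fun h => hp ((Nat.prime_dvd_prime_iff_eq hM.1 Nat.prime_two).mp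
    (Int.natCast_dvd_natCast.mp h))
  have hp1 : ¬ (p : ℤ) ∣ 1 := hpp.not_dvd_one
  refine ⟨hB, ?_, fun P => ⟨?_, ?_⟩⟩
  · rw [show Nat.card {B : Set (IrrCharacter (SL2 F)) // IsPBlock M B} =
      Set.ncard {B : Set (IrrCharacter (SL2 F)) | IsPBlock M B} from rfl, Set.ncard_eq_three]
    refine ⟨B1, B2, B3, fun h => (h ▸ m1).2 m1, fun h => hneg _ h0 h0' (h ▸ m3 : _ ∈ B1),
      fun h => hnn _ h0 h0' (h ▸ m3 : _ ∈ B2).1, ?_⟩
    ext B
    simp only [Set.mem_ofPred_eq, Set.mem_insert_iff, Set.mem_singleton_iff]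
    exact hB B
  · refine isDefectGroup_sylow hM (a := (Fintype.card F : ℤ) * (Fintype.card F - 2) - 1)
      (b := 2 * (Fintype.card F * Fintype.card F - 1)) (fun h => hp1 ?_) (fun h => hp1 ?_) ?_ P
    · exact (dvd_sub_right (hqd.mul_right _)).mp h
    · exact (dvd_sub_right (hqd.mul_right _)).mp ((hpp.dvd_or_dvd h).resolve_left hp2)
    · rw [hB2, blockCoeff_one (fun χ => χ (-1) = χ 1 ∧ χ 1 ≠ Fintype.card F)]
      have h3 := (sum_sign h2).1
      rw [← Finset.add_sum_erase _ _ (Finset.mem_univ ⟨stSL F, isIrr_stSL⟩),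
        if_pos (stSL_neg_one.trans stSL_apply_one.symm)] at h3
      rw [← Finset.add_sum_erase _ _ (Finset.mem_univ ⟨stSL F, isIrr_stSL⟩),
        if_neg (fun h => h.2 stSL_apply_one), Finset.sum_congr rfl (g := fun χ : IrrCharacter (SL2 F) =>
          if (χ : SL2 F → ℂ) (-1) = (χ : SL2 F → ℂ) 1 then (χ : SL2 F → ℂ) 1 ^ 2 else 0)]
      · have h4 := card_ne_zero (G := SL2 F)
        rw [card_SL2] at h3 h4 ⊢
        simp only [stSL_apply_one] at h3
        have h5 := right_ne_zero_of_mul h4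
        have h6 : (Fintype.card F : ℂ) * Fintype.card F - 1 ≠ 0 := by rwa [← sq]
        push_cast
        field_simp
        linear_combination h3
      · intro χ hχ
        have h4 : (χ : SL2 F → ℂ) 1 ≠ Fintype.card F := fun h =>
          Finset.ne_of_mem_erase hχ (Subtype.ext (sl_degree_q χ.2 h))
        simp [h4]
  · refine isDefectGroup_sylow hM (a := 1) (b := 2) hp1 hp2 ?_ P
    rw [hB3, blockCoeff_one (fun χ => χ (-1) = -χ 1)]
    have h3 := (sum_sign h2).2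
    have h4 := card_ne_zero (G := SL2 F)
    push_cast
    field_simp
    linear_combination h3

end Cfsg.Agent.S2439
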