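import Cfsg.Statements.S2441
import Cfsg.Agent.StB.St

set_option autoImplicit false
open Cfsg

namespace Cfsg.Agent.S2441

/-- For a prime p, the Chevalley groups of types G₂, F₄ and E₈ over the field with p elements (types for which the simply connected and adjoint groups coincide, so the group has trivial centre) each have exactly two p-blocks relative to any maximal ideal of the algebraic integers containing p (only the count is asserted; it arises as the defect-zero block of the Steinberg character plus a single block of maximal defect). -/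
theorem result (p : ℕ) [Fact p.Prime] (M : Ideal Cfsg.AlgInt) (hM : Cfsg.IsPModular p M) :
    Nat.card {B : Set (Cfsg.IrrCharacter (Cfsg.Lie.chevG2.group (ZMod p))) // Cfsg.IsPBlock M B} = 2 ∧
    Nat.card {B : Set (Cfsg.IrrCharacter (Cfsg.Lie.chevF4.group (ZMod p))) // Cfsg.IsPBlock M B} = 2 ∧
    Nat.card {B : Set (Cfsg.IrrCharacter (Cfsg.Lie.chevE8.group (ZMod p))) // Cfsg.IsPBlock M B} = 2 := by
  have key : ∀ {D : Cfsg.Lie.ChevalleyDatum} (C : Chev.Cert D),
      Nat.card {B : Set (Cfsg.IrrCharacter (D.group (ZMod p))) // Cfsg.IsPBlock M B} = 2 := by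
    intro D C
    have := Fintype.ofFinite ↥(D.group (ZMod p))
    have : Nonempty (Chev.Nd D) := ⟨⟨0, by have := C.two_le_rank; omega⟩⟩
    have hφ := C.sys_φ_inj (ZMod p)
    have hZ := (C.sys (ZMod p)).center_eq_bot hφ
    rw [(StB.sbn_good _ hφ p).card_blocks hM (by
      rw [hZ, Subgroup.card_bot]; exact (Fact.out : p.Prime).not_dvd_one)
      (StB.isIrr_St (S := C.sys (ZMod p))) (StB.defZero_St hφ p) (fun z hz => by
        rw [hZ, Subgroup.mem_bot] at hz; rw [hz]), hZ, Subgroup.card_bot]
  exact ⟨key Chev.certG2, key Chev.certF4, key Chev.certE8⟩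

end Cfsg.Agent.S2441
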