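import Cfsg.Statements.S2442
import Cfsg.Agent.Hall.Series

set_option autoImplicit false
open scoped MatrixGroups
open Cfsg

namespace Cfsg.Agent.S2442

open Cfsg.Agent.Hall in
theorem sum_eq_zero {F : Type*} [Field F] [Finite F] {a k : ℕ} [Fintype (GL (Fin (a + k)) F)]
    (ha : 0 < a) (hk : 0 < k) {σ : CF F} (h : Cusp (a + k) σ) (P : GL (Fin (a + k)) F → Prop)
    [DecidablePred P] (hP : ∀ g, P g ↔ ∀ i j : Fin (a + k), ¬ (i.val < a ∧ a ≤ j.val) →
      (g : Matrix (Fin (a + k)) (Fin (a + k)) F) i j = (1 : Matrix (Fin (a + k)) (Fin (a + k)) F) i j) :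
    (∑ g, if P g then mat (a + k) σ g else 0) = 0 := by
  have h1 := h.cc_eq_zero ha hk rfl 1 (cl (1 : Module.End F (Fin k → F)))
  have h2 : ∀ g, P g → ∀ i j, g.1 (Fin.castAdd k i) (Fin.castAdd k j) = if i = j then 1 else 0 :=
    fun g hg i j => by rw [(hP g).1 hg _ _ (by simp), Matrix.one_apply]; simp
  have h3 : ∀ g, P g → ∀ i j, g.1 (Fin.natAdd a i) (Fin.castAdd k j) = 0 := fun g hg i j => by
    rw [(hP g).1 hg _ _ (by simp), Matrix.one_apply_ne fun e => ?_]
    have := congrArg Fin.val e
    simp only [Fin.val_natAdd, Fin.val_castAdd] at this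
    omega
  have h4 : ∀ g, P g → ∀ i j, g.1 (Fin.natAdd a i) (Fin.natAdd a j) = if i = j then 1 else 0 :=
    fun g hg i j => by rw [(hP g).1 hg _ _ (by simp), Matrix.one_apply]; simp
  let Φ : {g // P g} → Matrix (Fin a) (Fin k) F := fun g =>
    Matrix.of fun i j => g.1.1 (Fin.castAdd k i) (Fin.natAdd a j)
  have h5 : Function.Bijective Φ := by
    refine ⟨fun g g' e => Subtype.ext (Units.ext (Matrix.ext fun i j => ?_)), fun B => ?_⟩
    · by_cases hij : i.val < a ∧ a ≤ j.val
      · have := congrFun (congrFun e ⟨i, hij.1⟩) ⟨j - a, by omega⟩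
        simp only [Φ, Matrix.of_apply] at this
        rwa [show Fin.natAdd a ⟨j - a, by omega⟩ = j from Fin.ext (by simp [hij.2])] at this
      · rw [(hP _).1 g.2 _ _ hij, (hP _).1 g'.2 _ _ hij]
    · refine ⟨⟨Matrix.GeneralLinearGroup.mkOfDetNeZero
        (Matrix.reindex finSumFinEquiv finSumFinEquiv (Matrix.fromBlocks 1 B 0 1)) (by simp),
        (hP _).2 fun i j hij => ?_⟩, Matrix.ext fun i j => by simp [Φ]⟩
      induction i using Fin.addCases <;> induction j using Fin.addCases
      · simp [Matrix.one_apply]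
      · simp at hij
      · rw [Matrix.one_apply_ne fun e => ?_]
        · simp
        · have := congrArg Fin.val e
          simp only [Fin.val_natAdd, Fin.val_castAdd] at this
          omega
      · simp [Matrix.one_apply]
  rw [cc_cl, ← av_equiv ((Equiv.ofBijective Φ h5).trans Matrix.toLin'.toEquiv)
    (f := fun g => mat (a + k) σ g.1) fun g => ?_, av_eq, mul_eq_zero, inv_eq_zero, Nat.cast_eq_zero,
    Nat.card_congr (Equiv.ofBijective Φ h5), or_iff_right Nat.card_pos.ne'] at h1
  · rw [← Finset.sum_filter, Finset.sum_subtype _ (p := P) (by simp), h1]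
  · refine congrArg σ (cl_eq (LinearMap.linearEquivOfInjective ((LinearMap.funLeft F F (Fin.castAdd k)).prod
      (LinearMap.funLeft F F (Fin.natAdd a))) (fun v w e => ?_) (by simp))
      fun v => Prod.ext (funext fun i => ?_) (funext fun i => ?_))
    · funext i
      induction i using Fin.addCases with
      | left i => exact congrFun (congrArg Prod.fst e) i
      | right i => exact congrFun (congrArg Prod.snd e) i
    · change ∑ j, g.1.1 (Fin.castAdd k i) j * v j = ∑ j, (1 : Matrix (Fin a) (Fin a) F) i j *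
        v (Fin.castAdd k j) + ∑ j, g.1.1 (Fin.castAdd k i) (Fin.natAdd a j) * v (Fin.natAdd a j)
      simp only [Fin.sum_univ_add, h2 _ g.2, Matrix.one_apply]
    · change ∑ j, g.1.1 (Fin.natAdd a i) j * v j = v (Fin.natAdd a i)
      simp [Fin.sum_univ_add, h3 _ g.2, h4 _ g.2]

open Classical in
/-- Let F be a finite field with q elements and n ≥ 2. Call a complex character χ of GL_n over F cuspidal when, for every 0 < m < n, the sum of χ over the subgroup of matrices that agree with the identity outside the upper right m × (n − m) block vanishes (the restriction of χ to the unipotent radical of each maximal standard parabolic subgroup contains no principal constituent). Then GL_n has at least φ(qⁿ − 1)/n distinct cuspidal irreducible characters of degree (q − 1)(q² − 1)⋯(q^(n−1) − 1), φ being Euler's function (in particular at least one). -/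
theorem result {F : Type*} [Field F] [Fintype F] [DecidableEq F] (n : ℕ) (hn : 2 ≤ n) :
    Nat.totient (Fintype.card F ^ n - 1) / n ≤
      Nat.card {χ : Cfsg.IrrCharacter (GL (Fin n) F) //
        (χ : GL (Fin n) F → ℂ) 1 = ∏ i ∈ Finset.Ico 1 n, ((Fintype.card F : ℂ) ^ i - 1) ∧
        ∀ m : ℕ, 0 < m → m < n →
          (∑ g : GL (Fin n) F,
            if (∀ i j : Fin n, ¬ (i.val < m ∧ m ≤ j.val) → (g : Matrix (Fin n) (Fin n) F) i j = (1 : Matrix (Fin n) (Fin n) F) i j)
            then (χ : GL (Fin n) F → ℂ) g else 0) = 0} := by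
  have h0 : 0 < n := by omega
  refine Nat.div_le_of_le_mul ((Nat.card_eq_fintype_card (α := F) ▸ Hall.totient_le_card_cusp h0).trans
    (Nat.mul_le_mul_left _ ?_))
  obtain ⟨ψ, hψ⟩ := Hall.exists_addChar F
  have h1 : ∀ p : {p : Hall.Cu F // p.1.1 = n}, Hall.Cusp n p.1.1.2 := fun p => by
    have := p.1.2
    rwa [p.2] at this
  refine Nat.card_le_card_of_injective (fun p => ⟨⟨Hall.mat n p.1.1.2, (h1 p).1.2⟩, ?_, fun m h2 h3 => ?_⟩)
    fun p p' e => ?_
  · have := (h1 p).degree hψ
    rwa [(h1 p).del_eq_one hψ, mul_one, Nat.card_eq_fintype_card] at this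
  · obtain ⟨k, rfl⟩ : ∃ k, n = m + k := ⟨n - m, by omega⟩
    exact sum_eq_zero h2 (by omega) (h1 p) _ fun _ => Iff.rfl
  · exact Subtype.ext (Subtype.ext (Prod.ext (p.2.trans p'.2.symm)
      (Hall.hom_ext (h1 p).1.1 (h1 p').1.1 (congrArg (fun x => x.1.1) e))))

end Cfsg.Agent.S2442
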