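import Cfsg.Statements.S2500
import Cfsg.Agent.Cov.SU
import Cfsg.Agent.Cov.Sp6
import Cfsg.Agent.Cov.G2

set_option autoImplicit false
open Cfsg

namespace Cfsg.Agent.S2500

theorem charP_of_dvd (F : Type) [Field F] [Fintype F] (p : ℕ) (hp : p.Prime)
    (h : p ∣ Fintype.card F) : CharP F p := by
  obtain ⟨r, hr⟩ := CharP.exists F
  obtain ⟨n, hr', e⟩ := FiniteField.card F r
  rw [e] at h
  rwa [(Nat.prime_dvd_prime_iff_eq hp hr').1 (hp.dvd_of_dvd_pow h)]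


/-- The infinite families of simple groups with normal covering number 2. For a finite field F: each of PSL_2(F) (|F| ≥ 4), PSL_3(F), PSL_4(F), PSU_4 over F (|F| = q²), PSU_3 over F when |F| = q² with q a power of 3, PSp_{2m}(F) for |F| even, m ≥ 2 and (m, |F|) ≠ (2, 2), PSp_6(F) for |F| a power of 3, and G_2(F) (automorphisms of the split octonions) for |F| = 2^a ≥ 4 is the union of the conjugates of two proper subgroups: there are proper subgroups H, K such that every element is conjugate into H or into K. -/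
theorem result {F : Type} [Field F] [Fintype F] :
    (4 ≤ Fintype.card F → (∃ H K : Subgroup (Matrix.ProjectiveSpecialLinearGroup (Fin 2) F), H ≠ ⊤ ∧ K ≠ ⊤ ∧ ∀ g : (Matrix.ProjectiveSpecialLinearGroup (Fin 2) F), ∃ x : (Matrix.ProjectiveSpecialLinearGroup (Fin 2) F), x * g * x⁻¹ ∈ H ∨ x * g * x⁻¹ ∈ K)) ∧
    (∃ H K : Subgroup (Matrix.ProjectiveSpecialLinearGroup (Fin 3) F), H ≠ ⊤ ∧ K ≠ ⊤ ∧ ∀ g : (Matrix.ProjectiveSpecialLinearGroup (Fin 3) F), ∃ x : (Matrix.ProjectiveSpecialLinearGroup (Fin 3) F), x * g * x⁻¹ ∈ H ∨ x * g * x⁻¹ ∈ K) ∧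
    (∃ H K : Subgroup (Matrix.ProjectiveSpecialLinearGroup (Fin 4) F), H ≠ ⊤ ∧ K ≠ ⊤ ∧ ∀ g : (Matrix.ProjectiveSpecialLinearGroup (Fin 4) F), ∃ x : (Matrix.ProjectiveSpecialLinearGroup (Fin 4) F), x * g * x⁻¹ ∈ H ∨ x * g * x⁻¹ ∈ K) ∧
    (∀ q : ℕ, Fintype.card F = q ^ 2 → (∃ H K : Subgroup (Cfsg.PSU 4 F q), H ≠ ⊤ ∧ K ≠ ⊤ ∧ ∀ g : (Cfsg.PSU 4 F q), ∃ x : (Cfsg.PSU 4 F q), x * g * x⁻¹ ∈ H ∨ x * g * x⁻¹ ∈ K)) ∧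
    (∀ q a : ℕ, Fintype.card F = q ^ 2 → 1 ≤ a → q = 3 ^ a → (∃ H K : Subgroup (Cfsg.PSU 3 F q), H ≠ ⊤ ∧ K ≠ ⊤ ∧ ∀ g : (Cfsg.PSU 3 F q), ∃ x : (Cfsg.PSU 3 F q), x * g * x⁻¹ ∈ H ∨ x * g * x⁻¹ ∈ K)) ∧
    (∀ m : ℕ, 2 ≤ m → ¬ Odd (Fintype.card F) → ¬ (m = 2 ∧ Fintype.card F = 2) → (∃ H K : Subgroup (Cfsg.PSp m F), H ≠ ⊤ ∧ K ≠ ⊤ ∧ ∀ g : (Cfsg.PSp m F), ∃ x : (Cfsg.PSp m F), x * g * x⁻¹ ∈ H ∨ x * g * x⁻¹ ∈ K)) ∧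
    (∀ a : ℕ, 1 ≤ a → Fintype.card F = 3 ^ a → (∃ H K : Subgroup (Cfsg.PSp 3 F), H ≠ ⊤ ∧ K ≠ ⊤ ∧ ∀ g : (Cfsg.PSp 3 F), ∃ x : (Cfsg.PSp 3 F), x * g * x⁻¹ ∈ H ∨ x * g * x⁻¹ ∈ K)) ∧
    (∀ a : ℕ, 2 ≤ a → Fintype.card F = 2 ^ a → (∃ H K : Subgroup (Cfsg.Lie.G2 F), H ≠ ⊤ ∧ K ≠ ⊤ ∧ ∀ g : (Cfsg.Lie.G2 F), ∃ x : (Cfsg.Lie.G2 F), x * g * x⁻¹ ∈ H ∨ x * g * x⁻¹ ∈ K)) := by
  refine ⟨fun _ => Cov.cov_psl2 F, Cov.cov_psl3 F, Cov.cov_psl4 F, fun q hq => Cov.cov_psu4 hq,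
    fun q a hq ha e => ?_, fun m hm ho _ => ?_, fun a ha e => ?_, fun a ha e => ?_⟩
  · have := charP_of_dvd F 3 Nat.prime_three (by
      rw [hq, e, ← pow_mul]; exact dvd_pow_self 3 (by omega))
    exact Cov.cov_psu3 hq
  · have := charP_of_dvd F 2 Nat.prime_two (even_iff_two_dvd.1 (Nat.not_odd_iff_even.1 ho))
    exact Cov.cov_psp_even F hm
  · have := charP_of_dvd F 3 Nat.prime_three (by rw [e]; exact dvd_pow_self 3 (by omega))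
    exact Cov.cov_psp6 F
  · have := charP_of_dvd F 2 Nat.prime_two (by rw [e]; exact dvd_pow_self 2 (by omega))
    exact Cov.cov_g2 F

end Cfsg.Agent.S2500
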